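import Cfsg.Agent.Lib.Helper23.TwE6

set_option autoImplicit false

namespace Cfsg.Agent.Lib.Helper23

open Cfsg.Lie Matrix
open scoped commutatorElement

/-- the orbits of the triality symmetry of `D₄` -/
def OD4 : List (List ℕ) := [[1], [0, 2, 3]]

theorem memD4 : chevD4 ∈ [chevG2, chevB2, chevD4, chevF4, chevE6, chevE7, chevE8] := by simp

theorem sgD4 : sgR chevD4 true 0 = d4p1 ∧ sgR chevD4 true 1 = d4p2 ∧ sgR chevD4 true 2 = d4p3 ∧
    sgR chevD4 true 3 = d4p4 ∧ sgR chevD4 false 0 = d4m1 ∧ sgR chevD4 false 1 = d4m2 ∧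
    sgR chevD4 false 2 = d4m3 ∧ sgR chevD4 false 3 = d4m4 := by
  decide +kernel

theorem orthD4 : OrthT chevD4 0 2 ∧ OrthT chevD4 0 3 ∧ OrthT chevD4 2 3 := by decide +kernel

theorem rankD4 : ∀ J ∈ OD4, ∀ i ∈ J, i < chevD4.rank := by decide +kernel

theorem covD4 : ∀ i < chevD4.rank, ∃ J ∈ OD4, i ∈ J := by decide +kernel

theorem cartD4 : ∀ J ∈ OD4, ∀ i ∈ J, ∀ sg, chevD4.cartan i (sgR chevD4 sg i) = AddFact.e2 sg := by decide +kernel

theorem longD4 : TwLong chevD4 OD4 [[1], [0, 2, 3], [1], [0, 2, 3], [1], [0, 2, 3]] := by decide +kernel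

theorem orbD4 : TwOrb chevD4 OD4 [10, 9, 8, 8, 7, 6, 8, 7, 7, 6, 6, 6, 1, 1, 1, 2, 2, 3, 1, 2, 3, 3, 4, 5] := by
  decide +kernel

theorem heisD4 : wact chevD4 [0, 2, 3] (chevD4.simple 1) = 22 ∧ [0, 2, 3].map chevD4.simple = [18, 13, 12] ∧
    [18, 13, 12].map (wact chevD4 ([0, 2, 3] ++ [1])) = [17, 20, 21] ∧
    Term1 chevD4 18 17 22 ∧ Term1 chevD4 13 20 22 ∧ Term1 chevD4 12 21 22 ∧
    Term0 chevD4 18 20 ∧ Term0 chevD4 18 21 ∧ Term0 chevD4 13 17 ∧ Term0 chevD4 13 21 ∧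
    Term0 chevD4 12 17 ∧ Term0 chevD4 12 20 ∧
    Term0 chevD4 22 18 ∧ Term0 chevD4 22 13 ∧ Term0 chevD4 22 12 ∧
    Term0 chevD4 22 17 ∧ Term0 chevD4 22 20 ∧ Term0 chevD4 22 21 := by decide +kernel

theorem moveD4 : wact chevD4 [[1]].flatten (chevD4.simple 1) = sgR chevD4 false 1 ∧
    ∀ j ∈ [0, 2, 3], chevD4.cartan j (sgR chevD4 true 1) = -1 := by decide +kernel

variable {K : Type*} [Field K]

theorem orthLD4 (hA : AddFact chevD4 K) : ∀ J ∈ OD4, J.Pairwise hA.Orth := by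
  have h25 := commAll_of_mem K memD4
  intro J hJ
  simp only [OD4, List.mem_cons, List.not_mem_nil, or_false] at hJ
  rcases hJ with rfl | rfl
  · exact List.pairwise_singleton _ _
  · rw [List.pairwise_cons, List.pairwise_pair]
    refine ⟨?_, hA.orth_of_T h25 orthD4.2.2⟩
    intro j hj
    simp only [List.mem_cons, List.not_mem_nil, or_false] at hj
    rcases hj with rfl | rfl
    · exact hA.orth_of_T h25 orthD4.1
    · exact hA.orth_of_T h25 orthD4.2.1

/-- the twisted group `³D₄` in terms of orbits -/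
theorem twistedD4_eq (hA : AddFact chevD4 K) {q : ℕ} (φ : K →+* K) (h1 : ∀ t, φ t = t ^ q)
    (h2 : ∀ t, (φ ^ 3) t = t) : twistedD4 K q = hA.twG φ OD4 := by
  obtain ⟨a0, a1, a2, a3, b0, b1, b2, b3⟩ := sgD4
  have hpw : ∀ t : K, (t ^ q) ^ q = t ^ q ^ 2 := fun t => by rw [← pow_mul, pow_two]
  apply le_antisymm
  · apply hA.gen_le
    rintro w (⟨t, ht, r, hr, rfl⟩ | ⟨t, rs, hrs, rfl⟩)
    · have ht' : (φ ^ [0].length) t = t := by simp [h1, ht]
      simp only [List.mem_cons, List.not_mem_nil, or_false] at hr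
      rcases hr with rfl | rfl
      · have := hA.xJ_mem φ (O := OD4) (J := [1]) (by simp [OD4]) true ht'
        simpa [AddFact.W, a1] using this
      · have := hA.xJ_mem φ (O := OD4) (J := [1]) (by simp [OD4]) false ht'
        simpa [AddFact.W, b1] using this
    · have ht' : (φ ^ [0, 0, 0].length) t = t := h2 t
      simp only [List.mem_cons, List.not_mem_nil, or_false] at hrs
      rcases hrs with rfl | rfl
      · have := hA.xJ_mem φ (O := OD4) (J := [0, 2, 3]) (by simp [OD4]) true ht'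
        simpa [AddFact.W, a0, a2, a3, h1, hpw] using this
      · have := hA.xJ_mem φ (O := OD4) (J := [0, 2, 3]) (by simp [OD4]) false ht'
        simpa [AddFact.W, b0, b2, b3, h1, hpw] using this
  · rw [AddFact.twG, Subgroup.closure_le]
    rintro g ⟨J, hJ, sg, t, ht, rfl⟩
    have single : ∀ r ∈ [d4p2, d4m2], t ^ q = t → hA.X r t ∈ twistedD4 K q := by
      intro r hr ht
      have : hA.W [(r, t)] ∈ twistedD4 K q :=
        hA.mem_gen (S := d4Words K q) (w := [(r, t)]) (Or.inl ⟨t, ht, r, hr, rfl⟩)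
      simpa [AddFact.W] using this
    have triple : ∀ rs ∈ [(d4p1, d4p3, d4p4), (d4m1, d4m3, d4m4)],
        hA.X rs.1 t * (hA.X rs.2.1 (t ^ q) * hA.X rs.2.2 (t ^ q ^ 2)) ∈ twistedD4 K q := by
      intro rs hrs
      have : hA.W [(rs.1, t), (rs.2.1, t ^ q), (rs.2.2, t ^ q ^ 2)] ∈ twistedD4 K q :=
        hA.mem_gen (S := d4Words K q) (w := [(rs.1, t), (rs.2.1, t ^ q), (rs.2.2, t ^ q ^ 2)])
          (Or.inr ⟨t, rs, hrs, rfl⟩)
      simpa [AddFact.W] using this
    simp only [OD4, List.mem_cons, List.not_mem_nil, or_false] at hJ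
    rcases hJ with rfl | rfl
    · have ht' : t ^ q = t := by simpa [h1] using ht
      cases sg
      · simpa [b1] using single d4m2 (by simp) ht'
      · simpa [a1] using single d4p2 (by simp) ht'
    · cases sg
      · simpa [b0, b2, b3, h1, hpw] using triple (d4m1, d4m3, d4m4) (by simp)
      · simpa [a0, a2, a3, h1, hpw] using triple (d4p1, d4p3, d4p4) (by simp)

end Cfsg.Agent.Lib.Helper23
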