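import Cfsg.Agent.Lib.Helper23.TwAutAbs

/-!
# Automorphisms of twisted groups: the field automorphism (abstract)
-/

set_option autoImplicit false

namespace Cfsg.Agent.Lib.Helper23.TwAut

open Cfsg.Agent.Lib.Helper45.AutAbs

variable {G : Type*} [Group G] {I : Type*} {K : Type*} [Field K]

/-- `n_i(t)` -/
def nT (xp xm : I → K → G) (i : I) (t : K) : G := xp i t * xm i (-t⁻¹) * xp i t

/-- `h_i(t)` -/
def hT (xp xm : I → K → G) (i : I) (t : K) : G := nT xp xm i t * nT xp xm i (-1)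

/-- the axioms for the parametrised fundamental root subgroups -/
structure TSys (S : I → Subfield K) (xp xm : I → K → G) (Xp Xm : I → Subgroup G) (V B : Subgroup G)
    (L : I → I → Prop) (i0 : I) : Prop where
  mem_Xp : ∀ i g, g ∈ Xp i ↔ ∃ t ∈ S i, g = xp i t
  mem_Xm : ∀ i g, g ∈ Xm i ↔ ∃ t ∈ S i, g = xm i t
  xp_add : ∀ i, ∀ t ∈ S i, ∀ u ∈ S i, xp i (t + u) = xp i t * xp i u
  xm_add : ∀ i, ∀ t ∈ S i, ∀ u ∈ S i, xm i (t + u) = xm i t * xm i u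
  xp_inj : ∀ i, ∀ t ∈ S i, xp i t = 1 → t = 0
  xm_inj : ∀ i, ∀ t ∈ S i, xm i t = 1 → t = 0
  Xp_le : ∀ i, Xp i ≤ B
  Xm_le : ∀ i, Xm i ≤ V
  BV : ∀ g, g ∈ B → g ∈ V → g = 1
  n_conj : ∀ i, ∀ t ∈ S i, t ≠ 0 → Mp (cj (nT xp xm i t)) (Xp i) (Xm i)
  hVB : ∀ i, ∀ t ∈ S i, t ≠ 0 → ∀ v ∈ V, ∀ b ∈ B, nT xp xm i t ≠ v * b
  h_self : ∀ i, ∀ c ∈ S i, c ≠ 0 → ∀ u ∈ S i,
    hT xp xm i c * xp i u * (hT xp xm i c)⁻¹ = xp i (c ^ 2 * u)
  h_link : ∀ i j, L i j → S i ≤ S j ∧ ∀ c ∈ S i, c ≠ 0 → ∀ u ∈ S j,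
    hT xp xm i c * xp j u * (hT xp xm i c)⁻¹ = xp j (c⁻¹ * u)
  conn : ∀ i, Relation.ReflTransGen L i i0
  top : S i0 = ⊤

namespace TSys

variable {S : I → Subfield K} {xp xm : I → K → G} {Xp Xm : I → Subgroup G} {V B : Subgroup G}
  {L : I → I → Prop} {i0 : I} (T : TSys S xp xm Xp Xm V B L i0)
include T

theorem xp_zero (i : I) : xp i 0 = 1 := by
  have := T.xp_add i 0 (S i).zero_mem 0 (S i).zero_mem
  rw [add_zero] at this
  exact (mul_eq_left.1 this.symm)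

theorem xm_zero (i : I) : xm i 0 = 1 := by
  have := T.xm_add i 0 (S i).zero_mem 0 (S i).zero_mem
  rw [add_zero] at this
  exact (mul_eq_left.1 this.symm)

theorem xp_neg (i : I) {t : K} (ht : t ∈ S i) : xp i (-t) = (xp i t)⁻¹ := by
  rw [eq_inv_iff_mul_eq_one, ← T.xp_add i _ ((S i).neg_mem ht) _ ht, neg_add_cancel, T.xp_zero]

theorem xm_neg (i : I) {t : K} (ht : t ∈ S i) : xm i (-t) = (xm i t)⁻¹ := by
  rw [eq_inv_iff_mul_eq_one, ← T.xm_add i _ ((S i).neg_mem ht) _ ht, neg_add_cancel, T.xm_zero]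

theorem xp_injective (i : I) {t u : K} (ht : t ∈ S i) (hu : u ∈ S i) (h : xp i t = xp i u) : t = u := by
  have : xp i (t + -u) = 1 := by
    rw [T.xp_add i _ ht _ ((S i).neg_mem hu), T.xp_neg i hu, h, mul_inv_cancel]
  have := T.xp_inj i _ ((S i).add_mem ht ((S i).neg_mem hu)) this
  exact eq_neg_of_add_eq_zero_left this |>.trans (neg_neg u)

theorem xm_injective (i : I) {t u : K} (ht : t ∈ S i) (hu : u ∈ S i) (h : xm i t = xm i u) : t = u := by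
  have : xm i (t + -u) = 1 := by
    rw [T.xm_add i _ ht _ ((S i).neg_mem hu), T.xm_neg i hu, h, mul_inv_cancel]
  have := T.xm_inj i _ ((S i).add_mem ht ((S i).neg_mem hu)) this
  exact eq_neg_of_add_eq_zero_left this |>.trans (neg_neg u)

theorem nT_neg (i : I) {t : K} (ht : t ∈ S i) : nT xp xm i (-t) = (nT xp xm i t)⁻¹ := by
  unfold nT
  rw [T.xp_neg i ht, inv_neg, neg_neg, mul_inv_rev, mul_inv_rev,
    ← T.xm_neg i ((S i).neg_mem ((S i).inv_mem ht)), neg_neg, mul_assoc]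

theorem nT_mul_nT_neg (i : I) (a : K) {b : K} (hb : b ∈ S i) :
    nT xp xm i a * nT xp xm i (-b) = hT xp xm i a * (hT xp xm i b)⁻¹ := by
  unfold hT
  rw [T.nT_neg i hb]
  group

/-- the rank one analysis at the node `i` -/
theorem node {θ : G ≃* G} {i : I} (hp : Mp θ (Xp i) (Xp i)) (hm : Mp θ (Xm i) (Xm i)) :
    ∃ f g : K → K, (∀ t ∈ S i, f t ∈ S i ∧ g t ∈ S i ∧ θ (xp i t) = xp i (f t) ∧
        θ (xm i t) = xm i (g t)) ∧
      ∀ t ∈ S i, t ≠ 0 → f t ≠ 0 ∧ g (-t⁻¹) = -(f t)⁻¹ ∧ θ (nT xp xm i t) = nT xp xm i (f t) := by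
  have h1 : ∀ t : K, ∃ u : K, t ∈ S i → u ∈ S i ∧ θ (xp i t) = xp i u := by
    intro t
    by_cases ht : t ∈ S i
    · obtain ⟨u, hu, e⟩ := (T.mem_Xp i _).1 (hp.mem ((T.mem_Xp i _).2 ⟨t, ht, rfl⟩))
      exact ⟨u, fun _ => ⟨hu, e⟩⟩
    · exact ⟨0, fun h => absurd h ht⟩
  have h2 : ∀ t : K, ∃ u : K, t ∈ S i → u ∈ S i ∧ θ (xm i t) = xm i u := by
    intro t
    by_cases ht : t ∈ S i
    · obtain ⟨u, hu, e⟩ := (T.mem_Xm i _).1 (hm.mem ((T.mem_Xm i _).2 ⟨t, ht, rfl⟩))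
      exact ⟨u, fun _ => ⟨hu, e⟩⟩
    · exact ⟨0, fun h => absurd h ht⟩
  choose f hf using h1
  choose g hg using h2
  refine ⟨f, g, fun t ht => ⟨(hf t ht).1, (hg t ht).1, (hf t ht).2, (hg t ht).2⟩, ?_⟩
  intro t ht ht0
  have ht' : -t⁻¹ ∈ S i := (S i).neg_mem ((S i).inv_mem ht)
  have hθn : θ (nT xp xm i t) = xp i (f t) * xm i (g (-t⁻¹)) * xp i (f t) := by
    rw [nT, map_mul, map_mul, (hf t ht).2, (hg _ ht').2]
  have key : (⟨g (-t⁻¹), (hg _ ht').1⟩ : ↥(S i)) ≠ 0 ∧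
      (⟨f t, (hf t ht).1⟩ : ↥(S i)) = -(⟨g (-t⁻¹), (hg _ ht').1⟩ : ↥(S i))⁻¹ := by
    apply rank_one (xp := fun s : ↥(S i) => xp i s) (xm := fun s : ↥(S i) => xm i s) (V := V) (B := B)
      (fun a b => T.xp_add i a a.2 b b.2)
      (fun a => T.Xp_le i ((T.mem_Xp i _).2 ⟨a, a.2, rfl⟩)) T.BV (T.xm_zero i)
      (fun a h => Subtype.ext (T.xp_inj i a a.2 h))
    · intro c hc s
      have hc' : (c : K) ≠ 0 := fun h => hc (Subtype.ext h)
      obtain ⟨k, hk, e⟩ := (T.n_conj i c c.2 hc').exists_preimage ((T.mem_Xm i _).2 ⟨s, s.2, rfl⟩)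
      obtain ⟨s', hs', rfl⟩ := (T.mem_Xp i _).1 hk
      exact ⟨⟨s', hs'⟩, e⟩
    · intro c hc
      have hc' : (c : K) ≠ 0 := fun h => hc (Subtype.ext h)
      exact T.hVB i c c.2 hc'
    · intro s
      show xp i (f t) * xm i (g (-t⁻¹)) * xp i (f t) * xp i s *
        (xp i (f t) * xm i (g (-t⁻¹)) * xp i (f t))⁻¹ ∈ V
      rw [← hθn]
      obtain ⟨k, hk, e⟩ := hp.exists_preimage ((T.mem_Xp i _).2 ⟨s, s.2, rfl⟩)
      rw [← e, ← map_mul, ← map_inv, ← map_mul]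
      apply T.Xm_le i
      apply hm.mem
      exact (T.n_conj i t ht ht0).mem hk
  obtain ⟨k1, k2⟩ := key
  have k1' : g (-t⁻¹) ≠ 0 := fun h => k1 (Subtype.ext h)
  have k2' : f t = -(g (-t⁻¹))⁻¹ := congrArg Subtype.val k2
  have h1 : g (-t⁻¹) = -(f t)⁻¹ := by
    rw [k2', inv_neg, inv_inv, neg_neg]
  have h2 : f t ≠ 0 := by
    rw [k2']
    exact neg_ne_zero.2 (inv_ne_zero k1')
  refine ⟨h2, h1, ?_⟩
  rw [hθn, h1, nT]

omit T in
/-- conjugation by `h(a) h(b)⁻¹` -/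
theorem conj_hh {h : K → G} {x : K → G} {χ : K → K} {S₁ S₂ : Subfield K}
    (hχ : ∀ c ∈ S₁, c ≠ 0 → χ c ∈ S₂ ∧ χ c ≠ 0)
    (hc : ∀ c ∈ S₁, c ≠ 0 → ∀ u ∈ S₂, h c * x u * (h c)⁻¹ = x (χ c * u))
    {a b u : K} (ha : a ∈ S₁) (ha0 : a ≠ 0) (hb : b ∈ S₁) (hb0 : b ≠ 0) (hu : u ∈ S₂) :
    (h a * (h b)⁻¹) * x u * (h a * (h b)⁻¹)⁻¹ = x (χ a * ((χ b)⁻¹ * u)) := by
  have hb1 := hχ b hb hb0
  have hu' : (χ b)⁻¹ * u ∈ S₂ := S₂.mul_mem (S₂.inv_mem hb1.1) hu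
  have e1 := hc b hb hb0 _ hu'
  rw [mul_inv_cancel_left₀ hb1.2] at e1
  rw [← hc a ha ha0 _ hu', ← e1]
  group

/-- **an automorphism fixing all the fundamental root subgroups is diagonal times field** -/
theorem exists_std [Finite K] {θ : G ≃* G} (hθ : ∀ i, Mp θ (Xp i) (Xp i) ∧ Mp θ (Xm i) (Xm i)) :
    ∃ (τ : K ≃+* K) (c : I → K), (∀ i, c i ∈ S i ∧ c i ≠ 0) ∧ ∀ i, ∀ t ∈ S i,
      θ (xp i t) = xp i (c i * τ t) ∧ θ (xm i t) = xm i ((c i)⁻¹ * τ t) := by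
  choose f g hfg hn using fun i => T.node (hθ i).1 (hθ i).2
  have hfS : ∀ i, ∀ t ∈ S i, f i t ∈ S i := fun i t ht => (hfg i t ht).1
  have hf : ∀ i, ∀ t ∈ S i, θ (xp i t) = xp i (f i t) := fun i t ht => (hfg i t ht).2.2.1
  have hg : ∀ i, ∀ t ∈ S i, θ (xm i t) = xm i (g i t) := fun i t ht => (hfg i t ht).2.2.2
  have fadd : ∀ i, ∀ t ∈ S i, ∀ u ∈ S i, f i (t + u) = f i t + f i u := by
    intro i t ht u hu
    apply T.xp_injective i (hfS i _ ((S i).add_mem ht hu)) ((S i).add_mem (hfS i t ht) (hfS i u hu))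
    rw [← hf i _ ((S i).add_mem ht hu), T.xp_add i t ht u hu, map_mul, hf i t ht, hf i u hu,
      T.xp_add i _ (hfS i t ht) _ (hfS i u hu)]
  have fzero : ∀ i, f i 0 = 0 := by
    intro i
    apply T.xp_injective i (hfS i _ (S i).zero_mem) (S i).zero_mem
    rw [← hf i _ (S i).zero_mem, T.xp_zero, map_one]
  have gzero : ∀ i, g i 0 = 0 := by
    intro i
    apply T.xm_injective i (hfg i _ (S i).zero_mem).2.1 (S i).zero_mem
    rw [← hg i _ (S i).zero_mem, T.xm_zero, map_one]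
  have fneg : ∀ i, ∀ t ∈ S i, f i (-t) = - f i t := by
    intro i t ht
    apply T.xp_injective i (hfS i _ ((S i).neg_mem ht)) ((S i).neg_mem (hfS i t ht))
    rw [← hf i _ ((S i).neg_mem ht), T.xp_neg i ht, map_inv, hf i t ht, T.xp_neg i (hfS i t ht)]
  have finj : ∀ i, ∀ t ∈ S i, ∀ u ∈ S i, f i t = f i u → t = u := by
    intro i t ht u hu h
    apply T.xp_injective i ht hu
    apply θ.injective
    rw [hf i t ht, hf i u hu, h]
  have one_mem : ∀ i, (1 : K) ∈ S i := fun i => (S i).one_mem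
  have c0 : ∀ i, f i 1 ≠ 0 := fun i => (hn i 1 (one_mem i) one_ne_zero).1
  have cS : ∀ i, f i 1 ∈ S i := fun i => hfS i 1 (one_mem i)
  -- the image of `h_i(c)`
  have hh : ∀ i, ∀ c ∈ S i, c ≠ 0 →
      θ (hT xp xm i c) = hT xp xm i (f i c) * (hT xp xm i (f i 1))⁻¹ := by
    intro i c hc hc0
    rw [hT, map_mul, (hn i c hc hc0).2.2,
      (hn i (-1) ((S i).neg_mem (one_mem i)) (neg_ne_zero.2 one_ne_zero)).2.2, fneg i 1 (one_mem i),
      T.nT_mul_nT_neg i _ (cS i)]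
  set F : I → K → K := fun i t => (f i 1)⁻¹ * f i t with hF
  have F1 : ∀ i, F i 1 = 1 := fun i => inv_mul_cancel₀ (c0 i)
  have Fadd : ∀ i, ∀ t ∈ S i, ∀ u ∈ S i, F i (t + u) = F i t + F i u := by
    intro i t ht u hu
    simp only [hF]
    rw [fadd i t ht u hu, mul_add]
  have Fzero : ∀ i, F i 0 = 0 := fun i => by simp only [hF]; rw [fzero, mul_zero]
  have Fsq : ∀ i, ∀ c ∈ S i, ∀ u ∈ S i, F i (c ^ 2 * u) = F i c ^ 2 * F i u := by
    intro i c hc u hu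
    by_cases hc0 : c = 0
    · rw [hc0]
      simp only [ne_eq, OfNat.ofNat_ne_zero, not_false_eq_true, zero_pow, zero_mul, Fzero]
    · have e1 := congrArg θ (T.h_self i c hc hc0 u hu)
      rw [map_mul, map_mul, map_inv, hh i c hc hc0, hf i u hu,
        hf i _ ((S i).mul_mem ((S i).pow_mem hc 2) hu),
        conj_hh (S₁ := S i) (S₂ := S i) (χ := fun c => c ^ 2)
          (fun c hc hc0 => ⟨(S i).pow_mem hc 2, pow_ne_zero 2 hc0⟩) (T.h_self i)
          (hfS i c hc) (hn i c hc hc0).1 (cS i) (c0 i) (hfS i u hu)] at e1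
      have e2 := T.xp_injective i ((S i).mul_mem ((S i).pow_mem (hfS i c hc) 2)
        ((S i).mul_mem ((S i).inv_mem ((S i).pow_mem (cS i) 2)) (hfS i u hu)))
        (hfS i _ ((S i).mul_mem ((S i).pow_mem hc 2) hu)) e1
      simp only [hF]
      rw [← e2]
      have := c0 i
      field_simp
  have Fmul : ∀ i, ∀ c ∈ S i, ∀ u ∈ S i, F i (c * u) = F i c * F i u :=
    fun i => mul_of_sq (S i) (F i) (Fadd i) (F1 i) (Fsq i)
  have Flink : ∀ i j, L i j → ∀ c ∈ S i, c ≠ 0 → F j c⁻¹ = (F i c)⁻¹ := by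
    intro i j hL c hc hc0
    obtain ⟨hle, hl⟩ := T.h_link i j hL
    have e1 := congrArg θ (hl c hc hc0 1 (one_mem j))
    rw [map_mul, map_mul, map_inv, hh i c hc hc0, hf j 1 (one_mem j),
      hf j _ ((S j).mul_mem ((S j).inv_mem (hle hc)) (one_mem j)),
      conj_hh (S₁ := S i) (S₂ := S j) (χ := fun c => c⁻¹)
        (fun c hc hc0 => ⟨(S j).inv_mem (hle hc), inv_ne_zero hc0⟩) hl
        (hfS i c hc) (hn i c hc hc0).1 (cS i) (c0 i) (cS j)] at e1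
    have e2 := T.xp_injective j ((S j).mul_mem ((S j).inv_mem (hle (hfS i c hc)))
      ((S j).mul_mem ((S j).inv_mem ((S j).inv_mem (hle (cS i)))) (cS j)))
      (hfS j _ ((S j).mul_mem ((S j).inv_mem (hle hc)) (one_mem j))) e1
    simp only [hF]
    rw [mul_one] at e2
    rw [← e2]
    have h1 := c0 i
    have h2 := c0 j
    have h3 := (hn i c hc hc0).1
    field_simp
  have mem0 : ∀ t : K, t ∈ S i0 := fun t => by rw [T.top]; exact Subfield.mem_top t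
  let φ : K →+* K :=
    { toFun := F i0
      map_one' := F1 i0
      map_mul' := fun a b => Fmul i0 a (mem0 a) b (mem0 b)
      map_zero' := Fzero i0
      map_add' := fun a b => Fadd i0 a (mem0 a) b (mem0 b) }
  have hbij : Function.Bijective φ := by
    apply Finite.injective_iff_bijective.1
    exact φ.injective
  let τ : K ≃+* K := RingEquiv.ofBijective φ hbij
  have hτ : ∀ t, τ t = F i0 t := fun _ => rfl
  have hall : ∀ i, ∀ c ∈ S i, F i c = τ c := by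
    intro i
    refine Relation.ReflTransGen.head_induction_on (T.conn i) ?_ ?_
    · intro c _; rfl
    · intro i j hL _ ih c hc
      by_cases hc0 : c = 0
      · rw [hc0, Fzero, map_zero]
      · have e := Flink i j hL c hc hc0
        rw [ih _ ((S j).inv_mem ((T.h_link i j hL).1 hc)), map_inv₀] at e
        exact (inv_injective e).symm
  refine ⟨τ, fun i => f i 1, fun i => ⟨cS i, c0 i⟩, fun i t ht => ?_⟩
  have e1 : f i t = f i 1 * τ t := by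
    rw [← hall i t ht]
    simp only [hF]
    rw [mul_inv_cancel_left₀ (c0 i)]
  refine ⟨by rw [hf i t ht, e1], ?_⟩
  rw [hg i t ht]
  congr 1
  by_cases ht0 : t = 0
  · rw [ht0, gzero, map_zero, mul_zero]
  · have hs : -t⁻¹ ∈ S i := (S i).neg_mem ((S i).inv_mem ht)
    have hs0 : -t⁻¹ ≠ 0 := neg_ne_zero.2 (inv_ne_zero ht0)
    have e2 := (hn i _ hs hs0).2.1
    have e3 : -(-t⁻¹)⁻¹ = t := by rw [inv_neg, inv_inv, neg_neg]
    have e4 : f i (-t⁻¹) = f i 1 * τ (-t⁻¹) := by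
      rw [← hall i _ hs]
      simp only [hF]
      rw [mul_inv_cancel_left₀ (c0 i)]
    rw [e3, e4, map_neg, map_inv₀] at e2
    rw [e2]
    have h1 := c0 i
    have h2 : τ t ≠ 0 := fun h => ht0 ((map_eq_zero τ).1 h)
    field_simp

end TSys

end Cfsg.Agent.Lib.Helper23.TwAut
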