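import Cfsg.Agent.Lib.Helper23.TwAutDef
import Cfsg.Agent.Lib.Helper23.TwAutAbs2
import Cfsg.Agent.Lib.Helper45.AutOut1

/-!
# Automorphisms of twisted groups: subgroups of `G¹`, signs, `N(U¹) = B¹`
-/

set_option autoImplicit false

namespace Cfsg.Agent.Lib.Helper23.TwAut

open Cfsg.Lie Matrix Cfsg.Agent.Lib.Helper23 Cfsg.Agent.Lib.Helper22 Cfsg.Agent.Lib.Helper45
open Cfsg.Agent.Lib.Helper45.AutAbs

/-- subgroups of `G¹` -/
def sT {A : Type*} [Group A] (G1 L : Subgroup A) : Subgroup ↥G1 := L.subgroupOf G1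

theorem mem_sT {A : Type*} [Group A] {G1 L : Subgroup A} {g : ↥G1} : g ∈ sT G1 L ↔ (g : A) ∈ L :=
  Subgroup.mem_subgroupOf

theorem mp_of_cmpT {A : Type*} [Group A] {G1 L L' : Subgroup A} {m : ↥G1} (h : CMp (m : A) L L') :
    Mp (cj m) (sT G1 L) (sT G1 L') := fun g => by
  rw [mem_sT, mem_sT]; exact h g

variable {D : ChevalleyDatum} {K : Type*} [Field K]

/-- the fixed field -/
def fixF (ψ : K →+* K) : Subfield K := RingHom.eqLocusField ψ (RingHom.id K)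

theorem mem_fixF {ψ : K →+* K} {t : K} : t ∈ fixF ψ ↔ ψ t = t := Iff.rfl

namespace TwC

variable {b : Bundle D K} {σ : GL D.Idx K → GL D.Idx K} {ρ ρ' : ℕ → ℕ} {c : ℕ → K → K}
  {O : List (List ℕ)} {cert : List (List ℕ × List (List ℕ))} {G1 : Subgroup (GL D.Idx K)}
  {φ : K →+* K} (C : TwC b σ ρ ρ' c O cert G1 φ)
include C

theorem le_group : G1 ≤ D.group K := C.X.fixBN.G1_le

/-- an element of `N ∩ G¹` commutes with the symmetry -/
theorem act_comm {n : GL D.Idx K} (hn1 : n ∈ G1) {π : ℕ → ℕ} (hπ : Acts D K n π)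
    (hlt : ∀ r < D.nroots, π r < D.nroots) {r : ℕ} (hr : r < D.nroots) : π r = ρ (π (ρ' r)) := by
  have h1 := C.X.hσ.acts b (C.le_group hn1) hπ hlt
  rw [C.fix hn1] at h1
  have h2 : D.rootSubgroup K (π r) = D.rootSubgroup K (ρ (π (ρ' r))) := (hπ r hr).symm.trans (h1 r hr)
  have h3 : b.hA.X (π r) 1 ∈ D.rootSubgroup K (ρ (π (ρ' r))) := by
    rw [← h2]; exact b.hA.X_mem_rootSubgroup _ _
  obtain ⟨a, e⟩ := (b.hA.mem_rootSubgroup_iff _ _).1 h3
  exact X_eq_X C.X.hD b.hA (hlt r hr) (C.X.hσ.lt b (hlt _ (C.X.hσ.lt' r hr))) one_ne_zero e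

theorem sign_const {n : GL D.Idx K} (hn1 : n ∈ G1) {π : ℕ → ℕ} (hπ : Acts D K n π)
    (hlt : ∀ r < D.nroots, π r < D.nroots) {J : List ℕ} (hJ : J ∈ O) {i j : ℕ} (hi : i ∈ J)
    (hj : j ∈ J) (h : D.IsPosRoot (π (D.simple i))) : D.IsPosRoot (π (D.simple j)) := by
  have hβ := C.X.hT.posB J hJ
  have key : ∀ k : ℕ, ∀ a ∈ J.map D.simple, D.IsPosRoot (π a) →
      ρ^[k] a ∈ J.map D.simple ∧ D.IsPosRoot (π (ρ^[k] a)) := by
    intro k
    induction k with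
    | zero => intro a ha h; exact ⟨ha, h⟩
    | succ k ih =>
      intro a ha h
      rw [Function.iterate_succ_apply]
      have h1 : ρ a ∈ J.map D.simple := hβ.perm.mem_iff.1 (List.mem_map_of_mem ha)
      apply ih _ h1
      rw [C.act_comm hn1 hπ hlt (hβ.lt _ h1), hβ.inv' a ha]
      exact C.X.hσ.pos _ h
  obtain ⟨k, hk⟩ := C.trans J hJ i hi j hj
  have := (key k _ (List.mem_map_of_mem hi) h).2
  rwa [hk] at this

theorem conj_xJ_mem {n : GL D.Idx K} (hn1 : n ∈ G1) {π : ℕ → ℕ} (hπ : Acts D K n π)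
    (hlt : ∀ r < D.nroots, π r < D.nroots) {J : List ℕ} (hJ : J ∈ O) {j : ℕ} (hj : j ∈ J) (t : K) :
    (D.IsPosRoot (π (D.simple j)) → n * b.hA.xJ φ true J t * n⁻¹ ∈ D.posUnipotent K) ∧
    (D.IsNegRoot (π (D.simple j)) → n * b.hA.xJ φ true J t * n⁻¹ ∈ D.negUnipotent K) := by
  have hlt' : ∀ p ∈ pJ D φ true J t, p.1 < D.nroots := by
    intro p hp'
    apply (C.block hJ true).lt
    rw [← pJ_fst φ true J t]
    exact List.mem_map_of_mem hp'
  obtain ⟨w', h1, h2⟩ := conj_W_acts b hπ (pJ D φ true J t) hlt'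
  rw [pJ_fst] at h1
  rw [xJ_eq_W, h2]
  have hmem : ∀ p ∈ w', ∃ i ∈ J, p.1 = π (D.simple i) := by
    intro p hp
    have : p.1 ∈ w'.map Prod.fst := List.mem_map_of_mem hp
    rw [h1, List.map_map] at this
    obtain ⟨i, hi, e⟩ := List.mem_map.1 this
    exact ⟨i, hi, e.symm⟩
  constructor
  · intro h
    apply W_mem_pos'
    intro p hp
    obtain ⟨i, hi, e⟩ := hmem p hp
    rw [e]
    exact C.sign_const hn1 hπ hlt hJ hj hi h
  · intro h
    apply W_mem_neg'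
    intro p hp
    obtain ⟨i, hi, e⟩ := hmem p hp
    rw [e]
    rcases b.hR.pos_or_neg (hlt _ (b.hR.simple_lt (C.rank hJ i hi))) with h' | h'
    · exact absurd h (b.hR.not_neg_of_pos (C.sign_const hn1 hπ hlt hJ hi hj h'))
    · exact h'

theorem xJ_eq_one {J : List ℕ} (hJ : J ∈ O) (sg : Bool) {t : K} (h : b.hA.xJ φ sg J t = 1) : t = 0 := by
  cases J with
  | nil => exact absurd rfl (C.X.hT.ne _ hJ)
  | cons i J =>
    have hO := C.orth _ hJ
    rw [List.pairwise_cons] at hO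
    have hr := C.rank hJ
    rw [AddFact.xJ_cons] at h
    have h1 : b.hA.X (sgR D sg i) t = (b.hA.xJ φ sg J (φ t))⁻¹ := eq_inv_of_mul_eq_one_left h
    refine head_zero b (hr i (by simp)) (sg := sg) (inv_mem ?_)
      (commI1_inv b.hA (AddFact.CommI1.xJ hO.1 sg _)) h1
    have hr' : ∀ k ∈ J, k < D.rank := fun k hk => hr k (by simp [hk])
    generalize φ t = u
    clear h1 h hO hJ hr
    induction J generalizing u with
    | nil => exact one_mem _
    | cons k J ih =>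
      rw [AddFact.xJ_cons]
      exact mul_mem (X_sgR_mem b (hr' k (by simp)) sg _) (ih (fun l hl => hr' l (by simp [hl])) _)

theorem flatten_rank {L : List (List ℕ)} (hL : ∀ J ∈ L, J ∈ O) : ∀ i ∈ L.flatten, i < D.rank := by
  intro i hi
  obtain ⟨J, hJ, hiJ⟩ := List.mem_flatten.1 hi
  exact C.rank (hL J hJ) i hiJ

theorem nword_flatten_mem {L : List (List ℕ)} (hL : ∀ J ∈ L, J ∈ O) : b.hA.nword L.flatten ∈ G1 := by
  rw [C.hG]; exact b.hA.nword_flatten_mem φ C.orth hL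

/-- a test element of `U¹` for the positive root `r` -/
theorem exists_test {r : ℕ} (hr : D.IsPosRoot r) : ∃ u ∈ D.posUnipotent K, u ∈ G1 ∧ u ≠ 1 ∧
    ∀ n ∈ G1, ∀ π : ℕ → ℕ, Acts D K n π → (∀ r < D.nroots, π r < D.nroots) →
      (D.IsPosRoot (π r) → n * u * n⁻¹ ∈ D.posUnipotent K) ∧
      (D.IsNegRoot (π r) → n * u * n⁻¹ ∈ D.negUnipotent K) := by
  obtain ⟨m0, hm0⟩ := C.orb
  obtain ⟨L, j, hL, hj, e⟩ := hm0.exists_word b.hR (fun J hJ => C.rank hJ) r hr.1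
  obtain ⟨J, hJ, hjJ⟩ := C.cov j hj
  have hw := C.flatten_rank hL
  have hw' : ∀ i ∈ L.flatten.reverse, i < D.rank := fun i hi => hw i (List.mem_reverse.1 hi)
  set m := (b.hA.nword L.flatten)⁻¹ with hm
  have hm1 : m ∈ G1 := inv_mem (C.nword_flatten_mem hL)
  have hact : Acts D K m (wact D L.flatten.reverse) := acts_nword_inv b hw
  have hlt : ∀ r < D.nroots, wact D L.flatten.reverse r < D.nroots := fun r hr => b.hR.wact_lt hw' hr
  have h1 : (φ ^ J.length) (1 : K) = 1 := map_one _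
  refine ⟨m * b.hA.xJ φ true J 1 * m⁻¹, ?_, mul_mem (mul_mem hm1 (C.xJ_mem hJ true h1)) (inv_mem hm1),
    ?_, ?_⟩
  · exact (C.conj_xJ_mem hm1 hact hlt hJ hjJ 1).1 (e ▸ hr)
  · intro h
    have h2 : b.hA.xJ φ true J 1 = 1 := by
      have : b.hA.xJ φ true J 1 = m⁻¹ * (m * b.hA.xJ φ true J 1 * m⁻¹) * m := by group
      rw [this, h]; group
    exact one_ne_zero (C.xJ_eq_one hJ true h2)
  · intro n hn π hπ hπlt
    have e2 : n * (m * b.hA.xJ φ true J 1 * m⁻¹) * n⁻¹ = (n * m) * b.hA.xJ φ true J 1 * (n * m)⁻¹ := by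
      group
    rw [e2]
    have := C.conj_xJ_mem (mul_mem hn hm1) (hπ.mul hact hlt) (fun r hr => hπlt _ (hlt r hr)) hJ hjJ 1
    simp only [Function.comp_apply, ← e] at this
    exact this

/-- `N ∩ G¹`: an element normalising `U¹` lies in `H` -/
theorem mem_diag_of_norm {n : GL D.Idx K} (hn : n ∈ D.monomialSubgroup K) (hn1 : n ∈ G1)
    (h : ∀ u ∈ D.posUnipotent K, u ∈ G1 → n * u * n⁻¹ ∈ D.posUnipotent K) :
    n ∈ D.diagonalSubgroup K := by
  obtain ⟨w, h', hw, hh', rfl⟩ := b.hA.mono_nform b.hR b.hN hn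
  have hact := acts_nform b hw hh'
  apply hact.mem_diag b hn
  intro r hr
  rcases b.hR.pos_or_neg (b.hR.wact_lt hw hr.1) with hp | hneg
  · exact hp
  · exfalso
    obtain ⟨u, hu, hu1, hne, ht⟩ := C.exists_test hr
    have h1 := (ht _ hn1 _ hact (fun r hr => b.hR.wact_lt hw hr)).2 hneg
    have h2 := UV_inf b (h u hu hu1) h1
    apply hne
    have : u = (b.hA.nword w * h')⁻¹ * (b.hA.nword w * h' * u * (b.hA.nword w * h')⁻¹) *
      (b.hA.nword w * h') := by group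
    rw [this, h2]; group

/-- `N ∩ G¹`: an element with `n U¹ n⁻¹ ∩ U¹ = 1` maps `U` onto `V` -/
theorem cmp_of_trivialT {n : GL D.Idx K} (hn : n ∈ D.monomialSubgroup K) (hn1 : n ∈ G1)
    (h : ∀ u ∈ D.posUnipotent K, u ∈ G1 → n * u * n⁻¹ ∈ D.posUnipotent K → u = 1) :
    CMp n (D.posUnipotent K) (D.negUnipotent K) := by
  obtain ⟨w, h', hw, hh', rfl⟩ := b.hA.mono_nform b.hR b.hN hn
  have hact := acts_nform b hw hh'
  refine (cmp_opp b hw hh' fun r hr => ?_).1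
  rcases b.hR.pos_or_neg (b.hR.wact_lt hw hr.1) with hp | hneg
  · exfalso
    obtain ⟨u, hu, hu1, hne, ht⟩ := C.exists_test hr
    exact hne (h u hu hu1 ((ht _ hn1 _ hact (fun r hr => b.hR.wact_lt hw hr)).1 hp))
  · exact hneg

/-- `N_{G¹}(U¹) = B¹` -/
theorem mem_borel_of_norm {g : GL D.Idx K} (hg : g ∈ G1)
    (h : ∀ u ∈ D.posUnipotent K, u ∈ G1 → g * u * g⁻¹ ∈ D.posUnipotent K) :
    g ∈ D.borelSubgroup K := by
  obtain ⟨n, hn, x, hx, hx1, y, hy, hy1, rfl⟩ := C.X.fixBN.cover C.X.sharp hg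
  have hnn := C.X.fixBN.closure_S1_le hn
  have hH : n ∈ D.diagonalSubgroup K := by
    apply C.mem_diag_of_norm hnn.1 hnn.2
    intro u hu hu1
    have h1 : y⁻¹ * u * y⁻¹⁻¹ ∈ D.posUnipotent K := (borel_cmp b (inv_mem hy) u).2 hu
    have h2 := h _ h1 (mul_mem (mul_mem (inv_mem hy1) hu1) (inv_mem (inv_mem hy1)))
    have h3 := (borel_cmp b (inv_mem hx) _).2 h2
    have e : x⁻¹ * (x * n * y * (y⁻¹ * u * y⁻¹⁻¹) * (x * n * y)⁻¹) * x⁻¹⁻¹ = n * u * n⁻¹ := by group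
    rwa [e] at h3
  exact mul_mem (mul_mem hx (AddFact.diag_le_borel hH)) hy

end TwC

end Cfsg.Agent.Lib.Helper23.TwAut
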