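import Cfsg.Agent.Lib.Helper23.TwAutT
import Cfsg.Agent.Lib.Helper29.AutDTab
import Cfsg.Agent.Lib.Helper22.BaseChange

/-!
# Automorphisms of twisted groups: the standard automorphisms
-/

set_option autoImplicit false

namespace Cfsg.Agent.Lib.Helper23.TwAut

open Cfsg.Lie Matrix Cfsg.Agent.Lib.Helper23 Cfsg.Agent.Lib.Helper22 Cfsg.Agent.Lib.Helper45
open Cfsg.Agent.Lib.Helper45.AutAbs

theorem mp_of_finite {G : Type*} [Group G] [Finite G] (θ : G ≃* G) (L : Subgroup G)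
    (h : ∀ g ∈ L, θ g ∈ L) : Mp θ L L := by
  intro g
  refine ⟨fun hg => ?_, h g⟩
  let f : L → L := fun l => ⟨θ l, h l l.2⟩
  have hf : Function.Injective f := fun a c e => Subtype.ext (θ.injective (congrArg Subtype.val e))
  obtain ⟨l, hl⟩ := Finite.surjective_of_injective hf ⟨θ g, hg⟩
  have : θ l = θ g := congrArg Subtype.val hl
  rw [← θ.injective this]
  exact l.2

theorem hom_ext_closure {A M : Type*} [Group A] [Group M] {S : Set A} {G1 : Subgroup A}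
    (hG : G1 = Subgroup.closure S) (f g : ↥G1 →* M)
    (h : ∀ s ∈ S, ∀ hs1 : s ∈ G1, f ⟨s, hs1⟩ = g ⟨s, hs1⟩) : f = g := by
  subst hG
  ext ⟨x, hx⟩
  induction hx using Subgroup.closure_induction with
  | mem x hx => exact h x hx _
  | one => exact (map_one f).trans (map_one g).symm
  | mul x y hx hy ihx ihy =>
    have e : (⟨x * y, mul_mem hx hy⟩ : ↥(Subgroup.closure S)) = ⟨x, hx⟩ * ⟨y, hy⟩ := rfl
    rw [e, map_mul, map_mul, ihx, ihy]
  | inv x hx ih =>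
    have e : (⟨x⁻¹, inv_mem hx⟩ : ↥(Subgroup.closure S)) = (⟨x, hx⟩ : ↥(Subgroup.closure S))⁻¹ := rfl
    rw [e, map_inv, map_inv, ih]

variable {D : ChevalleyDatum} {K : Type*} [Field K]

/-- `d` takes the values `a, φ a, φ² a, …` along `J` -/
def DComp (φ : K →+* K) (d : ℕ → Kˣ) : List ℕ → K → Prop
  | [], _ => True
  | j :: J, a => (d j : K) = a ∧ DComp φ d J (φ a)

theorem dg_conj_X (hD : D ∈ [chevG2, chevB2, chevD4, chevF4, chevE6, chevE7, chevE8]) (hA : AddFact D K)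
    {χ : ℕ → Kˣ} (hχ : D.IsRootCharacter χ) {r : ℕ} (hr : r < D.nroots) (t : K) :
    Cfsg.Agent.Lib.Helper29.AutD.dg D χ * hA.X r t * (Cfsg.Agent.Lib.Helper29.AutD.dg D χ)⁻¹ =
      hA.X r ((χ r : K) * t) := by
  apply Units.ext
  rw [Cfsg.Agent.Lib.Helper29.AutD.dg_inv]
  exact Cfsg.Agent.S2157.result D hD χ hχ r hr t

/-- sign exponent -/
def pw (sg : Bool) (a : K) : K := if sg then a else a⁻¹

theorem pw_map (φ : K →+* K) (sg : Bool) (a : K) : φ (pw sg a) = pw sg (φ a) := by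
  cases sg
  · exact map_inv₀ φ a
  · rfl

theorem dg_conj_xJ (hD : D ∈ [chevG2, chevB2, chevD4, chevF4, chevE6, chevE7, chevE8]) (hA : AddFact D K)
    (hR : RootFacts D) (φ : K →+* K) {χ : ℕ → Kˣ} (hχ : D.IsRootCharacter χ) {d : ℕ → Kˣ}
    (hd : ∀ i < D.rank, χ (D.simple i) = d i) {J : List ℕ} (hJ : ∀ i ∈ J, i < D.rank) {a : K}
    (ha : DComp φ d J a) (sg : Bool) (u : K) :
    Cfsg.Agent.Lib.Helper29.AutD.dg D χ * hA.xJ φ sg J u * (Cfsg.Agent.Lib.Helper29.AutD.dg D χ)⁻¹ =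
      hA.xJ φ sg J (pw sg a * u) := by
  induction J generalizing a u with
  | nil => simp
  | cons j J ih =>
    have hj := hJ j (by simp)
    have h1 := ih (fun k hk => hJ k (by simp [hk])) ha.2 (φ u)
    rw [AddFact.xJ_cons, AddFact.xJ_cons, map_mul, pw_map, ← h1]
    have h2 : ((χ (sgR D sg j) : Kˣ) : K) = pw sg a := by
      cases sg
      · rw [sgR_false, hχ.1 _ (hR.simple_lt hj), hd j hj, Units.val_inv_eq_inv_val, ha.1]; rfl
      · rw [sgR_true, hd j hj, ha.1]; rfl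
    rw [← h2, ← dg_conj_X hD hA hχ (AddFact.sgR_lt hR hj sg)]
    group

theorem glMap_xJ (hA : AddFact D K) (φ : K →+* K) (τ : K →+* K) (hτ : ∀ t, τ (φ t) = φ (τ t)) (sg : Bool)
    (J : List ℕ) (t : K) : glMap D τ (hA.xJ φ sg J t) = hA.xJ φ sg J (τ t) := by
  induction J generalizing t with
  | nil => simp
  | cons j J ih => rw [AddFact.xJ_cons, map_mul, glMap_X hA hA, ih, hτ, AddFact.xJ_cons]

theorem iter_comm (φ : K →+* K) (τ : K →+* K) (hτ : ∀ t, τ (φ t) = φ (τ t)) (k : ℕ) (t : K) :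
    τ ((φ ^ k) t) = (φ ^ k) (τ t) := by
  induction k generalizing t with
  | zero => rfl
  | succ k ih =>
    rw [pow_succ]
    show τ ((φ ^ k) (φ t)) = (φ ^ k) (φ (τ t))
    rw [ih, hτ]

namespace TwC

variable {b : Bundle D K} {σ : GL D.Idx K → GL D.Idx K} {ρ ρ' : ℕ → ℕ} {c : ℕ → K → K}
  {O : List (List ℕ)} {cert : List (List ℕ × List (List ℕ))} {G1 : Subgroup (GL D.Idx K)}
  {φ : K →+* K} (C : TwC b σ ρ ρ' c O cert G1 φ)
include C

/-- standard automorphisms -/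
def IsStd {n : ℕ} (orb : Fin n → List ℕ) (horb1 : ∀ i, orb i ∈ O) (θ : ↥G1 ≃* ↥G1) (a : Fin n → K)
    (τ : K ≃+* K) : Prop :=
  ∀ (i : Fin n) (sg : Bool) (t : K), (φ ^ (orb i).length) t = t →
    θ (C.xS sg (horb1 i) t) = C.xS sg (horb1 i) (pw sg (a i) * τ t)

theorem isStd_unique {n : ℕ} {orb : Fin n → List ℕ} {horb1 : ∀ i, orb i ∈ O}
    (horb2 : ∀ J ∈ O, ∃ i, orb i = J) {θ θ' : ↥G1 ≃* ↥G1} {a : Fin n → K} {τ : K ≃+* K}
    (h : C.IsStd orb horb1 θ a τ) (h' : C.IsStd orb horb1 θ' a τ) : θ = θ' := by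
  have : θ.toMonoidHom = θ'.toMonoidHom := by
    apply hom_ext_closure C.hG
    rintro s ⟨J, hJ, sg, t, ht, rfl⟩ hs1
    obtain ⟨i, rfl⟩ := horb2 J hJ
    have e : (⟨b.hA.xJ φ sg (orb i) t, hs1⟩ : ↥G1) = C.xS sg (horb1 i) t :=
      Subtype.ext (C.coe_xS sg (horb1 i) ht).symm
    rw [e]
    exact (h i sg t ht).trans (h' i sg t ht).symm
  exact MulEquiv.ext fun g => DFunLike.congr_fun this g

theorem exists_isStd [Finite K] {n : ℕ} (orb : Fin n → List ℕ) (horb1 : ∀ i, orb i ∈ O)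
    (horb2 : ∀ J ∈ O, ∃ i, orb i = J) (a : Fin n → K)
    (ha : ∀ i, (φ ^ (orb i).length) (a i) = a i) (d : ℕ → Kˣ) (hd : ∀ i, DComp φ d (orb i) (a i))
    (τ : K ≃+* K) (hτ : ∀ t, τ (φ t) = φ (τ t)) :
    ∃ θ : ↥G1 ≃* ↥G1, C.IsStd orb horb1 θ a τ ∧
      Mp θ (sT G1 (D.posUnipotent K)) (sT G1 (D.posUnipotent K)) ∧
      Mp θ (sT G1 (D.negUnipotent K)) (sT G1 (D.negUnipotent K)) := by
  obtain ⟨χ, hχ, hχd⟩ := Cfsg.Agent.Lib.Helper29.AutD.exists_rootCharacter D C.X.hD d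
  set dd := Cfsg.Agent.Lib.Helper29.AutD.dg D χ with hdd
  let Ψ : GL D.Idx K →* GL D.Idx K := (MulAut.conj dd).toMonoidHom.comp (glMap D (τ : K →+* K))
  have hΨ : ∀ g, Ψ g = dd * glMap D (τ : K →+* K) g * dd⁻¹ := fun _ => rfl
  have hΨX : ∀ r < D.nroots, ∀ t, Ψ (b.hA.X r t) = b.hA.X r ((χ r : K) * τ t) := by
    intro r hr t
    rw [hΨ, glMap_X b.hA b.hA, dg_conj_X C.X.hD b.hA hχ hr]
    rfl
  have hΨJ : ∀ (i : Fin n) (sg : Bool) (t : K),
      Ψ (b.hA.xJ φ sg (orb i) t) = b.hA.xJ φ sg (orb i) (pw sg (a i) * τ t) := by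
    intro i sg t
    rw [hΨ, glMap_xJ b.hA φ (τ : K →+* K) hτ,
      dg_conj_xJ C.X.hD b.hA b.hR φ hχ hχd (C.rank (horb1 i)) (hd i)]
    rfl
  have hfix : ∀ (i : Fin n) (sg : Bool) (t : K), (φ ^ (orb i).length) t = t →
      (φ ^ (orb i).length) (pw sg (a i) * τ t) = pw sg (a i) * τ t := by
    intro i sg t ht
    rw [map_mul, pw_map, ha i]
    congr 1
    have := iter_comm φ (τ : K →+* K) hτ (orb i).length t
    rw [ht] at this
    exact this.symm
  have hΨG : ∀ g ∈ G1, Ψ g ∈ G1 := by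
    have : G1 ≤ G1.comap Ψ := by
      conv_lhs => rw [C.hG, AddFact.twG]
      rw [Subgroup.closure_le]
      rintro s ⟨J, hJ, sg, t, ht, rfl⟩
      obtain ⟨i, rfl⟩ := horb2 J hJ
      rw [SetLike.mem_coe, Subgroup.mem_comap, hΨJ]
      exact C.xJ_mem (horb1 i) sg (hfix i sg t ht)
    exact fun g hg => this hg
  have hΨinj : Function.Injective Ψ := by
    intro x y e
    rw [hΨ, hΨ] at e
    exact glMap_injective _ (mul_left_cancel (mul_right_cancel e))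
  let θ₀ : ↥G1 →* ↥G1 := (Ψ.comp G1.subtype).codRestrict G1 (fun g => hΨG g g.2)
  have hθ₀ : ∀ g : ↥G1, ((θ₀ g : ↥G1) : GL D.Idx K) = Ψ g := fun _ => rfl
  have hinj : Function.Injective θ₀ := fun x y e =>
    Subtype.ext (hΨinj (by rw [← hθ₀, ← hθ₀, e]))
  have : Finite ↥G1 := inferInstance
  let θ : ↥G1 ≃* ↥G1 := MulEquiv.ofBijective θ₀ (Finite.injective_iff_bijective.1 hinj)
  have hθ : ∀ g : ↥G1, ((θ g : ↥G1) : GL D.Idx K) = Ψ g := fun _ => rfl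
  refine ⟨θ, ?_, ?_, ?_⟩
  · intro i sg t ht
    apply Subtype.ext
    rw [hθ, C.coe_xS _ _ ht, C.coe_xS _ _ (hfix i sg t ht), hΨJ]
  · apply mp_of_finite
    intro g hg
    rw [mem_sT] at hg ⊢
    rw [hθ]
    have : D.posUnipotent K ≤ (D.posUnipotent K).comap Ψ := by
      conv_lhs => rw [b.hA.posUnipotent_eq]
      rw [Subgroup.closure_le]
      rintro _ ⟨r, t, hr, rfl⟩
      rw [SetLike.mem_coe, Subgroup.mem_comap, hΨX r hr.1]
      exact b.hA.X_mem_pos hr _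
    exact this hg
  · apply mp_of_finite
    intro g hg
    rw [mem_sT] at hg ⊢
    rw [hθ]
    have : D.negUnipotent K ≤ (D.negUnipotent K).comap Ψ := by
      conv_lhs => rw [b.hA.negUnipotent_eq]
      rw [Subgroup.closure_le]
      rintro _ ⟨r, t, hr, rfl⟩
      rw [SetLike.mem_coe, Subgroup.mem_comap, hΨX r hr.1]
      exact b.hA.X_mem_neg hr _
    exact this hg

end TwC

end Cfsg.Agent.Lib.Helper23.TwAut
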