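import Cfsg.Agent.Lib.Helper23.TwAutX
import Cfsg.Agent.Lib.Helper8.BNPar

/-!
# Automorphisms of twisted groups: the system `PSys`
-/

set_option autoImplicit false

namespace Cfsg.Agent.Lib.Helper23.TwAut

open Cfsg.Lie Matrix Cfsg.Agent.Lib.Helper23 Cfsg.Agent.Lib.Helper22 Cfsg.Agent.Lib.Helper45
  Cfsg.Agent.Lib.Helper8
open Cfsg.Agent.Lib.Helper45.AutAbs

/-- the minimal parabolic subgroups of a (B,N)-pair -/
theorem exists_min_par {G : Type*} [Group G] (P : Cfsg.BNPair G) {s : G} (hs : s ∈ P.S) :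
    ∃ Q : Subgroup G, ∀ g, g ∈ Q ↔ g ∈ P.B ∨ ∃ x ∈ P.B, ∃ y ∈ P.B, g = x * s * y := by
  have hsq := P.sq_mem s hs
  have hsinv : s⁻¹ = (s * s)⁻¹ * s := by group
  have key : ∀ x ∈ P.B, s * x * s ∈ P.B ∨ ∃ a ∈ P.B, ∃ c ∈ P.B, s * x * s = a * s * c := by
    intro x hx
    rcases P.mul_mem_union s hs s (P.subset hs) x hx with h | h
    · left
      rw [DoubleCoset.mem_doubleCoset] at h
      obtain ⟨a, ha, c, hc, e⟩ := h
      rw [e]
      exact mul_mem (mul_mem ha hsq) hc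
    · right
      rw [DoubleCoset.mem_doubleCoset] at h
      obtain ⟨a, ha, c, hc, e⟩ := h
      exact ⟨a, ha, c, hc, e⟩
  refine ⟨{ carrier := {g | g ∈ P.B ∨ ∃ x ∈ P.B, ∃ y ∈ P.B, g = x * s * y}
            mul_mem' := ?_
            one_mem' := Or.inl (one_mem _)
            inv_mem' := ?_ }, fun g => Iff.rfl⟩
  · rintro a c (ha | ⟨a₁, ha₁, a₂, ha₂, rfl⟩) (hc | ⟨c₁, hc₁, c₂, hc₂, rfl⟩)
    · exact Or.inl (mul_mem ha hc)
    · exact Or.inr ⟨a * c₁, mul_mem ha hc₁, c₂, hc₂, by group⟩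
    · exact Or.inr ⟨a₁, ha₁, a₂ * c, mul_mem ha₂ hc, by group⟩
    · rcases key (a₂ * c₁) (mul_mem ha₂ hc₁) with h | ⟨x, hx, y, hy, e⟩
      · left
        have e' : a₁ * s * a₂ * (c₁ * s * c₂) = a₁ * (s * (a₂ * c₁) * s) * c₂ := by group
        show a₁ * s * a₂ * (c₁ * s * c₂) ∈ P.B
        rw [e']
        exact mul_mem (mul_mem ha₁ h) hc₂
      · right
        refine ⟨a₁ * x, mul_mem ha₁ hx, y * c₂, mul_mem hy hc₂, ?_⟩
        have e' : a₁ * s * a₂ * (c₁ * s * c₂) = a₁ * (s * (a₂ * c₁) * s) * c₂ := by group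
        rw [e', e]; group
  · rintro a (ha | ⟨a₁, ha₁, a₂, ha₂, rfl⟩)
    · exact Or.inl (inv_mem ha)
    · right
      refine ⟨a₂⁻¹ * (s * s)⁻¹, mul_mem (inv_mem ha₂) (inv_mem hsq), a₁⁻¹, inv_mem ha₁, ?_⟩
      group

variable {D : ChevalleyDatum} {K : Type*} [Field K]

namespace TwC

variable {b : Bundle D K} {σ : GL D.Idx K → GL D.Idx K} {ρ ρ' : ℕ → ℕ} {c : ℕ → K → K}
  {O : List (List ℕ)} {cert : List (List ℕ × List (List ℕ))} {G1 : Subgroup (GL D.Idx K)}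
  {φ : K →+* K} (C : TwC b σ ρ ρ' c O cert G1 φ)
include C

theorem xJ_mem_UV {J : List ℕ} (hJ : J ∈ O) (sg : Bool) (s : K) : b.hA.xJ φ sg J s ∈ UV D K sg := by
  rw [xJ_eq_W]
  apply Subgroup.list_prod_mem
  intro x hx
  obtain ⟨p, hp, rfl⟩ := List.mem_map.1 hx
  have : p.1 ∈ (pJ D φ sg J s).map Prod.fst := List.mem_map_of_mem hp
  rw [pJ_fst] at this
  obtain ⟨i, hi, e⟩ := List.mem_map.1 this
  rw [← e]
  exact X_sgR_mem b (C.rank hJ i hi) sg _

theorem commute_xJ {J J' : List ℕ} (hJ : J ∈ O) (hJ' : J' ∈ O) (hne : J ≠ J') (t u : K) :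
    Commute (b.hA.xJ φ true J t) (b.hA.xJ φ false J' u) := by
  rw [xJ_eq_W, xJ_eq_W]
  apply Commute.list_prod_left
  intro x hx
  apply Commute.list_prod_right
  intro y hy
  obtain ⟨p, hp, rfl⟩ := List.mem_map.1 hx
  obtain ⟨q, hq, rfl⟩ := List.mem_map.1 hy
  have h1 : p.1 ∈ (pJ D φ true J t).map Prod.fst := List.mem_map_of_mem hp
  have h2 : q.1 ∈ (pJ D φ false J' u).map Prod.fst := List.mem_map_of_mem hq
  rw [pJ_fst] at h1 h2
  obtain ⟨i, hi, e1⟩ := List.mem_map.1 h1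
  obtain ⟨j, hj, e2⟩ := List.mem_map.1 h2
  rw [← e1, ← e2]
  have hij : i ≠ j := C.disj J hJ J' hJ' hne i hi j hj
  have := (simple_comm (F := K) D C.X.hD).2.2.1 ⟨i, C.rank hJ i hi⟩ ⟨j, C.rank hJ' j hj⟩
    (fun h => hij (congrArg Fin.val h)) p.2 q.2
  apply Units.ext
  simp only [Units.val_mul, AddFact.coe_X]
  exact this

theorem psys {n : ℕ} (orb : Fin n → List ℕ) (horb1 : ∀ i, orb i ∈ O) (horb2 : ∀ J ∈ O, ∃ i, orb i = J)
    (hinj : Function.Injective orb)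
    (hSyl : ∀ θ : ↥G1 ≃* ↥G1, ∃ g, Mp (θ.trans (cj g)) (sT G1 (D.posUnipotent K))
      (sT G1 (D.posUnipotent K))) :
    ∃ (P : Fin n → Subgroup ↥G1) (n0 : ↥G1),
      PSys (fun i => C.XS true (horb1 i)) (fun i => C.XS false (horb1 i)) (sT G1 (D.posUnipotent K))
        (sT G1 (D.negUnipotent K)) (sT G1 (D.borelSubgroup K)) (sT G1 (D.monomialSubgroup K)) P
        (fun i => ⟨b.hA.nword (orb i), C.X.nword_mem (horb1 i)⟩) n0 id := by
  obtain ⟨L₀, hL, hLp⟩ := C.long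
  obtain ⟨PP, hPB, hPN, hPS⟩ := C.X.exists_bnPair
  have hPB' : PP.B = sT G1 (D.borelSubgroup K) := by
    rw [hPB]
    ext g
    rw [Subgroup.mem_subgroupOf, mem_sT, Subgroup.mem_inf]
    exact ⟨fun h => h.1, fun h => ⟨h, g.2⟩⟩
  have hsS : ∀ i, (⟨b.hA.nword (orb i), C.X.nword_mem (horb1 i)⟩ : ↥G1) ∈ PP.S := by
    intro i
    rw [hPS]
    exact ⟨orb i, horb1 i, rfl⟩
  choose Pm hPm using fun i => exists_min_par PP (hsS i)
  rw [hPB'] at hPm
  have hw := C.flatten_rank hL.1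
  have hn0 := cmp_opp b hw (one_mem _) (fun r hr => hL.2 r hr.1 hr)
  rw [mul_one] at hn0
  have hBV : ∀ z, z ∈ D.borelSubgroup K → z ∈ D.negUnipotent K → z = 1 := by
    intro z h1 h2
    have : z ∈ D.borelSubgroup K ⊓ D.negUnipotent K := ⟨h1, h2⟩
    rwa [b.hTri.BV, Subgroup.mem_bot] at this
  refine ⟨Pm, ⟨b.hA.nword L₀.flatten, C.nword_flatten_mem hL.1⟩, ?_⟩
  exact
  { U_le := fun g hg => by
      rw [mem_sT] at hg ⊢
      exact AddFact.pos_le_borel hg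
    BV := fun g h1 h2 => Subtype.ext (hBV g (mem_sT.1 h1) (mem_sT.1 h2))
    hSyl := hSyl
    hBU := fun x hx => mp_of_cmpT (borel_cmp b (mem_sT.1 hx))
    hNU := fun g hg => by
      rw [mem_sT]
      apply C.mem_borel_of_norm g.2
      intro u hu hu1
      exact mem_sT.1 ((hg ⟨u, hu1⟩).2 (mem_sT.2 hu))
    bruhat := fun g => by
      obtain ⟨m, hm, x, hx, hx1, y, hy, hy1, e⟩ := C.X.fixBN.cover C.X.sharp g.2
      have hmm := C.X.fixBN.closure_S1_le hm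
      exact ⟨⟨x, hx1⟩, mem_sT.2 hx, ⟨m, hmm.2⟩, mem_sT.2 hmm.1, ⟨y, hy1⟩, mem_sT.2 hy, Subtype.ext e⟩
    hn0 := mp_of_cmpT hn0.1
    hn0' := mp_of_cmpT hn0.2
    hopp := fun m hm h => by
      apply mp_of_cmpT
      apply C.cmp_of_trivialT (mem_sT.1 hm) m.2
      intro u hu hu1 hu'
      exact congrArg Subtype.val (h ⟨u, hu1⟩ (mem_sT.2 hu) (mem_sT.2 hu'))
    hBP := fun i g hg => (hPm i g).2 (Or.inl hg)
    hnP := fun i => (hPm i _).2 (Or.inr ⟨1, one_mem _, 1, one_mem _, by simp⟩)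
    hnB := fun i h => by
      have := C.nJ_not_mem_borel (horb1 i) (one_ne_zero (α := K))
      rw [AddFact.nJ_one] at this
      exact this (mem_sT.1 h)
    hP := fun i g hg => (hPm i g).1 hg
    hover := fun Q hBQ hQB => by
      by_contra hno
      apply hQB
      have hBQ' : PP.B ≤ Q := by rw [hPB']; exact hBQ
      have h1 := eq_parabolic_of_le (P := PP) hBQ'
      have h2 : PP.S ∩ (Q : Set ↥G1) = ∅ := by
        rw [Set.eq_empty_iff_forall_notMem]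
        rintro s ⟨hs, hsQ⟩
        rw [hPS] at hs
        obtain ⟨J, hJ, e⟩ := hs
        obtain ⟨i, rfl⟩ := horb2 J hJ
        apply hno
        refine ⟨i, ?_⟩
        have : s = ⟨b.hA.nword (orb i), C.X.nword_mem (horb1 i)⟩ := Subtype.ext e
        rw [← this]; exact hsQ
      rw [h2] at h1
      rw [h1, Cfsg.BNPair.parabolic, Subgroup.closure_empty, sup_bot_eq, hPB']
    hPV := fun i => by
      ext g
      rw [Subgroup.mem_inf, mem_sT, hPm i g, C.mem_XS]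
      constructor
      · rintro ⟨h1, h2⟩
        apply C.par_inf_negT (horb1 i) g.2 h2
        rcases h1 with h1 | ⟨x, hx, y, hy, e⟩
        · exact Or.inl (mem_sT.1 h1)
        · exact Or.inr ⟨x, mem_sT.1 hx, y, mem_sT.1 hy, congrArg Subtype.val e⟩
      · rintro ⟨t, ht, e⟩
        refine ⟨?_, e ▸ C.xJ_mem_UV (horb1 i) false t⟩
        rcases C.xJ_neg_mem_par (horb1 i) ht with h | ⟨x, hx, hx1, y, hy, hy1, e'⟩
        · exact Or.inl (mem_sT.2 (e ▸ h))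
        · exact Or.inr ⟨⟨x, hx1⟩, mem_sT.2 hx, ⟨y, hy1⟩, mem_sT.2 hy, Subtype.ext (e.trans e')⟩
    hn0X := fun i => C.mp_XS (C.nword_flatten_mem hL.1) (acts_nword b hw) (acts_nword_inv b hw)
      (fun r hr => b.hR.wact_reverse hw hr) (horb1 i) (horb1 i) (hLp _ (horb1 i))
    ι_surj := Function.surjective_id
    comm_pm := fun i j hij x hx y hy => by
      obtain ⟨t, _, e1⟩ := hx
      obtain ⟨u, _, e2⟩ := hy
      apply Subtype.ext
      rw [Subgroup.coe_mul, Subgroup.coe_mul, e1, e2]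
      exact (C.commute_xJ (horb1 i) (horb1 j) (fun h => hij (hinj h)) t u).eq
    ncomm_pm := fun i h => by
      have h1 : (φ ^ (orb i).length) (1 : K) = 1 := map_one _
      have h2 : (φ ^ (orb i).length) (-1 : K) = -1 := by rw [map_neg, map_one]
      have h3 := h ⟨_, C.xJ_mem (horb1 i) true h2⟩ ⟨-1, h2, rfl⟩ ⟨_, C.xJ_mem (horb1 i) false h1⟩
        ⟨1, h1, rfl⟩
      have h4 : b.hA.xJ φ true (orb i) (-1) * b.hA.xJ φ false (orb i) 1 =
          b.hA.xJ φ false (orb i) 1 * b.hA.xJ φ true (orb i) (-1) := congrArg Subtype.val h3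
      have h5 := b.hA.nJ_eq φ (C.orth _ (horb1 i)) (-1)
      have e : -(-1 : K)⁻¹ = 1 := by rw [inv_neg, inv_one, neg_neg]
      rw [e, h4, mul_assoc] at h5
      exact C.nJ_ne_VB (horb1 i) (neg_ne_zero.2 one_ne_zero) (C.xJ_mem_UV (horb1 i) false 1)
        (AddFact.pos_le_borel (mul_mem (C.xJ_mem_UV (horb1 i) true _) (C.xJ_mem_UV (horb1 i) true _))) h5 }

end TwC

end Cfsg.Agent.Lib.Helper23.TwAut
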