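import Cfsg.Agent.Lib.Helper23.F4Ord

set_option autoImplicit false

namespace Cfsg.Agent.Lib.Helper23
open Cfsg.Lie

theorem f4_arith (q : ℕ) (hq : 1 ≤ q) :
    q ^ 12 * (q - 1) ^ 2 * (alt8.map fun L => (L.map ![q, q ^ 2]).prod).sum =
      q ^ 12 * (q - 1) * (q ^ 3 + 1) * (q ^ 4 - 1) * (q ^ 6 + 1) := by
  obtain ⟨p, rfl⟩ : ∃ p, q = p + 1 := ⟨q - 1, by omega⟩
  have e1 : p + 1 - 1 = p := by omega
  have e2 : (p + 1) ^ 4 - 1 = p * ((p + 1) + 1) * ((p + 1) ^ 2 + 1) := by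
    apply Nat.sub_eq_of_eq_add
    ring
  rw [e1, e2]
  simp only [alt8, List.map_cons, List.map_nil, List.prod_cons, List.prod_nil, List.sum_cons, List.sum_nil,
    Matrix.cons_val_zero, Matrix.cons_val_one]
  ring

theorem f4_order {K : Type*} [Field K] [Fintype K] {m : ℕ} (hK : Fintype.card K = 2 ^ (2 * m + 1)) :
    Nat.card ↥(twistedF4 K (2 ^ m)) =
      (2 ^ (2 * m + 1)) ^ 12 * (2 ^ (2 * m + 1) - 1) * ((2 ^ (2 * m + 1)) ^ 3 + 1) *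
        ((2 ^ (2 * m + 1)) ^ 4 - 1) * ((2 ^ (2 * m + 1)) ^ 6 + 1) := by
  obtain ⟨_, b, α, hα⟩ := f4_setup hK
  rw [f4_card_G1 hK b α hα, f4_arith _ Nat.one_le_two_pow]

end Cfsg.Agent.Lib.Helper23
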