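import Cfsg.Agent.Lib.Helper23.F4Tw4
import Cfsg.Agent.Lib.Helper23.TwSigma
import Cfsg.Agent.Lib.Helper23.TwCore
import Cfsg.Agent.Lib.Helper23.TwPerf
import Cfsg.Agent.Lib.Helper23.ChevAll2
import Cfsg.Agent.Lib.Helper22.HInjF4

/-!
# `²F₄`: the torus `H¹`
-/

set_option autoImplicit false
set_option maxRecDepth 100000

namespace Cfsg.Agent.Lib.Helper23
open Cfsg.Lie Matrix Cfsg.Agent.Lib.Helper22 Cfsg.Agent.Lib.Helper45

section torus
variable {K : Type*} [Field K]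

/-- a four-tuple of torus parameters -/
def L4F (x0 x1 x2 x3 : K) : List (ℕ × K) := [(0, x0), (1, x1), (2, x2), (3, x3)]

theorem L4F_ok {x0 x1 x2 x3 : K} (h0 : x0 ≠ 0) (h1 : x1 ≠ 0) (h2 : x2 ≠ 0) (h3 : x3 ≠ 0) :
    ∀ p ∈ L4F x0 x1 x2 x3, p.1 < chevF4.rank ∧ p.2 ≠ 0 := by
  have hr : chevF4.rank = 4 := by decide +kernel
  intro p hp
  simp only [L4F, List.mem_cons, List.not_mem_nil, or_false] at hp
  rw [hr]
  rcases hp with rfl | rfl | rfl | rfl <;> simp [*]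

theorem chiP_L4F (x0 x1 x2 x3 : K) (s : ℕ) : chiP chevF4 (L4F x0 x1 x2 x3) s =
    x0 ^ chevF4.cartan 0 s * (x1 ^ chevF4.cartan 1 s * (x2 ^ chevF4.cartan 2 s * x3 ^ chevF4.cartan 3 s)) := by
  simp [chiP, L4F]

theorem f4_simple : chevF4.simple 0 = 33 ∧ chevF4.simple 1 = 27 ∧ chevF4.simple 2 = 25 ∧
    chevF4.simple 3 = 24 := by decide +kernel

theorem hP_L4F (hA : AddFact chevF4 K) (x0 x1 x2 x3 : K) : hA.hP (L4F x0 x1 x2 x3) =
    hA.hG 33 x0 * (hA.hG 27 x1 * (hA.hG 25 x2 * hA.hG 24 x3)) := by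
  obtain ⟨s0, s1, s2, s3⟩ := f4_simple
  simp [AddFact.hP, L4F, s0, s1, s2, s3]

theorem hP_L4F_eq_flat (hA : AddFact chevF4 K) (x0 x1 x2 x3 : K) : hA.hP (L4F x0 x1 x2 x3) =
    hA.W (hFlat chevF4 fun i => [x0, x1, x2, x3].getD i 1) := by
  have e : hFlat chevF4 (fun i => [x0, x1, x2, x3].getD i 1) =
      chevF4.hWord 33 x0 ++ (chevF4.hWord 27 x1 ++ (chevF4.hWord 25 x2 ++ chevF4.hWord 24 x3)) := by
    have h4 : chevF4.rank = 4 := rfl
    obtain ⟨s0, s1, s2, s3⟩ := f4_simple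
    unfold hFlat
    rw [h4]
    simp [List.range_succ, s0, s1, s2, s3]
  rw [e, hA.W_append, hA.W_append, hA.W_append, hA.W_hWord, hA.W_hWord, hA.W_hWord, hA.W_hWord, hP_L4F]

theorem L4F_inj (hA : AddFact chevF4 K) {x0 x1 x2 x3 y0 y1 y2 y3 : K} (h0 : x0 ≠ 0) (h1 : x1 ≠ 0)
    (h2 : x2 ≠ 0) (h3 : x3 ≠ 0) (k0 : y0 ≠ 0) (k1 : y1 ≠ 0) (k2 : y2 ≠ 0) (k3 : y3 ≠ 0)
    (h : hA.hP (L4F x0 x1 x2 x3) = hA.hP (L4F y0 y1 y2 y3)) : x0 = y0 ∧ x1 = y1 ∧ x2 = y2 ∧ x3 = y3 := by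
  rw [hP_L4F_eq_flat, hP_L4F_eq_flat] at h
  have e1 := congrArg (fun g : GL chevF4.Idx K => (g : Matrix chevF4.Idx chevF4.Idx K)) h
  simp only [hA.coe_W] at e1
  have h4 : chevF4.rank = 4 := rfl
  have e2 := hinjF4 _ _ (by
      intro i hi
      rw [h4] at hi
      interval_cases i <;> simpa)
    (by
      intro i hi
      rw [h4] at hi
      interval_cases i <;> simpa) e1
  exact ⟨by simpa using e2 0 (by decide), by simpa using e2 1 (by decide), by simpa using e2 2 (by decide),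
    by simpa using e2 3 (by decide)⟩

theorem exists_L4F (hA : AddFact chevF4 K) {g : GL chevF4.Idx K} (hg : g ∈ chevF4.diagonalSubgroup K) :
    ∃ x0 x1 x2 x3 : K, x0 ≠ 0 ∧ x1 ≠ 0 ∧ x2 ≠ 0 ∧ x3 ≠ 0 ∧ g = hA.hP (L4F x0 x1 x2 x3) := by
  obtain ⟨c, hc, e⟩ := (bruhatPack_of_mem K memF4).hH g hg
  refine ⟨c 0, c 1, c 2, c 3, hc 0 (by decide), hc 1 (by decide), hc 2 (by decide), hc 3 (by decide), ?_⟩
  rw [hP_L4F_eq_flat]
  have e2 : hFlat chevF4 c = hFlat chevF4 fun i => [c 0, c 1, c 2, c 3].getD i 1 := by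
    apply hFlat_congr
    intro i hi
    have h4 : chevF4.rank = 4 := rfl
    rw [h4] at hi
    interval_cases i <;> simp
  rw [← e2]
  exact (hA.eq_W_iff _ _).1 e

theorem isTor_eq_of {D : ChevalleyDatum} {hA : AddFact D K} {g g' : GL D.Idx K} {χ χ' : ℕ → K}
    (h : hA.IsTor g χ) (h' : hA.IsTor g' χ') (e : ∀ s < D.nroots, χ s = χ' s) : g = g' :=
  Units.ext (by rw [h.2.1, h'.2.1, dg_congr e])

theorem zpow_aux {a b : K} (ha : a ≠ 0) (hb : b ≠ 0) (c1 c2 : ℤ) :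
    a ^ (c1 + 2 * c2) * b ^ (2 * c1 + 2 * c2) = (a * b ^ 2) ^ c1 * (a ^ 2 * b ^ 2) ^ c2 := by
  rw [zpow_add₀ ha, zpow_add₀ hb, mul_zpow, mul_zpow, _root_.zpow_mul, _root_.zpow_mul, _root_.zpow_mul]
  norm_cast
  ring

theorem cartF4_w2 : ∀ s < chevF4.nroots,
    chevF4.cartan 0 (wact chevF4 [1, 2, 1, 2].reverse s) =
      chevF4.cartan 0 s + (2 * chevF4.cartan 1 s + 2 * chevF4.cartan 2 s) ∧
    chevF4.cartan 3 (wact chevF4 [1, 2, 1, 2].reverse s) =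
      chevF4.cartan 3 s + (chevF4.cartan 1 s + 2 * chevF4.cartan 2 s) := by decide +kernel

end torus

section twist
variable {D : ChevalleyDatum} {F : Type*} [Field F] (b : Bundle D F) {σ : GL D.Idx F → GL D.Idx F}
  {ρ ρ' : ℕ → ℕ} {c : ℕ → F → F} (hσ : IsTwist b.hA σ ρ ρ' c)
include hσ

theorem IsTwist_map_hG {r : ℕ} (hr : r < D.nroots) {t : F} (ht : t ≠ 0) (h1 : c r (-1) = -1) :
    σ (b.hA.hG r t) = b.hA.hG (ρ r) (c r t) := by
  unfold AddFact.hG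
  rw [hσ.mul _ (b.hA.nG_mem_group _ _) _ (b.hA.nG_mem_group _ _), hσ.map_nG b hr ht,
    hσ.map_nG b hr (by simp), h1]

end twist

section sigma
variable {K : Type*} [Field K] [CharP K 2] [Fintype K] {m : ℕ} (hK : Fintype.card K = 2 ^ (2 * m + 1))
  (b : Bundle chevF4 K) (α : ↥(chevF4.group K) ≃* ↥(chevF4.group K))
  (hα : ∀ r < 48, ∀ t : K,
    (α ⟨b.hA.X r t, b.hA.X_mem_group r t⟩ : GL chevF4.Idx K) = b.hA.X (isoRhoF4 r) (t ^ isoLamF4 r))

include hK hα in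
theorem sigma_L4F {x0 x1 x2 x3 : K} (h0 : x0 ≠ 0) (h1 : x1 ≠ 0) (h2 : x2 ≠ 0) (h3 : x3 ≠ 0) :
    f4Sigma b α m (b.hA.hP (L4F x0 x1 x2 x3)) =
      b.hA.hP (L4F (f4Th K m x3) (f4Th K m x2) (f4Ps K m x1) (f4Ps K m x0)) := by
  have hσ := f4_isTwist hK b α hα
  have hG := fun r t => b.hA.hG_mem_group (F := K) r t
  have hn : ∀ r, (f4Th K m (-1)) ^ isoLamF4 r = -1 := by
    intro r
    rw [map_neg, map_one, CharTwo.neg_eq, one_pow]
  have h48 : chevF4.nroots = 48 := rfl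
  obtain ⟨r1, r2, r3, r4, -⟩ := rhoF4_vals
  obtain ⟨l1, l2, l3, l4, -⟩ := lamF4_vals
  rw [hP_L4F, hσ.mul _ (hG _ _) _ (mul_mem (hG _ _) (mul_mem (hG _ _) (hG _ _))),
    hσ.mul _ (hG _ _) _ (mul_mem (hG _ _) (hG _ _)), hσ.mul _ (hG _ _) _ (hG _ _),
    IsTwist_map_hG b hσ (by rw [h48]; norm_num) h0 (hn _),
    IsTwist_map_hG b hσ (by rw [h48]; norm_num) h1 (hn _),
    IsTwist_map_hG b hσ (by rw [h48]; norm_num) h2 (hn _),
    IsTwist_map_hG b hσ (by rw [h48]; norm_num) h3 (hn _), r1, r2, r3, r4, l1, l2, l3, l4]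
  simp only [pow_one, ← f4Ps_apply]
  have hS := torS_of_mem K memF4
  have n0 := (map_ne_zero (f4Ps K m)).2 h0
  have n1 := (map_ne_zero (f4Ps K m)).2 h1
  have n2 := (map_ne_zero (f4Th K m)).2 h2
  have n3 := (map_ne_zero (f4Th K m)).2 h3
  have e : b.hA.hG 24 (f4Ps K m x0) * (b.hA.hG 25 (f4Ps K m x1) * (b.hA.hG 27 (f4Th K m x2) *
      b.hA.hG 33 (f4Th K m x3))) =
      b.hA.hP [(3, f4Ps K m x0), (2, f4Ps K m x1), (1, f4Th K m x2), (0, f4Th K m x3)] := by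
    obtain ⟨s0, s1, s2, s3⟩ := f4_simple
    simp [AddFact.hP, s0, s1, s2, s3]
  rw [e]
  apply b.hA.hP_eq_of hS _ (L4F_ok n3 n2 n1 n0)
  · intro s _
    rw [chiP_L4F]
    simp only [chiP, List.map_cons, List.map_nil, List.prod_cons, List.prod_nil]
    ring
  · intro p hp
    have hr : chevF4.rank = 4 := by decide +kernel
    simp only [List.mem_cons, List.not_mem_nil, or_false] at hp
    rw [hr]
    rcases hp with rfl | rfl | rfl | rfl <;> simp [*]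

omit [Fintype K] in
theorem f4_orth30 : b.hA.Orth 3 0 := by
  obtain ⟨s0, -, -, s3⟩ := f4_simple
  have n0 : chevF4.neg 33 = 14 := by decide
  have n3 : chevF4.neg 24 = 23 := by decide
  intro sg sg' t u
  cases sg <;> cases sg' <;> simp only [sgR_true, sgR_false, s0, s3, n0, n3]
  · exact f4_commP b.hA 23 14 (by decide) (by decide) (by decide +kernel) t u
  · exact f4_commP b.hA 23 33 (by decide) (by decide) (by decide +kernel) t u
  · exact f4_commP b.hA 24 14 (by decide) (by decide) (by decide +kernel) t u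
  · exact f4_commP b.hA 24 33 (by decide) (by decide) (by decide +kernel) t u

omit [Fintype K] in
theorem f4_orthL : [3, 0].Pairwise b.hA.Orth := by
  simp only [List.pairwise_cons, List.mem_cons, List.not_mem_nil, or_false, forall_eq, false_imp_iff,
    implies_true, List.Pairwise.nil, and_true]
  exact f4_orth30 b

omit [Fintype K] in
theorem f4_xJ_mem (sg : Bool) (t : K) : b.hA.xJ (f4Th K m) sg [3, 0] t ∈ twistedF4 K (2 ^ m) := by
  obtain ⟨s0, -, -, s3⟩ := f4_simple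
  have n0 : chevF4.neg 33 = 14 := by decide
  have n3 : chevF4.neg 24 = 23 := by decide
  cases sg
  · have := pair_neg_mem b.hA m t
    simp only [pairW, AddFact.W, List.map_cons, List.map_nil, List.prod_cons, List.prod_nil, mul_one] at this
    simp only [AddFact.xJ_cons, AddFact.xJ_nil, mul_one, sgR_false, s0, s3, n0, n3]
    rwa [((f4_comm_neg1 b.hA _ _).symm).eq]
  · have := pair_pos_mem b.hA m t
    simp only [pairW, AddFact.W, List.map_cons, List.map_nil, List.prod_cons, List.prod_nil, mul_one] at this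
    simp only [AddFact.xJ_cons, AddFact.xJ_nil, mul_one, sgR_true, s0, s3]
    rwa [((f4_comm_pos1 b.hA _ _).symm).eq]

omit [Fintype K] in
theorem f4_nJ_mem (t : K) : b.hA.nJ (f4Th K m) [3, 0] t ∈ twistedF4 K (2 ^ m) := by
  rw [b.hA.nJ_eq _ (f4_orthL b)]
  exact mul_mem (mul_mem (f4_xJ_mem b _ _) (f4_xJ_mem b _ _)) (f4_xJ_mem b _ _)

omit [Fintype K] in
theorem f4_hJ_mem (t : K) : b.hA.hJ (f4Th K m) [3, 0] t ∈ twistedF4 K (2 ^ m) := by
  rw [b.hA.hJ_eq _ (f4_orthL b)]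
  exact mul_mem (f4_nJ_mem b _) (f4_nJ_mem b _)

include hK in
/-- the elements of `H¹` -/
theorem f4_torus_mem {l μ : K} (hl : l ≠ 0) (hμ : μ ≠ 0) :
    b.hA.hP (L4F (f4Th K m l) (f4Th K m μ) μ l) ∈ twistedF4 K (2 ^ m) := by
  have hS := torS_of_mem K memF4
  have hθμ := (map_ne_zero (f4Th K m)).2 hμ
  obtain ⟨ν, hν⟩ : ∃ ν : K, ν = μ / f4Th K m μ := ⟨_, rfl⟩
  have hν0 : ν ≠ 0 := hν ▸ div_ne_zero hμ hθμ
  have hθν := (map_ne_zero (f4Th K m)).2 hν0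
  have hln : l / ν ≠ 0 := div_ne_zero hl hν0
  have hr : ∀ i ∈ [3, 0], i < chevF4.rank := by decide +kernel
  have t1 := (b.hA.hJ_isTor (f4Th K m) hS hr hν0).conj_nword b.hA b.hR b.hN (nmon_of_mem K memF4)
    (w := [1, 2, 1, 2]) (by decide +kernel)
  have t2 := b.hA.hJ_isTor (f4Th K m) hS hr hln
  have t3 := b.hA.hP_isTor hS (L4F_ok ((map_ne_zero (f4Th K m)).2 hl) hθμ hμ hl)
  have e := isTor_eq_of t3 (t1.mul b.hA t2) (by
    intro s hs
    obtain ⟨c0, c3⟩ := cartF4_w2 s hs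
    rw [chiP_L4F]
    simp only [chiJ, mul_one, c0, c3]
    have a1 : ν * f4Th K m ν ^ 2 = f4Th K m μ := by
      rw [← f4Ps_apply, hν, map_div₀, f4Ps_f4Th hK, f4Ps_apply]
      field_simp
    have a2 : ν ^ 2 * f4Th K m ν ^ 2 = μ := by
      rw [← f4Ps_apply, hν, map_div₀, f4Ps_f4Th hK, f4Ps_apply]
      field_simp
    have z := zpow_aux hν0 hθν (chevF4.cartan 1 s) (chevF4.cartan 2 s)
    rw [a1, a2] at z
    rw [zpow_add₀ hν0, zpow_add₀ hθν, map_div₀, div_zpow, div_zpow]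
    have z1 : ν ^ chevF4.cartan 3 s ≠ 0 := zpow_ne_zero _ hν0
    have z2 : f4Th K m ν ^ chevF4.cartan 0 s ≠ 0 := zpow_ne_zero _ hθν
    calc f4Th K m l ^ chevF4.cartan 0 s * (f4Th K m μ ^ chevF4.cartan 1 s *
          (μ ^ chevF4.cartan 2 s * l ^ chevF4.cartan 3 s))
        = f4Th K m l ^ chevF4.cartan 0 s * l ^ chevF4.cartan 3 s *
          (f4Th K m μ ^ chevF4.cartan 1 s * μ ^ chevF4.cartan 2 s) := by ring
      _ = _ := by
        rw [← z]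
        generalize ν ^ (chevF4.cartan 1 s + 2 * chevF4.cartan 2 s) = P
        generalize f4Th K m ν ^ (2 * chevF4.cartan 1 s + 2 * chevF4.cartan 2 s) = Q
        field_simp)
  rw [e]
  exact mul_mem (mul_mem (mul_mem (f4_n2_mem b.hA m) (f4_hJ_mem b _)) (inv_mem (f4_n2_mem b.hA m)))
    (f4_hJ_mem b _)

include hK hα in
theorem f4_card_H1 : Nat.card ↥(chevF4.diagonalSubgroup K ⊓ twistedF4 K (2 ^ m)) =
    (2 ^ (2 * m + 1) - 1) ^ 2 := by
  have hc : Nat.card Kˣ = 2 ^ (2 * m + 1) - 1 := by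
    rw [Nat.card_units, Nat.card_eq_fintype_card, hK]
  rw [sq, ← hc, ← Nat.card_prod]
  symm
  refine Nat.card_congr (Equiv.ofBijective (fun p : Kˣ × Kˣ =>
    ⟨b.hA.hP (L4F (f4Th K m (p.1 : K)) (f4Th K m (p.2 : K)) (p.2 : K) (p.1 : K)),
      b.hA.hP_mem_diag b.hR (L4F_ok ((map_ne_zero _).2 p.1.ne_zero) ((map_ne_zero _).2 p.2.ne_zero)
        p.2.ne_zero p.1.ne_zero), f4_torus_mem hK b p.1.ne_zero p.2.ne_zero⟩) ⟨?_, ?_⟩)
  · rintro ⟨l, μ⟩ ⟨l', μ'⟩ h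
    obtain ⟨-, -, h2, h3⟩ := L4F_inj b.hA ((map_ne_zero _).2 l.ne_zero) ((map_ne_zero _).2 μ.ne_zero)
      μ.ne_zero l.ne_zero ((map_ne_zero _).2 l'.ne_zero) ((map_ne_zero _).2 μ'.ne_zero)
      μ'.ne_zero l'.ne_zero (congrArg Subtype.val h)
    exact Prod.ext (Units.ext h3) (Units.ext h2)
  · rintro ⟨g, hgH, hgG⟩
    obtain ⟨x0, x1, x2, x3, h0, h1, h2, h3, rfl⟩ := exists_L4F b.hA hgH
    have hf := (f4_G1_fix hK b α hα hgG).2
    rw [sigma_L4F hK b α hα h0 h1 h2 h3] at hf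
    obtain ⟨e0, e1, -, -⟩ := L4F_inj b.hA ((map_ne_zero _).2 h3) ((map_ne_zero _).2 h2)
      ((map_ne_zero _).2 h1) ((map_ne_zero _).2 h0) h0 h1 h2 h3 hf
    refine ⟨(Units.mk0 x3 h3, Units.mk0 x2 h2), ?_⟩
    apply Subtype.ext
    show b.hA.hP (L4F (f4Th K m x3) (f4Th K m x2) x2 x3) = _
    rw [e0, e1]

end sigma

end Cfsg.Agent.Lib.Helper23
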