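import Cfsg.Agent.Lib.Helper23.TwAutP
import Cfsg.Agent.Lib.Helper23.ChevAll2

/-!
# Automorphisms of twisted groups: the system `TSys`
-/

set_option autoImplicit false

namespace Cfsg.Agent.Lib.Helper23.TwAut

open Cfsg.Lie Matrix Cfsg.Agent.Lib.Helper23 Cfsg.Agent.Lib.Helper22 Cfsg.Agent.Lib.Helper45
open Cfsg.Agent.Lib.Helper45.AutAbs

variable {D : ChevalleyDatum} {K : Type*} [Field K]

theorem isTor_conj_xJ (hA : AddFact D K) (hR : RootFacts D) (φ : K →+* K) {g : GL D.Idx K} {χ : ℕ → K}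
    (h : hA.IsTor g χ) {J : List ℕ} (hJ : ∀ i ∈ J, i < D.rank) (sg : Bool) (t : K) :
    g * hA.xJ φ sg J t * g⁻¹ = hA.xJχ φ χ sg J t := by
  induction J generalizing t with
  | nil => simp [AddFact.xJχ]
  | cons i J ih =>
    rw [AddFact.xJ_cons, AddFact.xJχ, ← ih (fun k hk => hJ k (by simp [hk])),
      ← h.2.2 _ (AddFact.sgR_lt hR (hJ i (by simp)) sg)]
    group

namespace TwC

variable {b : Bundle D K} {σ : GL D.Idx K → GL D.Idx K} {ρ ρ' : ℕ → ℕ} {c : ℕ → K → K}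
  {O : List (List ℕ)} {cert : List (List ℕ × List (List ℕ))} {G1 : Subgroup (GL D.Idx K)}
  {φ : K →+* K} (C : TwC b σ ρ ρ' c O cert G1 φ)
include C

open Classical in
/-- `x_{±J}(t)` as an element of `G¹` -/
noncomputable def xS (sg : Bool) {J : List ℕ} (hJ : J ∈ O) (t : K) : ↥G1 :=
  if h : (φ ^ J.length) t = t then ⟨b.hA.xJ φ sg J t, C.xJ_mem hJ sg h⟩ else 1

theorem coe_xS (sg : Bool) {J : List ℕ} (hJ : J ∈ O) {t : K} (ht : (φ ^ J.length) t = t) :
    ((C.xS sg hJ t : ↥G1) : GL D.Idx K) = b.hA.xJ φ sg J t := by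
  rw [xS, dif_pos ht]

theorem mem_XS' {sg : Bool} {J : List ℕ} {hJ : J ∈ O} {g : ↥G1} :
    g ∈ C.XS sg hJ ↔ ∃ t ∈ fixF (φ ^ J.length), g = C.xS sg hJ t := by
  rw [C.mem_XS]
  constructor
  · rintro ⟨t, ht, e⟩
    exact ⟨t, ht, Subtype.ext (by rw [e, C.coe_xS sg hJ ht])⟩
  · rintro ⟨t, ht, e⟩
    exact ⟨t, ht, by rw [e, C.coe_xS sg hJ ht]⟩

theorem coe_nT {n : ℕ} (orb : Fin n → List ℕ) (horb1 : ∀ i, orb i ∈ O) (i : Fin n) {t : K}
    (ht : (φ ^ (orb i).length) t = t) :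
    ((nT (fun i => C.xS true (horb1 i)) (fun i => C.xS false (horb1 i)) i t : ↥G1) : GL D.Idx K) =
      b.hA.nJ φ (orb i) t := by
  have ht' : (φ ^ (orb i).length) (-t⁻¹) = -t⁻¹ := by rw [map_neg, map_inv₀, ht]
  rw [b.hA.nJ_eq φ (C.orth _ (horb1 i)), nT, Subgroup.coe_mul, Subgroup.coe_mul, C.coe_xS _ _ ht,
    C.coe_xS _ _ ht']

theorem coe_hT {n : ℕ} (orb : Fin n → List ℕ) (horb1 : ∀ i, orb i ∈ O) (i : Fin n) {t : K}
    (ht : (φ ^ (orb i).length) t = t) :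
    ((hT (fun i => C.xS true (horb1 i)) (fun i => C.xS false (horb1 i)) i t : ↥G1) : GL D.Idx K) =
      b.hA.hJ φ (orb i) t := by
  rw [b.hA.hJ_eq φ (C.orth _ (horb1 i)), hT, Subgroup.coe_mul, C.coe_nT orb horb1 i ht,
    C.coe_nT orb horb1 i (by rw [map_neg, map_one])]

theorem tsys {n : ℕ} (orb : Fin n → List ℕ) (horb1 : ∀ i, orb i ∈ O) (L : Fin n → Fin n → Prop)
    (i0 : Fin n)
    (hlink : ∀ i j, L i j → (∀ t, (φ ^ (orb i).length) t = t → (φ ^ (orb j).length) t = t) ∧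
      ∀ a, a ≠ 0 → (φ ^ (orb i).length) a = a → ∀ u,
        b.hA.xJχ φ (chiJ D φ (orb i) a) true (orb j) u = b.hA.xJ φ true (orb j) (a⁻¹ * u))
    (conn : ∀ i, Relation.ReflTransGen L i i0) (top : ∀ t, (φ ^ (orb i0).length) t = t) :
    TSys (fun i => fixF (φ ^ (orb i).length)) (fun i => C.xS true (horb1 i))
      (fun i => C.xS false (horb1 i)) (fun i => C.XS true (horb1 i)) (fun i => C.XS false (horb1 i))
      (sT G1 (D.negUnipotent K)) (sT G1 (D.borelSubgroup K)) L i0 := by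
  have hS := torS_of_mem K C.X.hD
  have hBV : ∀ z, z ∈ D.borelSubgroup K → z ∈ D.negUnipotent K → z = 1 := by
    intro z h1 h2
    have : z ∈ D.borelSubgroup K ⊓ D.negUnipotent K := ⟨h1, h2⟩
    rwa [b.hTri.BV, Subgroup.mem_bot] at this
  have hadd : ∀ (sg : Bool) (i : Fin n), ∀ t ∈ fixF (φ ^ (orb i).length),
      ∀ u ∈ fixF (φ ^ (orb i).length),
      C.xS sg (horb1 i) (t + u) = C.xS sg (horb1 i) t * C.xS sg (horb1 i) u := by
    intro sg i t ht u hu
    apply Subtype.ext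
    rw [Subgroup.coe_mul, C.coe_xS _ _ ht, C.coe_xS _ _ hu,
      C.coe_xS _ _ ((fixF (φ ^ (orb i).length)).add_mem ht hu), b.hA.xJ_add φ (C.orth _ (horb1 i))]
  have hinj : ∀ (sg : Bool) (i : Fin n), ∀ t ∈ fixF (φ ^ (orb i).length),
      C.xS sg (horb1 i) t = 1 → t = 0 := by
    intro sg i t ht h
    apply C.xJ_eq_one (horb1 i) sg
    rw [← C.coe_xS sg (horb1 i) ht, h]; rfl
  exact
  { mem_Xp := fun i g => C.mem_XS'
    mem_Xm := fun i g => C.mem_XS'
    xp_add := hadd true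
    xm_add := hadd false
    xp_inj := hinj true
    xm_inj := hinj false
    Xp_le := fun i g hg => by
      obtain ⟨t, _, e⟩ := hg
      rw [mem_sT, e]
      exact AddFact.pos_le_borel (C.xJ_mem_UV (horb1 i) true t)
    Xm_le := fun i g hg => by
      obtain ⟨t, _, e⟩ := hg
      rw [mem_sT, e]
      exact C.xJ_mem_UV (horb1 i) false t
    BV := fun g h1 h2 => Subtype.ext (hBV g (mem_sT.1 h1) (mem_sT.1 h2))
    n_conj := fun i t ht ht0 => by
      have e : nT (fun i => C.xS true (horb1 i)) (fun i => C.xS false (horb1 i)) i t =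
          ⟨b.hA.nJ φ (orb i) t, C.nJ_mem (horb1 i) ht⟩ := Subtype.ext (C.coe_nT orb horb1 i ht)
      rw [e]
      exact C.mp_XS _ (acts_nJ b φ (C.rank (horb1 i)) ht0) (C.acts_nJ_inv (horb1 i) ht0)
        (fun r hr => b.hR.wact_reverse (C.rank (horb1 i)) hr) (horb1 i) (horb1 i) (C.flip _ (horb1 i))
    hVB := fun i t ht ht0 v hv x hx e => by
      have e' := congrArg Subtype.val e
      rw [C.coe_nT orb horb1 i ht] at e'
      exact C.nJ_ne_VB (horb1 i) ht0 (mem_sT.1 hv) (mem_sT.1 hx) e'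
    h_self := fun i a ha ha0 u hu => by
      apply Subtype.ext
      have hau : (φ ^ (orb i).length) (a ^ 2 * u) = a ^ 2 * u :=
        (fixF (φ ^ (orb i).length)).mul_mem ((fixF (φ ^ (orb i).length)).pow_mem ha 2) hu
      rw [Subgroup.coe_mul, Subgroup.coe_mul, Subgroup.coe_inv, C.coe_hT orb horb1 i ha,
        C.coe_xS _ _ hu, C.coe_xS _ _ hau,
        b.hA.hJ_conj_xJ φ b.hR hS (C.rank (horb1 i)) (C.orth _ (horb1 i)) (C.cart _ (horb1 i)) true ha0]
      have e2 : AddFact.e2 true = 2 := rfl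
      rw [e2, zpow_ofNat]
    h_link := fun i j hL => by
      obtain ⟨h1, h2⟩ := hlink i j hL
      refine ⟨fun t ht => h1 t ht, fun a ha ha0 u hu => ?_⟩
      apply Subtype.ext
      have hau : (φ ^ (orb j).length) (a⁻¹ * u) = a⁻¹ * u :=
        (fixF (φ ^ (orb j).length)).mul_mem ((fixF (φ ^ (orb j).length)).inv_mem (h1 a ha)) hu
      rw [Subgroup.coe_mul, Subgroup.coe_mul, Subgroup.coe_inv, C.coe_hT orb horb1 i ha,
        C.coe_xS _ _ hu, C.coe_xS _ _ hau,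
        isTor_conj_xJ b.hA b.hR φ (b.hA.hJ_isTor φ hS (C.rank (horb1 i)) ha0) (C.rank (horb1 j)), h2 a ha0 ha]
    conn := conn
    top := by
      ext t
      exact ⟨fun _ => Subfield.mem_top t, fun _ => top t⟩ }

end TwC

end Cfsg.Agent.Lib.Helper23.TwAut
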