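import Cfsg.Agent.Lib.Helper23.AutCount

/-!
# Counting outer automorphisms (abstract)
-/

set_option autoImplicit false

namespace Cfsg.Agent.Lib.Helper23.TwAut

/-- abstract count of the outer automorphism group from a family of standard automorphisms -/
theorem card_out_abs {G T H : Type*} [Group G] (IsStd : (G ≃* G) → T → Prop)
    (act : H → T → T) (emb : H → G)
    (huniq : ∀ θ θ' τ, IsStd θ τ → IsStd θ' τ → θ = θ')
    (hex : ∀ τ, ∃ θ, IsStd θ τ)
    (hsurj : ∀ θ : G ≃* G, ∃ (x : G) (τ : T) (θ₀ : G ≃* G), IsStd θ₀ τ ∧ ∀ y, θ y = x * θ₀ y * x⁻¹)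
    (hact : ∀ θ τ h, IsStd θ τ → IsStd (θ.trans (MulAut.conj (emb h))) (act h τ))
    (hinj : ∀ τ, Function.Injective (fun h => act h τ))
    (hfib : ∀ θ θ' τ τ' x, IsStd θ τ → IsStd θ' τ' → (∀ y, θ' y = x * θ y * x⁻¹) →
      ∃ h, τ' = act h τ) :
    Nat.card T = Nat.card (Cfsg.Out G) * Nat.card H := by
  choose Φ hΦ using hex
  have hmk : ∀ (x : G) (θ : MulAut G),
      (QuotientGroup.mk (MulAut.conj x * θ) : Cfsg.Out G) = QuotientGroup.mk θ := by
    intro x θ
    rw [QuotientGroup.mk_mul, (QuotientGroup.eq_one_iff (N := Cfsg.Inn G) (MulAut.conj x)).2 ⟨x, rfl⟩,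
      one_mul]
  apply card_eq_of_fibers (fun τ : T => (QuotientGroup.mk (Φ τ : MulAut G) : Cfsg.Out G)) ?_ act hinj ?_
  · intro o
    obtain ⟨θ, rfl⟩ := QuotientGroup.mk_surjective o
    obtain ⟨x, τ, θ₀, h0, hx⟩ := hsurj θ
    refine ⟨τ, ?_⟩
    have e1 : θ₀ = Φ τ := huniq _ _ _ h0 (hΦ τ)
    have e2 : θ = MulAut.conj x * (Φ τ : MulAut G) := by
      rw [← e1]
      exact MulEquiv.ext hx
    rw [e2, hmk]
  · intro τ τ'
    constructor
    · intro e
      obtain ⟨z, hz⟩ := QuotientGroup.eq.1 e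
      have hx : ∀ y, Φ τ' y = Φ τ z * Φ τ y * (Φ τ z)⁻¹ := by
        intro y
        have e1 : (Φ τ' : MulAut G) = (Φ τ : MulAut G) * MulAut.conj z := by
          rw [hz]; group
        have e2 := DFunLike.congr_fun e1 y
        rw [MulAut.mul_apply, MulAut.conj_apply, map_mul, map_mul, map_inv] at e2
        exact e2
      exact hfib _ _ _ _ _ (hΦ τ) (hΦ τ') hx
    · rintro ⟨h, rfl⟩
      have h5 := hact _ _ h (hΦ τ)
      have h6 := huniq _ _ _ h5 (hΦ _)
      show (QuotientGroup.mk _ : Cfsg.Out G) = QuotientGroup.mk _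
      rw [← h6]
      exact (hmk (emb h) (Φ τ)).symm

end Cfsg.Agent.Lib.Helper23.TwAut
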