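import Cfsg.Agent.Lib.Helper23.TwAutMain

/-!
# Automorphisms of twisted groups: last generic steps
-/

set_option autoImplicit false

namespace Cfsg.Agent.Lib.Helper23.TwAut

open Cfsg.Lie Matrix Cfsg.Agent.Lib.Helper23 Cfsg.Agent.Lib.Helper22 Cfsg.Agent.Lib.Helper45
open Cfsg.Agent.Lib.Helper45.AutAbs

theorem mp_card {G : Type*} [Group G] {θ : G ≃* G} {L L' : Subgroup G} (h : Mp θ L L') :
    Nat.card L = Nat.card L' := by
  apply Nat.card_congr
  exact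
  { toFun := fun l => ⟨θ l, h.mem l.2⟩
    invFun := fun l => ⟨θ.symm l, h.symm.mem l.2⟩
    left_inv := fun l => Subtype.ext (θ.symm_apply_apply l)
    right_inv := fun l => Subtype.ext (θ.apply_symm_apply l) }

theorem card_fix_ne {K : Type*} [Field K] [Finite K] (ψ : K →+* K) :
    Nat.card {x : K // ψ x = x ∧ x ≠ 0} = Nat.card {x : K // ψ x = x} - 1 := by
  classical
  have e : {x : K // ψ x = x ∧ x ≠ 0} ≃ {y : {x : K // ψ x = x} // y ≠ ⟨0, map_zero ψ⟩} :=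
    { toFun := fun x => ⟨⟨x.1, x.2.1⟩, fun h => x.2.2 (congrArg Subtype.val h)⟩
      invFun := fun y => ⟨y.1.1, y.1.2, fun h => y.2 (Subtype.ext h)⟩
      left_inv := fun _ => rfl
      right_inv := fun _ => rfl }
  have : Fintype {x : K // ψ x = x} := Fintype.ofFinite _
  rw [Nat.card_congr e, Nat.card_eq_fintype_card, Nat.card_eq_fintype_card, Fintype.card_subtype_compl,
    Fintype.card_subtype_eq]

theorem card_param {K : Type*} [Field K] [Finite K] (φ : K →+* K) {n : ℕ} (orb : Fin n → List ℕ) :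
    Nat.card ({a : Fin n → K // ∀ i, (φ ^ (orb i).length) (a i) = a i ∧ a i ≠ 0} × (K ≃+* K)) =
      (∏ i, (Nat.card {x : K // (φ ^ (orb i).length) x = x} - 1)) * Nat.card (K ≃+* K) := by
  rw [Nat.card_prod]
  congr 1
  rw [Nat.card_congr (Equiv.subtypePiEquivPi (p := fun (i : Fin n) (x : K) =>
    (φ ^ (orb i).length) x = x ∧ x ≠ 0)), Nat.card_pi]
  exact Finset.prod_congr rfl fun i _ => card_fix_ne _

variable {D : ChevalleyDatum} {K : Type*} [Field K]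

namespace TwC

variable {b : Bundle D K} {σ : GL D.Idx K → GL D.Idx K} {ρ ρ' : ℕ → ℕ} {c : ℕ → K → K}
  {O : List (List ℕ)} {cert : List (List ℕ × List (List ℕ))} {G1 : Subgroup (GL D.Idx K)}
  {φ : K →+* K} (C : TwC b σ ρ ρ' c O cert G1 φ)
include C

theorem card_XS (sg : Bool) {J : List ℕ} (hJ : J ∈ O) :
    Nat.card (C.XS sg hJ) = Nat.card {x : K // (φ ^ J.length) x = x} := by
  symm
  apply Nat.card_congr
  refine Equiv.ofBijective (fun t => ⟨⟨b.hA.xJ φ sg J t.1, C.xJ_mem hJ sg t.2⟩, t.1, t.2, rfl⟩) ⟨?_, ?_⟩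
  · intro t u e
    have : b.hA.xJ φ sg J t.1 = b.hA.xJ φ sg J u.1 :=
      congrArg (fun z : ↥(C.XS sg hJ) => ((z : ↥G1) : GL D.Idx K)) e
    exact Subtype.ext (C.xJ_inj hJ sg this)
  · rintro ⟨g, t, ht, e⟩
    exact ⟨⟨t, ht⟩, Subtype.ext (Subtype.ext e.symm)⟩

theorem hstd_of [Finite K] {n : ℕ} {orb : Fin n → List ℕ} {horb1 : ∀ i, orb i ∈ O}
    {U N : Subgroup ↥G1} {P : Fin n → Subgroup ↥G1} {nn : Fin n → ↥G1} {n0 : ↥G1} {ι : Fin n → Fin n}
    {L : Fin n → Fin n → Prop} {i0 : Fin n}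
    (PS : PSys (fun i => C.XS true (horb1 i)) (fun i => C.XS false (horb1 i)) U
      (sT G1 (D.negUnipotent K)) (sT G1 (D.borelSubgroup K)) N P nn n0 ι)
    (TS : TSys (fun i => fixF (φ ^ (orb i).length)) (fun i => C.xS true (horb1 i))
      (fun i => C.xS false (horb1 i)) (fun i => C.XS true (horb1 i)) (fun i => C.XS false (horb1 i))
      (sT G1 (D.negUnipotent K)) (sT G1 (D.borelSubgroup K)) L i0)
    (rig : ∀ (θ : ↥G1 ≃* ↥G1) (π : Equiv.Perm (Fin n)),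
      (∀ i, Mp θ (C.XS true (horb1 i)) (C.XS true (horb1 (π i)))) → π = 1)
    (θ : ↥G1 ≃* ↥G1) : ∃ (g : ↥G1) (τ : K ≃+* K) (a : Fin n → K),
      (∀ i, (φ ^ (orb i).length) (a i) = a i ∧ a i ≠ 0) ∧ C.IsStd orb horb1 (θ.trans (cj g)) a τ := by
  obtain ⟨g, π, hπ⟩ := PS.exists_normal θ
  obtain rfl := rig _ π (fun i => (hπ i).1)
  obtain ⟨τ, a, ha, h⟩ := TS.exists_std hπ
  refine ⟨g, τ, a, ha, fun i sg t ht => ?_⟩
  cases sg
  · exact (h i t ht).2
  · exact (h i t ht).1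

end TwC

end Cfsg.Agent.Lib.Helper23.TwAut
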