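import Cfsg.Agent.Lib.Helper23.AutG

set_option autoImplicit false
set_option maxRecDepth 1000000
set_option maxHeartbeats 0

namespace Cfsg.Agent.Lib.Helper23

open Cfsg.Lie Matrix

/-- the permutation preserves root lengths -/
def LenPres (D : ChevalleyDatum) (π : Equiv.Perm (Fin D.rank)) : Prop :=
  ∀ i : Fin D.rank, D.isLong (D.simple (π i)) = D.isLong (D.simple i)

instance (D : ChevalleyDatum) (π : Equiv.Perm (Fin D.rank)) : Decidable (LenPres D π) :=
  inferInstanceAs (Decidable (∀ i : Fin D.rank, D.isLong (D.simple (π i)) = D.isLong (D.simple i)))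

theorem card_sym_G2 : Fintype.card {π : Equiv.Perm (Fin chevG2.rank) // chevG2.IsDiagramSymmetry π} = 2 := by
  decide +kernel
theorem card_symlen_G2 :
    Fintype.card {π : Equiv.Perm (Fin chevG2.rank) // chevG2.IsDiagramSymmetry π ∧ LenPres chevG2 π} = 1 := by
  decide +kernel
theorem card_sym_F4 : Fintype.card {π : Equiv.Perm (Fin chevF4.rank) // chevF4.IsDiagramSymmetry π} = 2 := by
  decide +kernel
theorem card_symlen_F4 :
    Fintype.card {π : Equiv.Perm (Fin chevF4.rank) // chevF4.IsDiagramSymmetry π ∧ LenPres chevF4 π} = 1 := by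
  decide +kernel
theorem card_symlen_E6 :
    Fintype.card {π : Equiv.Perm (Fin chevE6.rank) // chevE6.IsDiagramSymmetry π ∧ LenPres chevE6 π} = 2 := by
  decide +kernel

variable (F : Type*) [Field F]

theorem card_adm_G2 : Nat.card {π : Equiv.Perm (Fin chevG2.rank) // chevG2.IsDiagramSymmetry π ∧ LenOK chevG2 F π} =
    if ringChar F = 3 then 2 else 1 := by
  split_ifs with h
  · rw [Nat.card_congr (Equiv.subtypeEquivRight fun π =>
      (⟨fun x => x.1, fun x => ⟨x, Or.inr (Or.inl ⟨rfl, h⟩)⟩⟩ :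
        chevG2.IsDiagramSymmetry π ∧ LenOK chevG2 F π ↔ chevG2.IsDiagramSymmetry π)),
      Nat.card_eq_fintype_card, card_sym_G2]
  · rw [Nat.card_congr (Equiv.subtypeEquivRight fun π =>
      (⟨fun x => ⟨x.1, by
          rcases x.2 with h1 | ⟨_, h1⟩ | ⟨h1 | h1, _⟩
          · exact h1
          · exact absurd h1 h
          · exact absurd (congrArg ChevalleyDatum.nroots h1) (by decide)
          · exact absurd (congrArg ChevalleyDatum.nroots h1) (by decide)⟩,
        fun x => ⟨x.1, Or.inl x.2⟩⟩ :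
        chevG2.IsDiagramSymmetry π ∧ LenOK chevG2 F π ↔ chevG2.IsDiagramSymmetry π ∧ LenPres chevG2 π)),
      Nat.card_eq_fintype_card, card_symlen_G2]

theorem card_adm_F4 : Nat.card {π : Equiv.Perm (Fin chevF4.rank) // chevF4.IsDiagramSymmetry π ∧ LenOK chevF4 F π} =
    if ringChar F = 2 then 2 else 1 := by
  split_ifs with h
  · rw [Nat.card_congr (Equiv.subtypeEquivRight fun π =>
      (⟨fun x => x.1, fun x => ⟨x, Or.inr (Or.inr ⟨Or.inr rfl, h⟩)⟩⟩ :
        chevF4.IsDiagramSymmetry π ∧ LenOK chevF4 F π ↔ chevF4.IsDiagramSymmetry π)),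
      Nat.card_eq_fintype_card, card_sym_F4]
  · rw [Nat.card_congr (Equiv.subtypeEquivRight fun π =>
      (⟨fun x => ⟨x.1, by
          rcases x.2 with h1 | ⟨h1, _⟩ | ⟨_, h1⟩
          · exact h1
          · exact absurd (congrArg ChevalleyDatum.nroots h1) (by decide)
          · exact absurd h1 h⟩,
        fun x => ⟨x.1, Or.inl x.2⟩⟩ :
        chevF4.IsDiagramSymmetry π ∧ LenOK chevF4 F π ↔ chevF4.IsDiagramSymmetry π ∧ LenPres chevF4 π)),
      Nat.card_eq_fintype_card, card_symlen_F4]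

theorem card_adm_E6 : Nat.card {π : Equiv.Perm (Fin chevE6.rank) // chevE6.IsDiagramSymmetry π ∧ LenOK chevE6 F π} =
    2 := by
  rw [Nat.card_congr (Equiv.subtypeEquivRight fun π =>
      (⟨fun x => ⟨x.1, by
          rcases x.2 with h1 | ⟨h1, _⟩ | ⟨h1 | h1, _⟩
          · exact h1
          · exact absurd (congrArg ChevalleyDatum.nroots h1) (by decide)
          · exact absurd (congrArg ChevalleyDatum.nroots h1) (by decide)
          · exact absurd (congrArg ChevalleyDatum.nroots h1) (by decide)⟩,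
        fun x => ⟨x.1, Or.inl x.2⟩⟩ :
        chevE6.IsDiagramSymmetry π ∧ LenOK chevE6 F π ↔ chevE6.IsDiagramSymmetry π ∧ LenPres chevE6 π)),
      Nat.card_eq_fintype_card, card_symlen_E6]

theorem card_adm_of_rigid {D : ChevalleyDatum} (h : ∀ π : Equiv.Perm (Fin D.rank), D.IsDiagramSymmetry π → π = 1) :
    Nat.card {π : Equiv.Perm (Fin D.rank) // D.IsDiagramSymmetry π ∧ LenOK D F π} = 1 := by
  have : Unique {π : Equiv.Perm (Fin D.rank) // D.IsDiagramSymmetry π ∧ LenOK D F π} :=
    { default := ⟨1, isDiagramSymmetry_one D, Or.inl fun _ => rfl⟩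
      uniq := fun π => Subtype.ext (h π.1 π.2.1) }
  exact Nat.card_unique

theorem card_adm_E7 : Nat.card {π : Equiv.Perm (Fin chevE7.rank) // chevE7.IsDiagramSymmetry π ∧ LenOK chevE7 F π} =
    1 := card_adm_of_rigid F symE7

theorem card_adm_E8 : Nat.card {π : Equiv.Perm (Fin chevE8.rank) // chevE8.IsDiagramSymmetry π ∧ LenOK chevE8 F π} =
    1 := card_adm_of_rigid F symE8

end Cfsg.Agent.Lib.Helper23
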