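import Mathlib

set_option autoImplicit false

namespace Cfsg.Agent.Lib.Helper23

/-- the automorphism group of the field with `p ^ f` elements has order `f`. -/
theorem card_ringAut {F : Type*} [Field F] [Fintype F] (p f : ℕ) [Fact p.Prime] [CharP F p]
    (hF : Fintype.card F = p ^ f) : Nat.card (F ≃+* F) = f := by
  let _ : Algebra (ZMod p) F := ZMod.algebra F p
  have e : (F ≃+* F) ≃ (F ≃ₐ[ZMod p] F) :=
    { toFun := fun τ => AlgEquiv.ofRingEquiv (f := τ) (fun r => by
        have : ((τ : F →+* F).comp (algebraMap (ZMod p) F)) = algebraMap (ZMod p) F :=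
          Subsingleton.elim _ _
        exact congrArg (fun f : ZMod p →+* F => f r) this)
      invFun := fun τ => τ.toRingEquiv
      left_inv := fun τ => by ext; rfl
      right_inv := fun τ => by ext; rfl }
  rw [Nat.card_congr e, IsGalois.card_aut_eq_finrank]
  have h3 := Module.card_eq_pow_finrank (K := ZMod p) (V := F)
  rw [hF, ZMod.card] at h3
  exact (Nat.pow_right_injective (Fact.out : p.Prime).two_le h3).symm

theorem card_fun_units {F : Type*} [Field F] [Fintype F] (r : ℕ) :
    Nat.card (Fin r → Fˣ) = (Fintype.card F - 1) ^ r := by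
  classical
  rw [Nat.card_eq_fintype_card, Fintype.card_fun, Fintype.card_fin, Fintype.card_units]

/-- the final arithmetic. -/
theorem out_arith {o h d a f Q : ℕ} (hh : 0 < h) (h1 : Q * (a * f) = o * h) (h2 : d * h = Q) : o = d * a * f := by
  subst h2
  have : o * h = (d * a * f) * h := by rw [← h1]; ring
  exact Nat.eq_of_mul_eq_mul_right hh this

end Cfsg.Agent.Lib.Helper23
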