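import Cfsg.Agent.Lib.Helper23.AutCount
import Cfsg.Agent.Lib.Helper23.AutG
import Cfsg.Agent.Lib.Helper45.AutOut2
import Cfsg.Agent.Lib.Helper45.AutMain
import Cfsg.Agent.Lib.Helper22.AutE
import Cfsg.Agent.Lib.Helper29.AutDTab
import Cfsg.Agent.S1080

set_option autoImplicit false
set_option maxRecDepth 1000000

namespace Cfsg.Agent.Lib.Helper23

open Cfsg.Lie Matrix

variable {D : ChevalleyDatum} {F : Type*} [Field F]

/-- the composite of a field, a graph and a diagonal automorphism is standard. -/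
theorem isStd_comp (hD : D ∈ [chevG2, chevB2, chevD4, chevF4, chevE6, chevE7, chevE8]) (b : Bundle D F)
    {d g f : ↥(D.group F) ≃* ↥(D.group F)} {χ : ℕ → Fˣ} (hχ : D.IsRootCharacter χ)
    (hd : ∀ y : ↥(D.group F), ((d y : GL D.Idx F) : Matrix D.Idx D.Idx F) =
      D.charDiag F χ * ((y : GL D.Idx F) : Matrix D.Idx D.Idx F) * D.charDiag F (fun r => (χ r)⁻¹))
    {π : Equiv.Perm (Fin D.rank)} (hg : GraphFor g π) {σ : F ≃+* F}
    (hf : ∀ (y : ↥(D.group F)) (r : ℕ) (t : F), r < D.nroots →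
      ((y : GL D.Idx F) : Matrix D.Idx D.Idx F) = D.x F r t →
      ((f y : GL D.Idx F) : Matrix D.Idx D.Idx F) = D.x F r (σ t)) :
    IsStd b.hA (f.trans (g.trans d)) (fun j => χ (D.simple j)) π σ := by
  have hA := b.hA
  have h1 : ∀ r < D.nroots, ∀ t, f (hA.XG r t) = hA.XG r (σ t) := fun r hr t =>
    Subtype.ext ((hA.eq_X_iff _ _ _).1 (hf _ _ _ hr (hA.coe_X _ _)))
  have h3 : ∀ r < D.nroots, ∀ u, d (hA.XG r u) = hA.XG r ((χ r : F) * u) := by
    intro r hr u
    apply Subtype.ext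
    apply (hA.eq_X_iff _ _ _).1
    rw [hd]
    show D.charDiag F χ * ((hA.X r u : GL D.Idx F) : Matrix D.Idx D.Idx F) * _ = _
    rw [hA.coe_X]
    exact Cfsg.Agent.S2157.result D hD χ hχ r hr u
  intro i t
  constructor
  · show d (g (f (hA.XG (D.simple i) t))) = _
    have h2 : g (hA.XG (D.simple i) (σ t)) = hA.XG (D.simple (π i)) (σ t ^ D.graphExp (ringChar F) i (π i)) :=
      Subtype.ext ((hA.eq_X_iff _ _ _).1 ((hg _ i _).1 (hA.coe_X _ _)))
    rw [h1 _ (b.hR.simple_lt i.2), h2, h3 _ (b.hR.simple_lt (π i).2)]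
  · show d (g (f (hA.XG (D.neg (D.simple i)) t))) = _
    have h2 : g (hA.XG (D.neg (D.simple i)) (σ t)) =
        hA.XG (D.neg (D.simple (π i))) (σ t ^ D.graphExp (ringChar F) i (π i)) :=
      Subtype.ext ((hA.eq_X_iff _ _ _).1 ((hg _ i _).2 (hA.coe_X _ _)))
    rw [h1 _ (b.hR.neg_lt (b.hR.simple_lt i.2)), h2, h3 _ (b.hR.neg_lt (b.hR.simple_lt (π i).2)),
      hχ.1 _ (b.hR.simple_lt (π i).2)]

theorem IsStd.posPres [Finite F] (hD : D ∈ [chevG2, chevB2, chevD4, chevF4, chevE6, chevE7, chevE8])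
    {hA : AddFact D F} {θ : ↥(D.group F) ≃* ↥(D.group F)} {c : Fin D.rank → Fˣ}
    {π : Equiv.Perm (Fin D.rank)} {σ : F ≃+* F} (h : IsStd hA θ c π σ) : PosPres θ := by
  apply Cfsg.Agent.Lib.Helper45.posPres_of_perm D hD hA θ π
  · intro i t
    have := (h i t).1
    rw [show (⟨hA.X (D.simple i) t, hA.X_mem_group _ _⟩ : ↥(D.group F)) = hA.XG (D.simple i) t from rfl, this]
    exact hA.X_mem_rootSubgroup _ _
  · intro i t
    have := (h i t).2
    rw [show (⟨hA.X (D.neg (D.simple i)) t, hA.X_mem_group _ _⟩ : ↥(D.group F)) =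
      hA.XG (D.neg (D.simple i)) t from rfl, this]
    exact hA.X_mem_rootSubgroup _ _

open Cfsg.Agent.Lib.Helper45 Cfsg.Agent.Lib.Helper45.AutAbs in
theorem IsStd.lenOK [Finite F] (hD : D ∈ [chevG2, chevB2, chevD4, chevF4, chevE6, chevE7, chevE8])
    {hA : AddFact D F} {θ : ↥(D.group F) ≃* ↥(D.group F)} {c : Fin D.rank → Fˣ}
    {π : Equiv.Perm (Fin D.rank)} {σ : F ≃+* F} (h : IsStd hA θ c π σ) (hsym : D.IsDiagramSymmetry π) :
    LenOK D F π := by
  have b := bundle_of_mem F hD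
  obtain ⟨P, n0, ι, S⟩ := sys_of_mem' hD hA
  have hρ : ∀ i : Fin D.rank,
      Mp θ (sG (D.rootSubgroup F (D.simple i))) (sG (D.rootSubgroup F (D.simple (π i)))) ∧
      Mp θ (sG (D.rootSubgroup F (D.neg (D.simple i)))) (sG (D.rootSubgroup F (D.neg (D.simple (π i))))) := by
    intro i
    constructor
    · apply mp_of_into hD hA (b.hR.simple_lt i.2)
      intro t
      have := (h i t).1
      rw [show (⟨hA.X (D.simple i) t, hA.X_mem_group _ _⟩ : ↥(D.group F)) = hA.XG (D.simple i) t from rfl, this]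
      exact hA.X_mem_rootSubgroup _ _
    · apply mp_of_into hD hA (b.hR.neg_lt (b.hR.simple_lt i.2))
      intro t
      have := (h i t).2
      rw [show (⟨hA.X (D.neg (D.simple i)) t, hA.X_mem_group _ _⟩ : ↥(D.group F)) =
        hA.XG (D.neg (D.simple i)) t from rfl, this]
      exact hA.X_mem_rootSubgroup _ _
  by_contra hno
  obtain ⟨i, w, h1, h2⟩ := Cfsg.Agent.Lib.Helper22.len_test (F := F) D hD π hsym hno
  apply h2
  rw [← xG_comm_iff hA]
  have h3 := (S.mp_word hρ i w).2.2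
  have e1 : wact D (w.map fun k => k.val) (D.simple i) =
      w.foldr (fun (i : Fin D.rank) r => D.reflectRoot i r) (D.simple i) := by
    simp only [wact, List.foldr_map]
  have e2 : wact D (w.map fun k => (π k).val) (D.simple (π i)) =
      (w.map π).foldr (fun (i : Fin D.rank) r => D.reflectRoot i r) (D.simple (π i)) := by
    simp only [wact, List.foldr_map]
  rw [e2]
  apply S.comm_of_mp (hρ i).1 h3
  intro t u
  rw [← e1]
  exact (xG_comm_iff hA _ _ _ _).2 (h1 t u)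

theorem rank_pos_of_mem (hD : D ∈ [chevG2, chevB2, chevD4, chevF4, chevE6, chevE7, chevE8]) : 0 < D.rank := by
  simp only [List.mem_cons, List.not_mem_nil, or_false] at hD
  rcases hD with rfl | rfl | rfl | rfl | rfl | rfl | rfl <;> decide

theorem simple_inj_of_mem (hD : D ∈ [chevG2, chevB2, chevD4, chevF4, chevE6, chevE7, chevE8]) :
    ∀ i j : Fin D.rank, D.simple i = D.simple j → i = j := by
  simp only [List.mem_cons, List.not_mem_nil, or_false] at hD
  rcases hD with rfl | rfl | rfl | rfl | rfl | rfl | rfl <;> decide +kernel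

/-- the general count of `Out`, from the text of S2156. -/
theorem card_out_mul [Finite F] (hD : D ∈ [chevG2, chevB2, chevD4, chevF4, chevE6, chevE7, chevE8])
    (hS : ∀ θ : ↥(D.group F) ≃* ↥(D.group F), ∃ (x : ↥(D.group F)) (d g f : ↥(D.group F) ≃* ↥(D.group F)),
      D.IsDiagonalAut d ∧ D.IsGraphAut g ∧ D.IsFieldAut f ∧ ∀ y : ↥(D.group F), θ y = x * d (g (f y)) * x⁻¹) :
    Nat.card ((Fin D.rank → Fˣ) × {π : Equiv.Perm (Fin D.rank) // D.IsDiagramSymmetry π ∧ LenOK D F π} ×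
      (F ≃+* F)) = Nat.card (Cfsg.Out ↥(D.group F)) * Nat.card ↥(D.diagonalSubgroup F) := by
  have b := bundle_of_mem F hD
  apply b.card_out (rank_pos_of_mem hD) (simple_inj_of_mem hD)
  · rintro c π σ ⟨hsym, hlen⟩
    obtain ⟨χ, d, hχ, hc, hd⟩ := Cfsg.Agent.Lib.Helper29.AutD.exists_diagAut (F := F) D hD c
    obtain ⟨g, hg⟩ := exists_graphAut_of_symm (F := F) D hD π hsym hlen
    obtain ⟨f, hf⟩ := Cfsg.Agent.S1080.result D hD σ
    have h1 := isStd_comp hD b hχ hd (g := g) (π := π) hg hf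
    have e : (fun j : Fin D.rank => χ (D.simple j)) = c := funext hc
    rw [e] at h1
    exact ⟨_, h1, h1.posPres hD⟩
  · intro θ
    obtain ⟨x, d, g, f, ⟨χ, hχ, hd⟩, ⟨π, hsym, hg⟩, ⟨σ, hf⟩, hx⟩ := hS θ
    have h1 := isStd_comp hD b hχ hd (g := g) (π := π) hg hf
    exact ⟨x, _, π, σ, _, ⟨hsym, h1.lenOK hD hsym⟩, h1, hx⟩

end Cfsg.Agent.Lib.Helper23
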