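import Cfsg.Agent.Lib.Helper23.AutOut
import Cfsg.Agent.Lib.Helper23.AutAdm
import Cfsg.Agent.Lib.Helper23.AutNum
import Cfsg.Agent.Lib.Helper22.AutC
import Cfsg.Agent.S1035

set_option autoImplicit false
set_option maxRecDepth 1000000

namespace Cfsg.Agent.Lib.Helper23

open Cfsg.Lie Matrix

variable {D : ChevalleyDatum} {F : Type*} [Field F]

theorem exists_cartan_neg_one (hD : D ∈ [chevG2, chevB2, chevD4, chevF4, chevE6, chevE7, chevE8]) :
    ∃ i j : Fin D.rank, D.cartan i (D.simple j) = -1 := by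
  simp only [List.mem_cons, List.not_mem_nil, or_false] at hD
  rcases hD with rfl | rfl | rfl | rfl | rfl | rfl | rfl <;> decide +kernel

/-- Steinberg's theorem (the text of S2156), from the rungs of the ladder. -/
theorem steinberg_all [Finite F] (hD : D ∈ [chevG2, chevB2, chevD4, chevF4, chevE6, chevE7, chevE8])
    (θ : ↥(D.group F) ≃* ↥(D.group F)) :
    ∃ (x : ↥(D.group F)) (d g f : ↥(D.group F) ≃* ↥(D.group F)),
      D.IsDiagonalAut d ∧ D.IsGraphAut g ∧ D.IsFieldAut f ∧
        ∀ y : ↥(D.group F), θ y = x * d (g (f y)) * x⁻¹ := by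
  obtain ⟨hC1, hC2, hC3, hC4⟩ := Cfsg.Agent.Lib.Helper22.simple_comm (F := F) D hD
  exact Cfsg.Agent.Lib.Helper45.steinberg_of_rungs hD (Cfsg.Agent.Lib.Helper45.hSyl_of_mem hD) hC1 hC2 hC3 hC4
    (symm_of_adj D hD) (Cfsg.Agent.Lib.Helper22.len_test D hD) (Cfsg.Agent.Lib.Helper22.cartan_conn D hD)
    (exists_cartan_neg_one hD) (exists_graphAut_of_symm D hD) (Cfsg.Agent.Lib.Helper29.AutD.exists_diagAut D hD) θ

/-- the order of `Out`, in terms of the index `d` of `H` in the full diagonal group and the number `a` of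
admissible diagram symmetries. -/
theorem card_out_eq [Fintype F] (p f : ℕ) [Fact p.Prime] [CharP F p] (hF : Fintype.card F = p ^ f)
    (hD : D ∈ [chevG2, chevB2, chevD4, chevF4, chevE6, chevE7, chevE8]) {d a : ℕ}
    (hd : d * Nat.card (D.diagonalSubgroup F) = (p ^ f - 1) ^ D.rank)
    (ha : Nat.card {π : Equiv.Perm (Fin D.rank) // D.IsDiagramSymmetry π ∧ LenOK D F π} = a) :
    Nat.card (Cfsg.Out ↥(D.group F)) = d * a * f := by
  have h1 := card_out_mul hD (steinberg_all (F := F) hD)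
  rw [Nat.card_prod, Nat.card_prod, card_fun_units, hF, ha, card_ringAut p f hF] at h1
  exact out_arith Nat.card_pos h1 hd

end Cfsg.Agent.Lib.Helper23
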