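import Cfsg.Agent.Lib.Helper23.F4H

/-!
# `²F₄`: the core of `B¹` is trivial
-/

set_option autoImplicit false
set_option maxRecDepth 100000

namespace Cfsg.Agent.Lib.Helper23
open Cfsg.Lie Matrix Cfsg.Agent.Lib.Helper22 Cfsg.Agent.Lib.Helper45

/-- the word of the longest element -/
def f4Long : List (List ℕ) :=
  [[0, 3], [1, 2, 1, 2], [0, 3], [1, 2, 1, 2], [0, 3], [1, 2, 1, 2], [0, 3], [1, 2, 1, 2]]

theorem f4Long_ok : TwLong chevF4 f4Orbs f4Long := by decide +kernel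

theorem cartSF4 : ∀ j < 4, ∀ i < 4, chevF4.cartan i (chevF4.simple j) =
    (([[2, -1, 0, 0], [-1, 2, -2, 0], [0, -1, 2, -1], [0, 0, -1, 2]] : List (List ℤ)).getD i []).getD j 0 := by
  decide +kernel

section
variable {K : Type*} [Field K]

/-- a torus element acting trivially on the fundamental root subgroups is trivial -/
theorem L4F_eq_one_of_simple {x0 x1 x2 x3 : K} (h0 : x0 ≠ 0) (h1 : x1 ≠ 0) (h2 : x2 ≠ 0)
    (h3 : x3 ≠ 0) (h : ∀ j < 4, chiP chevF4 (L4F x0 x1 x2 x3) (chevF4.simple j) = 1) :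
    x0 = 1 ∧ x1 = 1 ∧ x2 = 1 ∧ x3 = 1 := by
  have r0 := h 0 (by norm_num)
  have r1 := h 1 (by norm_num)
  have r2 := h 2 (by norm_num)
  have r3 := h 3 (by norm_num)
  rw [chiP_L4F, cartSF4 _ (by norm_num) 0 (by norm_num), cartSF4 _ (by norm_num) 1 (by norm_num),
    cartSF4 _ (by norm_num) 2 (by norm_num), cartSF4 _ (by norm_num) 3 (by norm_num)] at r0 r1 r2 r3
  simp only [List.getD_cons_zero, List.getD_cons_succ, zpow_zero, one_mul, mul_one, _root_.zpow_neg_one] at r0 r1 r2 r3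
  have e0 : x0 ^ 2 = x1 := by field_simp at r0; exact_mod_cast r0
  have e1 : x1 ^ 2 = x0 * x2 := by field_simp at r1; exact_mod_cast r1
  have e2 : x2 ^ 2 = x1 ^ 2 * x3 := by
    rw [_root_.zpow_neg] at r2
    field_simp at r2
    exact_mod_cast r2
  have e3 : x3 ^ 2 = x2 := by field_simp at r3; exact_mod_cast r3
  have f2 : x2 = x0 ^ 3 := by
    have : x0 * x2 = x0 * x0 ^ 3 := by rw [← e1, ← e0]; ring
    exact mul_left_cancel₀ h0 this
  have f3 : x3 = x0 ^ 2 := by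
    have : x0 ^ 4 * x3 = x0 ^ 4 * x0 ^ 2 := by
      calc x0 ^ 4 * x3 = x1 ^ 2 * x3 := by rw [← e0]; ring
        _ = x2 ^ 2 := e2.symm
        _ = _ := by rw [f2]; ring
    exact mul_left_cancel₀ (pow_ne_zero 4 h0) this
  have f0 : x0 = 1 := by
    have : x0 ^ 3 * x0 = x0 ^ 3 * 1 := by
      calc x0 ^ 3 * x0 = (x0 ^ 2) ^ 2 := by ring
        _ = x3 ^ 2 := by rw [f3]
        _ = x2 := e3
        _ = _ := by rw [f2]; ring
    exact mul_left_cancel₀ (pow_ne_zero 3 h0) this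
  rw [f0] at e0 f2 f3
  exact ⟨f0, by rw [← e0]; ring, by rw [f2]; ring, by rw [f3]; ring⟩

end

section sigma
variable {K : Type*} [Field K] [CharP K 2] {m : ℕ} (b : Bundle chevF4 K)

include b in
/-- an element all of whose conjugates under `²F₄` lie in `B` is trivial -/
theorem f4_eq_one_of_conj_mem_borel {k : GL chevF4.Idx K}
    (hk : ∀ g ∈ twistedF4 K (2 ^ m), g * k * g⁻¹ ∈ chevF4.borelSubgroup K) : k = 1 := by
  have hA := b.hA
  have hS := torS_of_mem K memF4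
  have hw₀ : ∀ i ∈ f4Long.flatten, i < chevF4.rank := by decide +kernel
  have hconj := b.hA.nword_conj_pos_eq_neg b.hR b.hN hw₀ f4Long_ok.2
  set n₀ := b.hA.nword f4Long.flatten with hn₀def
  have hn₀ : n₀ ∈ chevF4.monomialSubgroup K := b.hA.nword_mem_mono b.hR hw₀
  have hn₀G : n₀ ∈ twistedF4 K (2 ^ m) := f4_nword_flatten_mem b.hA m _ f4Long_ok.1
  have step1 : ∀ k : GL chevF4.Idx K, (∀ g ∈ twistedF4 K (2 ^ m), g * k * g⁻¹ ∈ chevF4.borelSubgroup K) →
      k ∈ chevF4.diagonalSubgroup K := by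
    intro k hk
    have h1 : k ∈ chevF4.borelSubgroup K := by simpa using hk 1 (one_mem _)
    have h2 := hk n₀⁻¹ (inv_mem hn₀G)
    rw [inv_inv] at h2
    obtain ⟨u, hu, h, hh, h3⟩ := (b.hA.mem_borel_iff b.hT).1 h2
    have h4 : k = (n₀ * u * n₀⁻¹) * (n₀ * h * n₀⁻¹) := by
      have : k = n₀ * (n₀⁻¹ * k * n₀) * n₀⁻¹ := by group
      rw [this, h3]; group
    have h5 : n₀ * u * n₀⁻¹ ∈ chevF4.negUnipotent K := by
      rw [← hconj]
      exact ⟨u, hu, by simp⟩
    have h6 : k ∈ chevF4.borelSubgroup K ⊓ (chevF4.negUnipotent K ⊔ chevF4.diagonalSubgroup K) := by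
      refine ⟨h1, ?_⟩
      rw [h4]
      exact mul_mem (Subgroup.mem_sup_left h5)
        (Subgroup.mem_sup_right (b.hA.mono_conj_diag b.hR b.hN hn₀ hh))
    rwa [b.hTri.BVH] at h6
  have hkH := step1 k hk
  -- `k` commutes with the elements of `U ∩ G¹`
  have step2 : ∀ g ∈ twistedF4 K (2 ^ m), g ∈ chevF4.posUnipotent K → k * g * k⁻¹ ∈ chevF4.posUnipotent K →
      k * g * k⁻¹ = g := by
    intro g hg hgU hgU'
    have h1 : g * k * g⁻¹ ∈ chevF4.diagonalSubgroup K := by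
      apply step1
      intro a ha
      have : a * (g * k * g⁻¹) * a⁻¹ = (a * g) * k * (a * g)⁻¹ := by group
      rw [this]
      exact hk _ (mul_mem ha hg)
    have h2 : (k * g * k⁻¹) * g⁻¹ ∈ chevF4.posUnipotent K ⊓ chevF4.diagonalSubgroup K := by
      refine Subgroup.mem_inf.2 ⟨mul_mem hgU' (inv_mem hgU), ?_⟩
      have : (k * g * k⁻¹) * g⁻¹ = k * (g * k * g⁻¹)⁻¹ := by group
      rw [this]
      exact mul_mem hkH (inv_mem h1)
    rw [b.hTri.UH, Subgroup.mem_bot] at h2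
    exact mul_inv_eq_one.1 h2
  obtain ⟨x0, x1, x2, x3, h0, h1, h2, h3, rfl⟩ := exists_L4F b.hA hkH
  have hT := b.hA.hP_isTor hS (L4F_ok h0 h1 h2 h3)
  set χ := chiP chevF4 (L4F x0 x1 x2 x3) with hχ
  set k := b.hA.hP (L4F x0 x1 x2 x3) with hkdef
  have h48 : chevF4.nroots = 48 := rfl
  have c1 : ∀ x y : K, k * b.hA.W [(33, x), (24, y)] * k⁻¹ = b.hA.W [(33, χ 33 * x), (24, χ 24 * y)] := by
    intro x y
    simp only [AddFact.W, List.map_cons, List.map_nil, List.prod_cons, List.prod_nil, mul_one]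
    rw [← hT.2.2 33 (by rw [h48]; norm_num), ← hT.2.2 24 (by rw [h48]; norm_num)]
    group
  have c2 : ∀ x y z v : K, k * b.hA.W [(27, x), (25, y), (28, z), (30, v)] * k⁻¹ =
      b.hA.W [(27, χ 27 * x), (25, χ 25 * y), (28, χ 28 * z), (30, χ 30 * v)] := by
    intro x y z v
    simp only [AddFact.W, List.map_cons, List.map_nil, List.prod_cons, List.prod_nil, mul_one]
    rw [← hT.2.2 27 (by rw [h48]; norm_num), ← hT.2.2 25 (by rw [h48]; norm_num),
      ← hT.2.2 28 (by rw [h48]; norm_num), ← hT.2.2 30 (by rw [h48]; norm_num)]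
    group
  have d1 := step2 _ (pair_pos_mem b.hA m 1)
    (XL_le_pos b (l := [33, 24]) (by decide +kernel) ⟨_, rfl, rfl⟩) (by
      unfold pairW
      rw [c1]
      exact XL_le_pos b (l := [33, 24]) (by decide +kernel) ⟨_, rfl, rfl⟩)
  have d2 := step2 _ (cls_pos_mem b.hA m 1 0)
    (XL_le_pos b (l := [27, 25, 28, 30]) (by decide +kernel) ⟨_, rfl, rfl⟩) (by
      unfold clsW
      rw [c2]
      exact XL_le_pos b (l := [27, 25, 28, 30]) (by decide +kernel) ⟨_, rfl, rfl⟩)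
  unfold pairW at d1
  unfold clsW at d2
  rw [c1] at d1
  rw [c2] at d2
  obtain ⟨a33, a24⟩ := f4_unique2 b d1
  obtain ⟨a27, a25, -, -⟩ := f4_unique4 b d2
  rw [map_one, mul_one] at a33 a27
  rw [mul_one] at a24 a25
  obtain ⟨s0, s1, s2, s3⟩ := f4_simple
  obtain ⟨rfl, rfl, rfl, rfl⟩ := L4F_eq_one_of_simple h0 h1 h2 h3 (by
    intro j hj
    interval_cases j
    · rw [s0]; exact a33
    · rw [s1]; exact a27
    · rw [s2]; exact a25
    · rw [s3]; exact a24)
  rw [hkdef, b.hA.hP_eq_one_iff hS (L4F_ok h0 h1 h2 h3)]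
  intro s _
  rw [chiP_L4F]
  simp

include b in
theorem f4_core : ((chevF4.borelSubgroup K ⊓ twistedF4 K (2 ^ m)).subgroupOf
    (twistedF4 K (2 ^ m))).normalCore = ⊥ := by
  rw [eq_bot_iff]
  intro k hk
  rw [Subgroup.mem_bot]
  apply Subtype.ext
  apply f4_eq_one_of_conj_mem_borel (m := m) b
  intro g hg
  have := hk ⟨g, hg⟩
  rw [Subgroup.mem_subgroupOf] at this
  exact this.1

end sigma

end Cfsg.Agent.Lib.Helper23
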