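import Cfsg.Agent.Lib.Helper23.F4Weyl
import Cfsg.Agent.Lib.Helper23.F4H
import Cfsg.Agent.Lib.Helper23.DihSum
import Cfsg.Agent.Lib.Helper45.TwistCount3

/-!
# The order of `²F₄`
-/

set_option autoImplicit false
set_option maxRecDepth 100000

namespace Cfsg.Agent.Lib.Helper23
open Cfsg.Lie Matrix Cfsg.Agent.Lib.Helper22 Cfsg.Agent.Lib.Helper45 Cfsg.Agent.Lib.Helper8

section cls
variable {K : Type*} [Field K] {D : ChevalleyDatum} {hA : AddFact D K} {a b ab aab : ℕ}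

theorem B2Rel.mem_closure (R : B2Rel hA a b ab aab) {u : GL D.Idx K}
    (hu : u ∈ Subgroup.closure {x | ∃ r ∈ [a, b, ab, aab], ∃ t : K, x = hA.X r t}) :
    ∃ x y z v : K, u = hA.W [(a, x), (b, y), (ab, z), (aab, v)] := by
  induction hu using Subgroup.closure_induction with
  | mem x hx =>
    obtain ⟨r, hr, t, rfl⟩ := hx
    simp only [List.mem_cons, List.not_mem_nil, or_false] at hr
    rcases hr with rfl | rfl | rfl | rfl
    · exact ⟨t, 0, 0, 0, by simp [AddFact.W]⟩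
    · exact ⟨0, t, 0, 0, by simp [AddFact.W]⟩
    · exact ⟨0, 0, t, 0, by simp [AddFact.W]⟩
    · exact ⟨0, 0, 0, t, by simp [AddFact.W]⟩
  | one => exact ⟨0, 0, 0, 0, by simp [AddFact.W]⟩
  | mul x y _ _ ihx ihy =>
    obtain ⟨x1, y1, z1, v1, rfl⟩ := ihx
    obtain ⟨x2, y2, z2, v2, rfl⟩ := ihy
    exact ⟨_, _, _, _, R.mul4 _ _ _ _ _ _ _ _⟩
  | inv x _ ih =>
    obtain ⟨x1, y1, z1, v1, rfl⟩ := ih
    refine ⟨-x1, -y1, -z1 + x1 * y1, -v1 - x1 ^ 2 * y1, ?_⟩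
    rw [inv_eq_iff_mul_eq_one, R.mul4]
    have e1 : x1 + -x1 = 0 := by ring
    have e2 : y1 + -y1 = 0 := by ring
    have e3 : z1 + (-z1 + x1 * y1) + -x1 * y1 = 0 := by ring
    have e4 : v1 + (-v1 - x1 ^ 2 * y1) + (-x1) ^ 2 * y1 = 0 := by ring
    rw [e1, e2, e3, e4]
    simp [AddFact.W]

end cls

section gen
variable {D : ChevalleyDatum} {F : Type*} [Field F] (b : Bundle D F)

theorem Umin_le_closure {ω : List ℕ} (hω : ∀ i ∈ ω, i < D.rank) {β : List ℕ}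
    (honly : ∀ r < D.nroots, D.IsPosRoot r → D.IsNegRoot (wact D ω r) → r ∈ β) :
    Umin D F (b.hA.nword ω) ≤ Subgroup.closure {x | ∃ a ∈ β, ∃ t : F, x = b.hA.X a t} := by
  refine Subgroup.closure_mono ?_
  rintro x ⟨r, t, hr, hle, hx⟩
  rw [b.hA.eq_X_iff] at hx
  exact ⟨r, honly r hr.1 hr (neg_of_conj_le b (acts_nword b hω)
    (fun r hr => b.hR.wact_lt hω hr) hr hle), t, hx⟩

theorem XL_le_Umin {ω : List ℕ} (hω : ∀ i ∈ ω, i < D.rank) {β : List ℕ}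
    (hβ : ∀ r ∈ β, D.IsPosRoot r ∧ D.IsNegRoot (wact D ω r)) {g : GL D.Idx F} (hg : g ∈ XL b β) :
    g ∈ Umin D F (b.hA.nword ω) := by
  obtain ⟨w, rfl, rfl⟩ := hg
  apply Subgroup.list_prod_mem
  intro x hx
  obtain ⟨p, hp, rfl⟩ := List.mem_map.1 hx
  have h := hβ p.1 (List.mem_map_of_mem hp)
  exact Subgroup.subset_closure ⟨p.1, p.2, h.1,
    conj_le_of_neg b (acts_nword b hω) h.1.1 h.2, b.hA.coe_X _ _⟩

end gen

section sigma
variable {K : Type*} [Field K] [CharP K 2] [Fintype K] {m : ℕ} (hK : Fintype.card K = 2 ^ (2 * m + 1))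
  (b : Bundle chevF4 K) (α : ↥(chevF4.group K) ≃* ↥(chevF4.group K))
  (hα : ∀ r < 48, ∀ t : K,
    (α ⟨b.hA.X r t, b.hA.X_mem_group r t⟩ : GL chevF4.Idx K) = b.hA.X (isoRhoF4 r) (t ^ isoLamF4 r))

include hK hα in
theorem f4_card_Umin1 : Nat.card ↥(Umin chevF4 K (b.hA.nword [0, 3]) ⊓ twistedF4 K (2 ^ m)) =
    2 ^ (2 * m + 1) := by
  rw [← card_FixL1 hK b α hα]
  apply Nat.card_congr
  apply Equiv.subtypeEquivRight
  intro g
  constructor
  · rintro ⟨h1, h2⟩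
    have h3 := Umin_le_closure b (ω := [0, 3]) (by decide +kernel) (β := [33, 24]) (by decide +kernel) h1
    obtain ⟨τ, rfl⟩ := mem_closure_block b.hA (by decide) (by
      intro a ha a' ha' t u
      simp only [List.mem_cons, List.not_mem_nil, or_false] at ha ha'
      rcases ha with rfl | rfl <;> rcases ha' with rfl | rfl
      · exact (b.hA.X_add 33 t u).symm.trans ((add_comm t u ▸ b.hA.X_add 33 u t))
      · exact f4_comm_pos1 b.hA t u
      · exact (f4_comm_pos1 b.hA u t).symm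
      · exact (b.hA.X_add 24 t u).symm.trans ((add_comm t u ▸ b.hA.X_add 24 u t))) h3
    exact ⟨⟨_, wL_fst _ _, rfl⟩, (f4_G1_fix hK b α hα h2).2⟩
  · intro hg
    refine ⟨XL_le_Umin b (by decide +kernel) (by decide +kernel) hg.1, ?_⟩
    obtain ⟨t, rfl⟩ := (mem_FixL1 hK b α hα).1 hg
    exact pair_pos_mem b.hA m t

include hK hα in
theorem f4_card_Umin2 : Nat.card ↥(Umin chevF4 K (b.hA.nword [1, 2, 1, 2]) ⊓ twistedF4 K (2 ^ m)) =
    (2 ^ (2 * m + 1)) ^ 2 := by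
  rw [← card_FixL2 hK b α hα]
  apply Nat.card_congr
  apply Equiv.subtypeEquivRight
  intro g
  constructor
  · rintro ⟨h1, h2⟩
    have h3 := Umin_le_closure b (ω := [1, 2, 1, 2]) (by decide +kernel) (β := [27, 25, 28, 30])
      (by decide +kernel) h1
    obtain ⟨x, y, z, v, rfl⟩ := (b2Rel_pos b.hA).mem_closure h3
    exact ⟨(mem_XL2 b).2 ⟨_, _, _, _, rfl⟩, (f4_G1_fix hK b α hα h2).2⟩
  · intro hg
    refine ⟨XL_le_Umin b (by decide +kernel) (by decide +kernel) hg.1, ?_⟩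
    obtain ⟨t, u, rfl⟩ := (mem_FixL2 hK b α hα).1 hg
    exact cls_pos_mem b.hA m t u

include hK hα in
/-- `|B¹| = |U¹| |H¹|` -/
theorem f4_card_B1 : Nat.card ↥(chevF4.borelSubgroup K ⊓ twistedF4 K (2 ^ m)) =
    Nat.card ↥(chevF4.posUnipotent K ⊓ twistedF4 K (2 ^ m)) *
      Nat.card ↥(chevF4.diagonalSubgroup K ⊓ twistedF4 K (2 ^ m)) := by
  have hσ := f4_isTwist hK b α hα
  rw [← Nat.card_prod]
  symm
  let Ψ : ↥(chevF4.posUnipotent K ⊓ twistedF4 K (2 ^ m)) × ↥(chevF4.diagonalSubgroup K ⊓ twistedF4 K (2 ^ m)) →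
      ↥(chevF4.borelSubgroup K ⊓ twistedF4 K (2 ^ m)) :=
    fun p => ⟨p.1 * p.2, (b.hA.mem_borel_iff b.hT).2 ⟨p.1, p.1.2.1, p.2, p.2.2.1, rfl⟩,
      mul_mem p.1.2.2 p.2.2.2⟩
  apply Nat.card_congr (Equiv.ofBijective Ψ ⟨?_, ?_⟩)
  · rintro ⟨u, h⟩ ⟨u', h'⟩ he
    have he' : (u : GL chevF4.Idx K) * h = u' * h' := congrArg Subtype.val he
    have h1 : (u' : GL chevF4.Idx K)⁻¹ * u = h' * (h : GL chevF4.Idx K)⁻¹ := by
      calc (u' : GL chevF4.Idx K)⁻¹ * u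
          = (u' : GL chevF4.Idx K)⁻¹ * (u * h) * (h : GL chevF4.Idx K)⁻¹ := by group
        _ = h' * (h : GL chevF4.Idx K)⁻¹ := by rw [he']; group
    have h2 : (u' : GL chevF4.Idx K)⁻¹ * u ∈ chevF4.posUnipotent K ⊓ chevF4.diagonalSubgroup K := by
      refine Subgroup.mem_inf.2 ⟨mul_mem (inv_mem u'.2.1) u.2.1, ?_⟩
      rw [h1]
      exact mul_mem h'.2.1 (inv_mem h.2.1)
    rw [b.hTri.UH, Subgroup.mem_bot] at h2
    have h3 : (u : GL chevF4.Idx K) = u' := (inv_mul_eq_one.1 h2).symm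
    have h4 : (h : GL chevF4.Idx K) = h' := by
      rw [h3] at he'
      exact mul_left_cancel he'
    exact Prod.ext (Subtype.ext h3) (Subtype.ext h4)
  · rintro ⟨g, hg, hg1⟩
    obtain ⟨u, hu, h, hh, rfl⟩ := (b.hA.mem_borel_iff b.hT).1 hg
    have hfix := (f4_G1_fix hK b α hα hg1).2
    rw [hσ.mul _ (b.hA.pos_le_group hu) _ (b.hA.diag_le_group hh)] at hfix
    have h1 : u⁻¹ * f4Sigma b α m u = h * (f4Sigma b α m h)⁻¹ := by
      calc u⁻¹ * f4Sigma b α m u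
          = u⁻¹ * (f4Sigma b α m u * f4Sigma b α m h) * (f4Sigma b α m h)⁻¹ := by group
        _ = h * (f4Sigma b α m h)⁻¹ := by rw [hfix]; group
    have h2 : u⁻¹ * f4Sigma b α m u ∈ chevF4.posUnipotent K ⊓ chevF4.diagonalSubgroup K := by
      refine Subgroup.mem_inf.2 ⟨mul_mem (inv_mem hu) (hσ.map_pos b u hu), ?_⟩
      rw [h1]
      exact mul_mem hh (inv_mem (hσ.map_diag b h hh))
    rw [b.hTri.UH, Subgroup.mem_bot] at h2
    have h3 : f4Sigma b α m u = u := (inv_mul_eq_one.1 h2).symm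
    have hu1 : u ∈ twistedF4 K (2 ^ m) := f4_U_fix hK b α hα u hu h3
    have hh1 : h ∈ twistedF4 K (2 ^ m) := by
      have : h = u⁻¹ * (u * h) := by group
      rw [this]
      exact mul_mem (inv_mem hu1) hg1
    exact ⟨(⟨u, hu, hu1⟩, ⟨h, hh, hh1⟩), rfl⟩

include hK hα in
theorem f4_card_G1 : Nat.card ↥(twistedF4 K (2 ^ m)) =
    (2 ^ (2 * m + 1)) ^ 12 * (2 ^ (2 * m + 1) - 1) ^ 2 *
      (alt8.map fun L => (L.map ![2 ^ (2 * m + 1), (2 ^ (2 * m + 1)) ^ 2]).prod).sum := by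
  obtain ⟨P, hPB, hPN, hPS⟩ := f4_bnPair hK b α hα
  obtain ⟨σ', h0, h1, h2, _, h4⟩ := f4_weyl b hPB hPS
  have hfin : Finite ↥(twistedF4 K (2 ^ m)) := inferInstance
  have hS := sharpBN_of_mem K memF4
  have hcB : Nat.card P.B = Nat.card ↥(chevF4.borelSubgroup K ⊓ twistedF4 K (2 ^ m)) := by
    rw [hPB]
    exact Nat.card_congr (Subgroup.subgroupOfEquivOfLe inf_le_right).toEquiv
  have ha' : ∀ i, Nat.card (C P (sg P (σ' i))) =
      (![2 ^ (2 * m + 1), (2 ^ (2 * m + 1)) ^ 2] : Fin 2 → ℕ) i * Nat.card P.B := by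
    intro i
    have hN : (((σ' i : P.S) : ↥(twistedF4 K (2 ^ m))) : GL chevF4.Idx K) ∈ chevF4.monomialSubgroup K := by
      rw [h0]
      exact b.hA.nword_mem_mono b.hR (f4_orbOK.rank _ (orbFF4_mem i))
    rw [C_sg, card_DC1 hS (f4_fixBN hK b α hα) hPB _ hN, h0, mul_comm]
    congr 1
    fin_cases i
    · exact f4_card_Umin1 hK b α hα
    · exact f4_card_Umin2 hK b α hα
  have h5 := dih8_sum (fun i => sg P (σ' i)) h1 (fun i => sg_ne_one _) h2 (h4 0 1) _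
    (fun w => Nat.card (C P w)) (card_C_red σ' _ ha')
  rw [← card_eq_finsum_C] at h5
  rw [h5, C_one]
  congr 1
  have : Nat.card (P.B : Set ↥(twistedF4 K (2 ^ m))) = Nat.card P.B := rfl
  rw [this, hcB, f4_card_B1 hK b α hα, f4_card_U1 hK b α hα, f4_card_H1 hK b α hα]

end sigma

end Cfsg.Agent.Lib.Helper23
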