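import Cfsg.Agent.Lib.Helper23.F4Core
import Cfsg.Agent.Lib.Helper23.TwSimple
import Cfsg.Agent.Lib.Helper23.TwField

/-!
# `²F₄(q)`, `q ≥ 8`, is perfect and simple
-/

set_option autoImplicit false
set_option maxRecDepth 100000

namespace Cfsg.Agent.Lib.Helper23
open Cfsg.Lie Matrix Cfsg.Agent.Lib.Helper22 Cfsg.Agent.Lib.Helper45
open scoped commutatorElement

section cls
variable {K : Type*} [Field K] [CharP K 2] [Fintype K] {m : ℕ} (hK : Fintype.card K = 2 ^ (2 * m + 1))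
  {hA : AddFact chevF4 K} {a b ab aab : ℕ}

include hK in
/-- the group law of a class of type `B₂` -/
theorem B2Rel.cls_mul (R : B2Rel hA a b ab aab) (t u t' u' : K) :
    hA.W (clsW a b ab aab (f4Th K m) (f4Ps K m) t u) * hA.W (clsW a b ab aab (f4Th K m) (f4Ps K m) t' u') =
      hA.W (clsW a b ab aab (f4Th K m) (f4Ps K m) (t + t') (u + u' + f4Th K m t * t')) := by
  unfold clsW
  rw [R.mul4]
  have e1 : f4Th K m t * t + u + (f4Th K m t' * t' + u') + f4Th K m t' * t =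
      f4Th K m (t + t') * (t + t') + (u + u' + f4Th K m t * t') := by
    rw [map_add]
    have : f4Th K m t * t' + f4Th K m t * t' = 0 := CharTwo.add_self_eq_zero _
    linear_combination -this
  have e2 : f4Ps K m u + f4Ps K m u' + f4Th K m t' ^ 2 * t = f4Ps K m (u + u' + f4Th K m t * t') := by
    rw [map_add, map_add, map_mul, f4Ps_f4Th hK, ← f4Ps_apply]
    ring
  rw [e1, e2, map_add]

omit [CharP K 2] [Fintype K] in
theorem clsW_zero (Θ Ψ : K →+* K) : hA.W (clsW a b ab aab Θ Ψ 0 0) = 1 := by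
  simp [clsW, AddFact.W]

include hK in
theorem B2Rel.cls_inv (R : B2Rel hA a b ab aab) (t u : K) :
    (hA.W (clsW a b ab aab (f4Th K m) (f4Ps K m) t u))⁻¹ =
      hA.W (clsW a b ab aab (f4Th K m) (f4Ps K m) t (u + f4Th K m t * t)) := by
  rw [inv_eq_iff_mul_eq_one, R.cls_mul hK]
  have e1 : t + t = 0 := CharTwo.add_self_eq_zero _
  have e2 : u + (u + f4Th K m t * t) + f4Th K m t * t = 0 := by
    have h1 : u + u = 0 := CharTwo.add_self_eq_zero _
    have h2 : f4Th K m t * t + f4Th K m t * t = 0 := CharTwo.add_self_eq_zero _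
    linear_combination h1 + h2
  rw [e1, e2, clsW_zero]

include hK in
/-- the class words lie in the derived group, given a suitable torus element -/
theorem B2Rel.cls_mem_comm (R : B2Rel hA a b ab aab) {G1 : Subgroup (GL chevF4.Idx K)}
    (hG : ∀ t u, hA.W (clsW a b ab aab (f4Th K m) (f4Ps K m) t u) ∈ G1) {h : GL chevF4.Idx K} (hh : h ∈ G1)
    {κ : K} (hκ0 : κ ≠ 0) (hκ1 : κ ≠ 1)
    (h1 : ∀ x, h * hA.X a x * h⁻¹ = hA.X a (f4Th K m κ * x)) (h2 : ∀ x, h * hA.X b x * h⁻¹ = hA.X b (κ * x))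
    (h3 : ∀ x, h * hA.X ab x * h⁻¹ = hA.X ab (f4Th K m κ * κ * x))
    (h4 : ∀ x, h * hA.X aab x * h⁻¹ = hA.X aab (f4Ps K m κ * κ * x)) (t u : K) :
    hA.W (clsW a b ab aab (f4Th K m) (f4Ps K m) t u) ∈ ⁅G1, G1⁆ := by
  have hconj : ∀ t u, h * hA.W (clsW a b ab aab (f4Th K m) (f4Ps K m) t u) * h⁻¹ =
      hA.W (clsW a b ab aab (f4Th K m) (f4Ps K m) (κ * t) (f4Th K m κ * κ * u)) := by
    intro t u
    unfold clsW
    simp only [AddFact.W, List.map_cons, List.map_nil, List.prod_cons, List.prod_nil, mul_one]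
    have e1 : f4Th K m (κ * t) = f4Th K m κ * f4Th K m t := map_mul _ _ _
    have e3 : f4Th K m (κ * t) * (κ * t) + f4Th K m κ * κ * u = f4Th K m κ * κ * (f4Th K m t * t + u) := by
      rw [map_mul]; ring
    have e4 : f4Ps K m (f4Th K m κ * κ * u) = f4Ps K m κ * κ * f4Ps K m u := by
      rw [map_mul, map_mul, f4Ps_f4Th hK]; ring
    rw [e3, e4, e1, ← h1, ← h2, ← h3, ← h4]
    group
  have hcomm : ∀ t u, hA.W (clsW a b ab aab (f4Th K m) (f4Ps K m) (κ * t) (f4Th K m κ * κ * u)) *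
      (hA.W (clsW a b ab aab (f4Th K m) (f4Ps K m) t u))⁻¹ ∈ ⁅G1, G1⁆ := by
    intro t u
    rw [← hconj]
    have := Subgroup.commutator_mem_commutator hh (hG t u)
    rwa [commutatorElement_def] at this
  -- the centre
  have hlam : f4Th K m κ * κ + 1 ≠ 0 := by
    intro h0
    have e : f4Th K m κ * κ = 1 := by
      have := CharTwo.add_eq_zero.1 h0
      exact this
    have e2 : f4Ps K m (f4Th K m κ) * f4Ps K m κ = 1 := by rw [← map_mul, e, map_one]
    rw [f4Ps_f4Th hK, f4Ps_apply] at e2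
    -- κ * (θ κ)^2 = 1 and θ κ * κ = 1 give θ κ = 1
    have e3 : f4Th K m κ = 1 := by
      have : f4Th K m κ * (f4Th K m κ * κ) = 1 := by rw [← e2]; ring
      rwa [e, mul_one] at this
    rw [e3, one_mul] at e
    exact hκ1 e
  have hz : ∀ u, hA.W (clsW a b ab aab (f4Th K m) (f4Ps K m) 0 u) ∈ ⁅G1, G1⁆ := by
    intro u
    have := hcomm 0 ((f4Th K m κ * κ + 1)⁻¹ * u)
    rw [R.cls_inv hK, R.cls_mul hK] at this
    convert this using 3
    · simp
    · simp only [map_zero, mul_zero, add_zero]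
      field_simp
  have hκ' : κ + 1 ≠ 0 := by
    intro h0
    exact hκ1 (CharTwo.add_eq_zero.1 h0)
  have ht := hcomm ((κ + 1)⁻¹ * t) 0
  rw [R.cls_inv hK, R.cls_mul hK] at ht
  have et : κ * ((κ + 1)⁻¹ * t) + (κ + 1)⁻¹ * t = t := by field_simp
  rw [et] at ht
  set v := f4Th K m κ * κ * 0 + (0 + f4Th K m ((κ + 1)⁻¹ * t) * ((κ + 1)⁻¹ * t)) +
    f4Th K m (κ * ((κ + 1)⁻¹ * t)) * ((κ + 1)⁻¹ * t) with hv
  have := mul_mem ht (hz (u + v))
  rw [R.cls_mul hK] at this
  convert this using 3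
  · simp
  · have h2 : v + v = 0 := CharTwo.add_self_eq_zero _
    rw [mul_zero]
    linear_combination -h2

end cls

section pair
variable {K : Type*} [Field K] [CharP K 2] {m : ℕ} {hA : AddFact chevF4 K} {r rb : ℕ}

theorem pair_mem_comm (hc : ∀ x y : K, Commute (hA.X r x) (hA.X rb y)) {G1 : Subgroup (GL chevF4.Idx K)}
    (hG : ∀ t, hA.W (pairW r rb (f4Th K m) t) ∈ G1) {h : GL chevF4.Idx K} (hh : h ∈ G1)
    {κ : K} (hκ1 : κ ≠ 1)
    (h1 : ∀ x, h * hA.X r x * h⁻¹ = hA.X r (f4Th K m κ * x)) (h2 : ∀ x, h * hA.X rb x * h⁻¹ = hA.X rb (κ * x))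
    (t : K) : hA.W (pairW r rb (f4Th K m) t) ∈ ⁅G1, G1⁆ := by
  have hκ' : κ + 1 ≠ 0 := by
    intro h0
    exact hκ1 (CharTwo.add_eq_zero.1 h0)
  have := Subgroup.commutator_mem_commutator hh (hG ((κ + 1)⁻¹ * t))
  rw [commutatorElement_def] at this
  convert this using 1
  unfold pairW
  simp only [AddFact.W, List.map_cons, List.map_nil, List.prod_cons, List.prod_nil, mul_one]
  set s := (κ + 1)⁻¹ * t with hs
  have e : h * (hA.X r (f4Th K m s) * hA.X rb s) * h⁻¹ = hA.X r (f4Th K m κ * f4Th K m s) * hA.X rb (κ * s) := by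
    rw [← h1, ← h2]; group
  rw [e, _root_.mul_inv_rev, hA.X_inv, hA.X_inv]
  have et : t = κ * s + -s := by
    rw [hs, CharTwo.neg_eq]
    field_simp
  have et' : f4Th K m t = f4Th K m κ * f4Th K m s + -f4Th K m s := by
    rw [et, map_add, map_mul, map_neg]
  rw [et', hA.X_add]
  conv_lhs => rw [et, hA.X_add]
  have c1 := hc (-f4Th K m s) (κ * s)
  calc hA.X r (f4Th K m κ * f4Th K m s) * hA.X r (-f4Th K m s) * (hA.X rb (κ * s) * hA.X rb (-s))
      = hA.X r (f4Th K m κ * f4Th K m s) * (hA.X r (-f4Th K m s) * hA.X rb (κ * s)) * hA.X rb (-s) := by group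
    _ = hA.X r (f4Th K m κ * f4Th K m s) * (hA.X rb (κ * s) * hA.X r (-f4Th K m s)) * hA.X rb (-s) := by
        rw [c1.eq]
    _ = hA.X r (f4Th K m κ * f4Th K m s) * hA.X rb (κ * s) * (hA.X r (-f4Th K m s) * hA.X rb (-s)) := by group
    _ = _ := by rw [(hc (-f4Th K m s) (-s)).eq]

end pair

end Cfsg.Agent.Lib.Helper23
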