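import Cfsg.Agent.Lib.Helper23.F4Perf

/-!
# `²F₄(q)`, `q ≥ 8`, is perfect and simple
-/

set_option autoImplicit false
set_option maxRecDepth 100000

namespace Cfsg.Agent.Lib.Helper23
open Cfsg.Lie Matrix Cfsg.Agent.Lib.Helper22 Cfsg.Agent.Lib.Helper45
open scoped commutatorElement

theorem cartF4_03 : (∀ p ∈ ([(33, 2, 0), (24, 0, 2), (14, -2, 0), (23, 0, -2), (27, -1, 0), (25, 0, -1),
    (28, -1, -1), (30, -2, -1), (20, 1, 0), (22, 0, 1), (19, 1, 1), (17, 2, 1)] : List (ℕ × ℤ × ℤ)),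
    chevF4.cartan 0 p.1 = p.2.1 ∧ chevF4.cartan 3 p.1 = p.2.2) := by decide +kernel

section
variable {K : Type*} [Field K]

theorem chi_l (x l : K) (s : ℕ) (c0 c3 : ℤ) (h : chevF4.cartan 0 s = c0 ∧ chevF4.cartan 3 s = c3) :
    chiP chevF4 (L4F x 1 1 l) s = x ^ c0 * l ^ c3 := by
  rw [chiP_L4F, h.1, h.2]
  simp

end

section sigma
variable {K : Type*} [Field K] [CharP K 2] [Fintype K] {m : ℕ} (hK : Fintype.card K = 2 ^ (2 * m + 1))
  (b : Bundle chevF4 K)

include hK in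
theorem f4_tor_l {l : K} (hl : l ≠ 0) : b.hA.hP (L4F (f4Th K m l) 1 1 l) ∈ twistedF4 K (2 ^ m) := by
  have := f4_torus_mem hK b hl (one_ne_zero (α := K))
  rwa [map_one] at this

omit [CharP K 2] [Fintype K] in
theorem f4_tor_conj {x l : K} (hx : x ≠ 0) (hl : l ≠ 0) (s : ℕ) (hs : s < 48) (c0 c3 : ℤ)
    (h : chevF4.cartan 0 s = c0 ∧ chevF4.cartan 3 s = c3) (t : K) :
    b.hA.hP (L4F x 1 1 l) * b.hA.X s t * (b.hA.hP (L4F x 1 1 l))⁻¹ = b.hA.X s (x ^ c0 * l ^ c3 * t) := by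
  have hT := b.hA.hP_isTor (torS_of_mem K memF4) (L4F_ok hx one_ne_zero one_ne_zero hl)
  rw [hT.2.2 s hs, chi_l x l s c0 c3 h]

include hK b in
theorem f4_perfect (hm : 1 ≤ m) : commutator ↥(twistedF4 K (2 ^ m)) = ⊤ := by
  apply subgroup_commutator_eq_top
  have hcard : 2 < Fintype.card K - 1 := by
    rw [hK]
    have : 2 ^ 3 ≤ 2 ^ (2 * m + 1) := Nat.pow_le_pow_right (by norm_num) (by omega)
    omega
  obtain ⟨l, hl0, hl2⟩ := exists_pow_ne_one (K := K) (m := 2) (by norm_num) hcard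
  have hl1 : l ≠ 1 := by
    rintro rfl
    exact hl2 (one_pow 2)
  have hθ : f4Th K m l ≠ 0 := (map_ne_zero _).2 hl0
  have hli : l⁻¹ ≠ 0 := inv_ne_zero hl0
  have hθi : f4Th K m l⁻¹ ≠ 0 := (map_ne_zero _).2 hli
  have T := cartF4_03
  conv_lhs => rw [twistedF4_eq b.hA]
  rw [Subgroup.closure_le]
  rintro g ((⟨t, rfl⟩ | ⟨t, rfl⟩) | (⟨t, u, rfl⟩ | ⟨t, u, rfl⟩))
  · refine pair_mem_comm (f4_comm_pos1 b.hA) (pair_pos_mem b.hA m) (f4_tor_l hK b hl0) hl2 ?_ ?_ t
    · intro x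
      rw [f4_tor_conj b hθ hl0 33 (by norm_num) 2 0 (T (33, 2, 0) (by simp)), map_pow]
      congr 1
      simp only [zpow_zero, mul_one]
      norm_cast
    · intro x
      rw [f4_tor_conj b hθ hl0 24 (by norm_num) 0 2 (T (24, 0, 2) (by simp))]
      congr 1
      simp only [zpow_zero, one_mul]
      norm_cast
  · refine pair_mem_comm (f4_comm_neg1 b.hA) (pair_neg_mem b.hA m) (f4_tor_l hK b hli) hl2 ?_ ?_ t
    · intro x
      rw [f4_tor_conj b hθi hli 14 (by norm_num) (-2) 0 (T (14, -2, 0) (by simp)), map_pow, map_inv₀]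
      congr 1
      simp only [zpow_zero, mul_one, _root_.inv_zpow', neg_neg]
      norm_cast
    · intro x
      rw [f4_tor_conj b hθi hli 23 (by norm_num) 0 (-2) (T (23, 0, -2) (by simp))]
      congr 1
      simp only [zpow_zero, one_mul, _root_.inv_zpow', neg_neg]
      norm_cast
  · refine (b2Rel_pos b.hA).cls_mem_comm hK (cls_pos_mem b.hA m) (f4_tor_l hK b hli) hl0 hl1 ?_ ?_ ?_ ?_ t u
    · intro x
      rw [f4_tor_conj b hθi hli 27 (by norm_num) (-1) 0 (T (27, -1, 0) (by simp)), map_inv₀]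
      congr 1
      simp
    · intro x
      rw [f4_tor_conj b hθi hli 25 (by norm_num) 0 (-1) (T (25, 0, -1) (by simp))]
      congr 1
      simp
    · intro x
      rw [f4_tor_conj b hθi hli 28 (by norm_num) (-1) (-1) (T (28, -1, -1) (by simp)), map_inv₀]
      congr 1
      simp
    · intro x
      rw [f4_tor_conj b hθi hli 30 (by norm_num) (-2) (-1) (T (30, -2, -1) (by simp)), map_inv₀, f4Ps_apply]
      congr 1
      simp only [_root_.inv_zpow', neg_neg, zpow_one]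
      norm_cast
  · refine (b2Rel_neg b.hA).cls_mem_comm hK (cls_neg_mem b.hA m) (f4_tor_l hK b hl0) hl0 hl1 ?_ ?_ ?_ ?_ t u
    · intro x
      rw [f4_tor_conj b hθ hl0 20 (by norm_num) 1 0 (T (20, 1, 0) (by simp))]
      congr 1
      simp
    · intro x
      rw [f4_tor_conj b hθ hl0 22 (by norm_num) 0 1 (T (22, 0, 1) (by simp))]
      congr 1
      simp
    · intro x
      rw [f4_tor_conj b hθ hl0 19 (by norm_num) 1 1 (T (19, 1, 1) (by simp))]
      congr 1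
      simp
    · intro x
      rw [f4_tor_conj b hθ hl0 17 (by norm_num) 2 1 (T (17, 2, 1) (by simp)), f4Ps_apply]
      congr 1
      simp only [zpow_one]
      norm_cast

theorem connOF4 : ConnO chevF4 f4Orbs [0, 0] [0, 1] := by decide +kernel

end sigma

theorem f4_simple_group {K : Type*} [Field K] [Fintype K] {m : ℕ} (hm : 1 ≤ m)
    (hK : Fintype.card K = 2 ^ (2 * m + 1)) :
    IsSimpleGroup ↥(twistedF4 K (2 ^ m)) ∧ ¬ IsMulCommutative ↥(twistedF4 K (2 ^ m)) := by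
  obtain ⟨_, b, α, hα⟩ := f4_setup hK
  have hU : Group.IsNilpotent (chevF4.posUnipotent K) := b.hA.pos_isNilpotent b.hG
  obtain ⟨P, hB, _, hS⟩ := f4_bnPair hK b α hα
  have hnt : Nontrivial ↥(twistedF4 K (2 ^ m)) := by
    refine ⟨⟨⟨_, pair_pos_mem b.hA m 1⟩, 1, ?_⟩⟩
    intro h
    have h1 : b.hA.W (pairW 33 24 (f4Th K m) 1) = 1 := congrArg Subtype.val h
    have e : (1 : GL chevF4.Idx K) = b.hA.W [(33, 0), (24, 0)] := by simp [AddFact.W]
    rw [e] at h1
    exact one_ne_zero (f4_unique2 b h1).2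
  exact b.hA.tw_isSimpleGroup_of b.hR b.hN b.hT b.hTri f4_orbOK.rank (fun J hJ => f4_nword_mem b.hA m hJ)
    ⟨P, hB, hS⟩ connOF4 inferInstance (f4_perfect hK b hm) (f4_core b) hnt

end Cfsg.Agent.Lib.Helper23
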