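import Cfsg.Agent.Lib.Helper22.Ree1
import Cfsg.Agent.Lib.Helper22.ChevNormP
import Cfsg.Agent.Lib.Helper22.IsogF4
import Cfsg.Agent.Lib.Helper22.TwIso

/-!
# Relations in a class of type `B₂` in characteristic `2` (for `²F₄`)
-/

set_option autoImplicit false
set_option maxRecDepth 100000

namespace Cfsg.Agent.Lib.Helper23
open Cfsg.Lie Matrix Cfsg.Agent.Lib.Helper22

section rel
variable {K : Type*} [Field K] {D : ChevalleyDatum} (hA : AddFact D K)

/-- the relations in a class of type `B₂` in characteristic `2`. -/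
structure B2Rel (a b ab aab : ℕ) : Prop where
  c1 : ∀ x y : K, Commute (hA.X a x) (hA.X ab y)
  c2 : ∀ x y : K, Commute (hA.X a x) (hA.X aab y)
  c3 : ∀ x y : K, Commute (hA.X b x) (hA.X ab y)
  c4 : ∀ x y : K, Commute (hA.X b x) (hA.X aab y)
  c5 : ∀ x y : K, Commute (hA.X ab x) (hA.X aab y)
  A : ∀ x y : K, hA.X b y * hA.X a x = hA.X a x * (hA.X b y * (hA.X ab (x * y) * hA.X aab (x ^ 2 * y)))

namespace B2Rel
variable {hA} {a b ab aab : ℕ} (R : B2Rel hA a b ab aab)
include R

/-- general product formula -/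
theorem mul4 (x y z v x' y' z' v' : K) :
    hA.W [(a, x), (b, y), (ab, z), (aab, v)] * hA.W [(a, x'), (b, y'), (ab, z'), (aab, v')] =
      hA.W [(a, x + x'), (b, y + y'), (ab, z + z' + x' * y), (aab, v + v' + x' ^ 2 * y)] := by
  simp only [AddFact.W, List.map_cons, List.map_nil, List.prod_cons, List.prod_nil, mul_one]
  have e1 : hA.X ab z * hA.X aab v * hA.X a x' = hA.X a x' * (hA.X ab z * hA.X aab v) :=
    (((R.c1 x' z).symm).mul_left ((R.c2 x' v).symm)).eq
  have e2 : hA.X ab z * hA.X aab v * hA.X b y' = hA.X b y' * (hA.X ab z * hA.X aab v) :=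
    (((R.c3 y' z).symm).mul_left ((R.c4 y' v).symm)).eq
  have e3 : hA.X ab (x' * y) * hA.X aab (x' ^ 2 * y) * hA.X b y' =
      hA.X b y' * (hA.X ab (x' * y) * hA.X aab (x' ^ 2 * y)) :=
    (((R.c3 y' _).symm).mul_left ((R.c4 y' _).symm)).eq
  calc hA.X a x * (hA.X b y * (hA.X ab z * hA.X aab v)) *
        (hA.X a x' * (hA.X b y' * (hA.X ab z' * hA.X aab v')))
      = hA.X a x * (hA.X b y * ((hA.X ab z * hA.X aab v * hA.X a x') *
          (hA.X b y' * (hA.X ab z' * hA.X aab v')))) := by simp only [mul_assoc]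
    _ = hA.X a x * ((hA.X b y * hA.X a x') * ((hA.X ab z * hA.X aab v * hA.X b y') *
          (hA.X ab z' * hA.X aab v'))) := by rw [e1]; simp only [mul_assoc]
    _ = hA.X a x * hA.X a x' * (hA.X b y * ((hA.X ab (x' * y) * hA.X aab (x' ^ 2 * y) * hA.X b y') *
          ((hA.X ab z * hA.X aab v) * (hA.X ab z' * hA.X aab v')))) := by
        rw [R.A, e2]; simp only [mul_assoc]
    _ = hA.X a x * hA.X a x' * (hA.X b y * hA.X b y' * ((hA.X ab (x' * y) * hA.X aab (x' ^ 2 * y)) *
          ((hA.X ab z * hA.X aab v) * (hA.X ab z' * hA.X aab v')))) := by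
        rw [e3]; simp only [mul_assoc]
    _ = _ := by
        rw [((R.c5 z' v).symm).mul_mul_mul_comm, ← hA.X_add a, ← hA.X_add b, ← hA.X_add ab, ← hA.X_add aab,
          ((R.c5 (z + z') (x' ^ 2 * y)).symm).mul_mul_mul_comm, ← hA.X_add, ← hA.X_add]
        congr 3
        · congr 1; ring
        · congr 1; ring

/-- the image under the twisting map of a general element, brought back to normal form. -/
theorem master (x y z v : K) :
    hA.W [(b, y), (a, x), (aab, v), (ab, z)] =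
      hA.W [(a, x), (b, y), (ab, x * y + z), (aab, x ^ 2 * y + v)] := by
  simp only [AddFact.W, List.map_cons, List.map_nil, List.prod_cons, List.prod_nil, mul_one]
  rw [← mul_assoc, R.A, ((R.c5 z v).symm).eq, hA.X_add, hA.X_add]
  rw [← ((R.c5 z (x ^ 2 * y)).symm).mul_mul_mul_comm]
  simp only [mul_assoc]

end B2Rel
end rel

section inst
variable {K : Type*} [Field K] [CharP K 2] (hA : AddFact chevF4 K)

theorem f4_commP (r s : ℕ) (hr : r < 48) (hs : s < 48)
    (hc : checkIdP 2 (colH tbF4 0 0) 52 [(r, ⟨2, 0, 0, 1, 0⟩), (s, ⟨2, 0, 0, 0, 1⟩)]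
      [(s, ⟨2, 0, 0, 0, 1⟩), (r, ⟨2, 0, 0, 1, 0⟩)] = true) (x y : K) : Commute (hA.X r x) (hA.X s y) := by
  have h := W_eq_of_checkIdP tbF4_valid 2 hA (by simpa using ⟨hr, hs⟩) (by simpa using ⟨hs, hr⟩) hc (envTU x y)
  simp only [AddFact.W, List.map_cons, List.map_nil, List.prod_cons, List.prod_nil, mul_one, monoT_eval,
    monoU_eval] at h
  exact h

omit [CharP K 2] in
theorem mono_eval_TU2 (a b : ℕ) (t T : K) : Mono.eval (envTU t T) ⟨2, 0, 0, a, b⟩ = t ^ a * T ^ b := by
  simp [Mono.eval, envTU, dc_two]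

theorem f4_relA (a b ab aab : ℕ) (h4 : a < 48 ∧ b < 48 ∧ ab < 48 ∧ aab < 48)
    (hc : checkIdP 2 (colH tbF4 0 0) 52 [(b, ⟨2, 0, 0, 0, 1⟩), (a, ⟨2, 0, 0, 1, 0⟩)]
      [(a, ⟨2, 0, 0, 1, 0⟩), (b, ⟨2, 0, 0, 0, 1⟩), (ab, ⟨2, 0, 0, 1, 1⟩), (aab, ⟨2, 0, 0, 2, 1⟩)] = true)
    (x y : K) : hA.X b y * hA.X a x = hA.X a x * (hA.X b y * (hA.X ab (x * y) * hA.X aab (x ^ 2 * y))) := by
  have h := W_eq_of_checkIdP tbF4_valid 2 hA (by simpa using ⟨h4.2.1, h4.1⟩)
    (by simpa using ⟨h4.1, h4.2.1, h4.2.2.1, h4.2.2.2⟩) hc (envTU x y)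
  simp only [AddFact.W, List.map_cons, List.map_nil, List.prod_cons, List.prod_nil, mul_one, mono_eval_TU2,
    pow_zero, pow_one, one_mul, mul_one] at h
  exact h

theorem b2Rel_pos : B2Rel hA 27 25 28 30 where
  c1 := f4_commP hA 27 28 (by decide) (by decide) (by decide +kernel)
  c2 := f4_commP hA 27 30 (by decide) (by decide) (by decide +kernel)
  c3 := f4_commP hA 25 28 (by decide) (by decide) (by decide +kernel)
  c4 := f4_commP hA 25 30 (by decide) (by decide) (by decide +kernel)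
  c5 := f4_commP hA 28 30 (by decide) (by decide) (by decide +kernel)
  A := f4_relA hA 27 25 28 30 (by decide) (by decide +kernel)

theorem b2Rel_neg : B2Rel hA 20 22 19 17 where
  c1 := f4_commP hA 20 19 (by decide) (by decide) (by decide +kernel)
  c2 := f4_commP hA 20 17 (by decide) (by decide) (by decide +kernel)
  c3 := f4_commP hA 22 19 (by decide) (by decide) (by decide +kernel)
  c4 := f4_commP hA 22 17 (by decide) (by decide) (by decide +kernel)
  c5 := f4_commP hA 19 17 (by decide) (by decide) (by decide +kernel)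
  A := f4_relA hA 20 22 19 17 (by decide) (by decide +kernel)

theorem f4_comm_pos1 (x y : K) : Commute (hA.X 33 x) (hA.X 24 y) :=
  f4_commP hA 33 24 (by decide) (by decide) (by decide +kernel) x y

theorem f4_comm_neg1 (x y : K) : Commute (hA.X 14 x) (hA.X 23 y) :=
  f4_commP hA 14 23 (by decide) (by decide) (by decide +kernel) x y

end inst

end Cfsg.Agent.Lib.Helper23
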