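import Cfsg.Agent.Lib.Helper23.TwBlk

/-!
# Counting the fixed points of a twisting endomorphism on `U`
-/

set_option autoImplicit false

namespace Cfsg.Agent.Lib.Helper23
open Cfsg.Lie Matrix Cfsg.Agent.Lib.Helper22 Cfsg.Agent.Lib.Helper45

variable {D : ChevalleyDatum} {F : Type*} [Field F]

section
variable (b : Bundle D F) (σ : GL D.Idx F → GL D.Idx F)

/-- products of fixed block elements -/
def FixLs (bl : List (List ℕ)) : Set (GL D.Idx F) :=
  {g | ∃ t : ℕ → F, g = b.hA.W (wL bl.flatten t) ∧ ∀ β ∈ bl, σ (b.hA.W (wL β t)) = b.hA.W (wL β t)}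

theorem glue_fn {β : List ℕ} {bl : List (List ℕ)} (hnd : (β :: bl).flatten.Nodup) (t₁ t₂ : ℕ → F) :
    ∃ t : ℕ → F, wL β t = wL β t₁ ∧ wL bl.flatten t = wL bl.flatten t₂ ∧ ∀ γ ∈ bl, wL γ t = wL γ t₂ := by
  classical
  rw [List.flatten_cons, List.nodup_append] at hnd
  refine ⟨fun a => if a ∈ β then t₁ a else t₂ a, wL_congr fun a ha => by simp [ha], ?_, ?_⟩
  · apply wL_congr
    intro a ha
    have : a ∉ β := fun h => hnd.2.2 a h a ha rfl
    simp [this]
  · intro γ hγ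
    apply wL_congr
    intro a ha
    have : a ∉ β := fun h => hnd.2.2 a h a (List.mem_flatten.2 ⟨γ, hγ, ha⟩) rfl
    simp [this]

variable (hC : UComm D F) (hSep : USep b.hA)
include hC hSep

theorem card_FixLs : ∀ bl : List (List ℕ), bl.flatten.Nodup → (∀ a ∈ bl.flatten, D.IsPosRoot a) →
    Nat.card (FixLs b σ bl) = (bl.map fun β => Nat.card (FixL b σ β)).prod
  | [], _, _ => by
    have : FixLs b σ [] = {1} := by
      ext g
      constructor
      · rintro ⟨t, rfl, _⟩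
        rfl
      · rintro rfl
        exact ⟨0, rfl, fun _ h => absurd h (List.not_mem_nil)⟩
    rw [this]
    simp
  | β :: bl, hnd, hpos => by
    have hnd' := hnd
    rw [List.flatten_cons, List.nodup_append] at hnd'
    have hpos' : ∀ a ∈ bl.flatten, D.IsPosRoot a := fun a ha => hpos a (by
      rw [List.flatten_cons]; exact List.mem_append_right _ ha)
    rw [List.map_cons, List.prod_cons, ← card_FixLs bl hnd'.2.1 hpos', ← Nat.card_prod]
    symm
    have hmem : ∀ p : FixL b σ β × FixLs b σ bl, (p.1 : GL D.Idx F) * p.2 ∈ FixLs b σ (β :: bl) := by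
      rintro ⟨⟨g₁, h₁, f₁⟩, ⟨g₂, t₂, rfl, f₂⟩⟩
      obtain ⟨t₁, rfl⟩ := (mem_XL_iff b hnd'.1).1 h₁
      obtain ⟨t, e₁, e₂, e₃⟩ := glue_fn hnd t₁ t₂
      refine ⟨t, ?_, ?_⟩
      · rw [List.flatten_cons, wL_append, b.hA.W_append, e₁, e₂]
      · intro γ hγ
        rcases List.mem_cons.1 hγ with rfl | hγ'
        · rw [e₁]; exact f₁
        · rw [e₃ γ hγ']; exact f₂ γ hγ'
    refine Nat.card_congr (Equiv.ofBijective (fun p => ⟨_, hmem p⟩) ⟨?_, ?_⟩)
    · rintro ⟨⟨g₁, h₁, f₁⟩, ⟨g₂, t₂, rfl, f₂⟩⟩ ⟨⟨g₁', h₁', f₁'⟩, ⟨g₂', t₂', rfl, f₂'⟩⟩ h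
      obtain ⟨t₁, rfl⟩ := (mem_XL_iff b hnd'.1).1 h₁
      obtain ⟨t₁', rfl⟩ := (mem_XL_iff b hnd'.1).1 h₁'
      obtain ⟨t, e₁, e₂, -⟩ := glue_fn hnd t₁ t₂
      obtain ⟨t', e₁', e₂', -⟩ := glue_fn hnd t₁' t₂'
      have h0 : b.hA.W (wL β t₁) * b.hA.W (wL bl.flatten t₂) =
          b.hA.W (wL β t₁') * b.hA.W (wL bl.flatten t₂') := congrArg Subtype.val h
      rw [← e₁, ← e₂, ← e₁', ← e₂', ← b.hA.W_append, ← b.hA.W_append, ← wL_append, ← wL_append,
        ← List.flatten_cons] at h0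
      have hu := factor_unique b.hA hC hSep hnd hpos h0
      have c₁ : wL β t = wL β t' := wL_congr fun a ha => hu a (by
        rw [List.flatten_cons]; exact List.mem_append_left _ ha)
      have c₂ : wL bl.flatten t = wL bl.flatten t' := wL_congr fun a ha => hu a (by
        rw [List.flatten_cons]; exact List.mem_append_right _ ha)
      apply Prod.ext
      · apply Subtype.ext
        show b.hA.W (wL β t₁) = b.hA.W (wL β t₁')
        rw [← e₁, ← e₁', c₁]
      · apply Subtype.ext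
        show b.hA.W (wL bl.flatten t₂) = b.hA.W (wL bl.flatten t₂')
        rw [← e₂, ← e₂', c₂]
    · rintro ⟨g, t, rfl, f⟩
      refine ⟨(⟨b.hA.W (wL β t), ⟨_, wL_fst β t, rfl⟩, f β (List.mem_cons_self ..)⟩,
        ⟨b.hA.W (wL bl.flatten t), t, rfl, fun γ hγ => f γ (List.mem_cons_of_mem _ hγ)⟩), ?_⟩
      apply Subtype.ext
      show b.hA.W (wL β t) * b.hA.W (wL bl.flatten t) = b.hA.W (wL (β :: bl).flatten t)
      rw [List.flatten_cons, wL_append, b.hA.W_append]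

variable {σ} {ρ ρ' : ℕ → ℕ} {c : ℕ → F → F} (hσ : IsTwist b.hA σ ρ ρ' c)
  {blocks : List (List ℕ)} (hB : BlocksG b σ blocks)
include hσ hB

theorem fixU_eq : {u | u ∈ D.posUnipotent F ∧ σ u = u} = FixLs b σ blocks := by
  ext u
  constructor
  · rintro ⟨hu, hf⟩
    exact fix_paramG b hσ hC hSep hB hu hf
  · rintro ⟨t, rfl, f⟩
    refine ⟨W_wL_mem_pos b.hA (fun a ha => (hB.all a).1 ha) t, ?_⟩
    rw [W_wL_flatten b, sigma_prod b hσ _ (by
      intro x hx
      obtain ⟨β, _, rfl⟩ := List.mem_map.1 hx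
      exact b.hA.W_mem_group _), List.map_map]
    congr 1
    exact List.map_congr_left fun β hβ => f β hβ

theorem card_fixU : Nat.card {u // u ∈ D.posUnipotent F ∧ σ u = u} =
    (blocks.map fun β => Nat.card (FixL b σ β)).prod := by
  rw [← card_FixLs b σ hC hSep blocks hB.nodup (fun a ha => (hB.all a).1 ha),
    ← fixU_eq b hC hSep hσ hB]
  rfl

end

end Cfsg.Agent.Lib.Helper23
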