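import Cfsg.Agent.Lib.Helper23.F4Rel
import Cfsg.Agent.Lib.Helper23.TwBlk2

/-!
# The twisting map of `²F₄`
-/

set_option autoImplicit false
set_option maxRecDepth 100000

namespace Cfsg.Agent.Lib.Helper23
open Cfsg.Lie Matrix Cfsg.Agent.Lib.Helper22 Cfsg.Agent.Lib.Helper45

section field
variable (K : Type*) [Field K] [CharP K 2]

/-- the map `t ↦ t ^ (2 ^ m)`. -/
noncomputable def f4Th (m : ℕ) : K →+* K :=
  haveI : ExpChar K 2 := ExpChar.prime Nat.prime_two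
  iterateFrobenius K 2 m

/-- the map `t ↦ t ^ (2 ^ (m + 1))`. -/
noncomputable def f4Ps (m : ℕ) : K →+* K :=
  haveI : ExpChar K 2 := ExpChar.prime Nat.prime_two
  iterateFrobenius K 2 (m + 1)

variable {K}

theorem f4Th_apply (m : ℕ) (t : K) : f4Th K m t = t ^ 2 ^ m := by
  have : ExpChar K 2 := ExpChar.prime Nat.prime_two
  exact iterateFrobenius_def 2 m t

theorem f4Ps_apply (m : ℕ) (t : K) : f4Ps K m t = (f4Th K m t) ^ 2 := by
  have : ExpChar K 2 := ExpChar.prime Nat.prime_two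
  rw [f4Th_apply]
  show iterateFrobenius K 2 (m + 1) t = _
  rw [iterateFrobenius_def, pow_succ, pow_mul]

variable [Fintype K] {m : ℕ} (hK : Fintype.card K = 2 ^ (2 * m + 1))
include hK

theorem f4Ps_f4Th (t : K) : f4Ps K m (f4Th K m t) = t := by
  rw [f4Ps_apply, f4Th_apply, f4Th_apply, ← pow_mul, ← pow_mul]
  have : 2 ^ m * (2 ^ m * 2) = Fintype.card K := by rw [hK]; ring
  rw [this, FiniteField.pow_card]

theorem f4Th_f4Ps (t : K) : f4Th K m (f4Ps K m t) = t := by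
  rw [f4Ps_apply, map_pow, ← f4Ps_apply, f4Ps_f4Th hK]

theorem f4Th_surj : Function.Surjective (f4Th K m) := fun t => ⟨_, f4Th_f4Ps hK t⟩

theorem f4_sq_surj (x : K) : ∃ y : K, y ^ 2 = x := by
  refine ⟨f4Th K m (f4Th K m x), ?_⟩
  rw [← f4Ps_apply, f4Ps_f4Th hK]

end field

theorem memF4 : chevF4 ∈ [chevG2, chevB2, chevD4, chevF4, chevE6, chevE7, chevE8] := by simp

theorem rhoF4_vals : isoRhoF4 33 = 24 ∧ isoRhoF4 24 = 33 ∧ isoRhoF4 27 = 25 ∧ isoRhoF4 25 = 27 ∧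
    isoRhoF4 28 = 30 ∧ isoRhoF4 30 = 28 ∧ isoRhoF4 14 = 23 ∧ isoRhoF4 23 = 14 ∧ isoRhoF4 20 = 22 ∧
    isoRhoF4 22 = 20 ∧ isoRhoF4 19 = 17 ∧ isoRhoF4 17 = 19 := by decide +kernel

theorem lamF4_vals : isoLamF4 33 = 2 ∧ isoLamF4 24 = 1 ∧ isoLamF4 27 = 2 ∧ isoLamF4 25 = 1 ∧
    isoLamF4 28 = 2 ∧ isoLamF4 30 = 1 ∧ isoLamF4 14 = 2 ∧ isoLamF4 23 = 1 ∧ isoLamF4 20 = 2 ∧
    isoLamF4 22 = 1 ∧ isoLamF4 19 = 2 ∧ isoLamF4 17 = 1 := by decide +kernel

/-- the pair words -/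
def pairW {K : Type*} [Field K] (r rb : ℕ) (Θ : K →+* K) (t : K) : List (ℕ × K) := [(r, Θ t), (rb, t)]

/-- the words of a class of type `B₂` -/
def clsW {K : Type*} [Field K] (a b ab aab : ℕ) (Θ Ψ : K →+* K) (t u : K) : List (ℕ × K) :=
  [(a, Θ t), (b, t), (ab, Θ t * t + u), (aab, Ψ u)]

section sigma
variable {K : Type*} [Field K] [CharP K 2] [Fintype K] {m : ℕ} (hK : Fintype.card K = 2 ^ (2 * m + 1))
  (b : Bundle chevF4 K) (α : ↥(chevF4.group K) ≃* ↥(chevF4.group K))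
  (hα : ∀ r < 48, ∀ t : K,
    (α ⟨b.hA.X r t, b.hA.X_mem_group r t⟩ : GL chevF4.Idx K) = b.hA.X (isoRhoF4 r) (t ^ isoLamF4 r))

/-- the twisting map of `²F₄`. -/
noncomputable def f4Sigma (m : ℕ) : GL chevF4.Idx K → GL chevF4.Idx K :=
  Cfsg.Agent.Lib.Helper22.twSigma b.hA α (f4Th K m)

include hK hα in
theorem f4_isTwist : IsTwist b.hA (f4Sigma b α m) isoRhoF4 isoRhoF4
    (fun r t => (f4Th K m t) ^ isoLamF4 r) := by
  apply isTwist_of b α (f4Th K m) hα (f4Th_surj hK)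
  · intro r hr
    have h : ∀ r < 48, chevF4.IsPosRoot r → chevF4.IsPosRoot (isoRhoF4 r) := by decide +kernel
    exact h r hr.1 hr
  · intro r hr
    have h : ∀ r < 48, chevF4.IsNegRoot r → chevF4.IsNegRoot (isoRhoF4 r) := by decide +kernel
    exact h r hr.1 hr
  · have h : ∀ r < 48, isoRhoF4 (isoRhoF4 r) = r := by decide +kernel
    exact h
  · have h : ∀ r < 48, isoRhoF4 (chevF4.neg r) = chevF4.neg (isoRhoF4 r) := by decide +kernel
    exact h
  · have h : ∀ r < 48, isoLamF4 (chevF4.neg r) = isoLamF4 r := by decide +kernel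
    exact h
  · intro r _ x
    rcases lamF_cases 2 isoITF4 r with h | h
    · exact ⟨x, by show x ^ lamF 2 isoITF4 r = x; rw [h, pow_one]⟩
    · obtain ⟨y, hy⟩ := f4_sq_surj hK x
      exact ⟨y, by show y ^ lamF 2 isoITF4 r = x; rw [h, hy]⟩
  · intro r _
    rcases lamF_cases 2 isoITF4 r with h | h
    · show (-1 : K) ^ lamF 2 isoITF4 r = -1
      rw [h, pow_one]
    · show (-1 : K) ^ lamF 2 isoITF4 r = -1
      rw [h, neg_one_sq, CharTwo.neg_eq]

include hK hα in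
theorem sigma_pair_pos (x y : K) : f4Sigma b α m (b.hA.W [(33, x), (24, y)]) =
    b.hA.W [(33, f4Th K m y), (24, f4Ps K m x)] := by
  rw [sigma_W b (f4_isTwist hK b α hα) _ (by
    intro p hp
    simp only [List.mem_cons, List.not_mem_nil, or_false] at hp
    have : chevF4.nroots = 48 := rfl
    rcases hp with rfl | rfl <;> simp [this])]
  obtain ⟨r1, r2, -⟩ := rhoF4_vals
  obtain ⟨l1, l2, -⟩ := lamF4_vals
  simp only [List.map_cons, List.map_nil, r1, r2, l1, l2, pow_one, ← f4Ps_apply]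
  simp only [AddFact.W, List.map_cons, List.map_nil, List.prod_cons, List.prod_nil, mul_one]
  exact ((f4_comm_pos1 b.hA _ _).symm).eq

include hK hα in
theorem sigma_pair_neg (x y : K) : f4Sigma b α m (b.hA.W [(14, x), (23, y)]) =
    b.hA.W [(14, f4Th K m y), (23, f4Ps K m x)] := by
  rw [sigma_W b (f4_isTwist hK b α hα) _ (by
    intro p hp
    simp only [List.mem_cons, List.not_mem_nil, or_false] at hp
    have : chevF4.nroots = 48 := rfl
    rcases hp with rfl | rfl <;> simp [this])]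
  obtain ⟨-, -, -, -, -, -, r1, r2, -⟩ := rhoF4_vals
  obtain ⟨-, -, -, -, -, -, l1, l2, -⟩ := lamF4_vals
  simp only [List.map_cons, List.map_nil, r1, r2, l1, l2, pow_one, ← f4Ps_apply]
  simp only [AddFact.W, List.map_cons, List.map_nil, List.prod_cons, List.prod_nil, mul_one]
  exact ((f4_comm_neg1 b.hA _ _).symm).eq

include hK hα in
theorem sigma_cls_pos (x y z v : K) : f4Sigma b α m (b.hA.W [(27, x), (25, y), (28, z), (30, v)]) =
    b.hA.W [(27, f4Th K m y), (25, f4Ps K m x), (28, f4Th K m y * f4Ps K m x + f4Th K m v),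
      (30, f4Ps K m y * f4Ps K m x + f4Ps K m z)] := by
  rw [sigma_W b (f4_isTwist hK b α hα) _ (by
    intro p hp
    simp only [List.mem_cons, List.not_mem_nil, or_false] at hp
    have : chevF4.nroots = 48 := rfl
    rcases hp with rfl | rfl | rfl | rfl <;> simp [this])]
  obtain ⟨-, -, r1, r2, r3, r4, -⟩ := rhoF4_vals
  obtain ⟨-, -, l1, l2, l3, l4, -⟩ := lamF4_vals
  simp only [List.map_cons, List.map_nil, r1, r2, r3, r4, l1, l2, l3, l4, pow_one, ← f4Ps_apply]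
  rw [(b2Rel_pos b.hA).master, ← f4Ps_apply]

include hK hα in
theorem sigma_cls_neg (x y z v : K) : f4Sigma b α m (b.hA.W [(20, x), (22, y), (19, z), (17, v)]) =
    b.hA.W [(20, f4Th K m y), (22, f4Ps K m x), (19, f4Th K m y * f4Ps K m x + f4Th K m v),
      (17, f4Ps K m y * f4Ps K m x + f4Ps K m z)] := by
  rw [sigma_W b (f4_isTwist hK b α hα) _ (by
    intro p hp
    simp only [List.mem_cons, List.not_mem_nil, or_false] at hp
    have : chevF4.nroots = 48 := rfl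
    rcases hp with rfl | rfl | rfl | rfl <;> simp [this])]
  obtain ⟨-, -, -, -, -, -, -, -, r1, r2, r3, r4⟩ := rhoF4_vals
  obtain ⟨-, -, -, -, -, -, -, -, l1, l2, l3, l4⟩ := lamF4_vals
  simp only [List.map_cons, List.map_nil, r1, r2, r3, r4, l1, l2, l3, l4, pow_one, ← f4Ps_apply]
  rw [(b2Rel_neg b.hA).master, ← f4Ps_apply]

include hK in
theorem cls_fix_aux (t u : K) :
    f4Ps K m t * f4Ps K m (f4Th K m t) + f4Ps K m (f4Th K m t * t + u) = f4Ps K m u := by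
  rw [f4Ps_f4Th hK, map_add, map_mul, f4Ps_f4Th hK, mul_comm t, ← add_assoc,
    CharTwo.add_self_eq_zero, zero_add]

include hK hα in
theorem pair_pos_fixed (t : K) : f4Sigma b α m (b.hA.W (pairW 33 24 (f4Th K m) t)) =
    b.hA.W (pairW 33 24 (f4Th K m) t) := by
  unfold pairW
  rw [sigma_pair_pos hK b α hα, f4Ps_f4Th hK]

include hK hα in
theorem pair_neg_fixed (t : K) : f4Sigma b α m (b.hA.W (pairW 14 23 (f4Th K m) t)) =
    b.hA.W (pairW 14 23 (f4Th K m) t) := by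
  unfold pairW
  rw [sigma_pair_neg hK b α hα, f4Ps_f4Th hK]

include hK hα in
theorem cls_pos_fixed (t u : K) :
    f4Sigma b α m (b.hA.W (clsW 27 25 28 30 (f4Th K m) (f4Ps K m) t u)) =
      b.hA.W (clsW 27 25 28 30 (f4Th K m) (f4Ps K m) t u) := by
  unfold clsW
  rw [sigma_cls_pos hK b α hα, cls_fix_aux hK, f4Ps_f4Th hK, f4Th_f4Ps hK]

include hK hα in
theorem cls_neg_fixed (t u : K) :
    f4Sigma b α m (b.hA.W (clsW 20 22 19 17 (f4Th K m) (f4Ps K m) t u)) =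
      b.hA.W (clsW 20 22 19 17 (f4Th K m) (f4Ps K m) t u) := by
  unfold clsW
  rw [sigma_cls_neg hK b α hα, cls_fix_aux hK, f4Ps_f4Th hK, f4Th_f4Ps hK]

end sigma

end Cfsg.Agent.Lib.Helper23
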