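import Cfsg.Agent.Lib.Helper23.F4Tw1
import Cfsg.Agent.Lib.Helper22.Ree4
import Cfsg.Agent.Lib.Helper45.TwistDec

/-!
# `²F₄`: generators, representatives of the Weyl group
-/

set_option autoImplicit false
set_option maxRecDepth 100000

namespace Cfsg.Agent.Lib.Helper23
open Cfsg.Lie Matrix Cfsg.Agent.Lib.Helper22 Cfsg.Agent.Lib.Helper45

section words
variable {K : Type*} [Field K] [CharP K 2]

theorem f4PairWord_eq (m r rb : ℕ) (t : K) : f4PairWord (2 ^ m) r rb t = pairW r rb (f4Th K m) t := by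
  unfold f4PairWord pairW
  rw [f4Th_apply]

theorem b2ClassWord_eq (m a b ab aab : ℕ) (t u : K) :
    b2ClassWord (2 ^ m) a b ab aab t u = clsW a b ab aab (f4Th K m) (f4Ps K m) t u := by
  unfold b2ClassWord clsW
  rw [f4Ps_apply, f4Th_apply, f4Th_apply, pow_succ, ← pow_mul, mul_comm 2]

/-- the generators of `²F₄` -/
def f4Gens (hA : AddFact chevF4 K) (m : ℕ) : Set (GL chevF4.Idx K) :=
  ({g | ∃ t : K, g = hA.W (pairW 33 24 (f4Th K m) t)} ∪ {g | ∃ t : K, g = hA.W (pairW 14 23 (f4Th K m) t)}) ∪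
  ({g | ∃ t u : K, g = hA.W (clsW 27 25 28 30 (f4Th K m) (f4Ps K m) t u)} ∪
    {g | ∃ t u : K, g = hA.W (clsW 20 22 19 17 (f4Th K m) (f4Ps K m) t u)})

theorem twistedF4_eq (hA : AddFact chevF4 K) (m : ℕ) :
    twistedF4 K (2 ^ m) = Subgroup.closure (f4Gens hA m) := by
  unfold twistedF4 ChevalleyDatum.genSubgroup f4Words f4Gens
  congr 1
  ext g
  constructor
  · rintro ⟨w, (⟨t, rfl | rfl⟩ | ⟨t, u, rfl | rfl⟩), hg⟩
    · exact Or.inl (Or.inl ⟨t, by rw [← f4PairWord_eq]; exact (hA.eq_W_iff _ _).1 hg⟩)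
    · exact Or.inl (Or.inr ⟨t, by rw [← f4PairWord_eq]; exact (hA.eq_W_iff _ _).1 hg⟩)
    · exact Or.inr (Or.inl ⟨t, u, by rw [← b2ClassWord_eq]; exact (hA.eq_W_iff _ _).1 hg⟩)
    · exact Or.inr (Or.inr ⟨t, u, by rw [← b2ClassWord_eq]; exact (hA.eq_W_iff _ _).1 hg⟩)
  · rintro ((⟨t, rfl⟩ | ⟨t, rfl⟩) | (⟨t, u, rfl⟩ | ⟨t, u, rfl⟩))
    · exact ⟨_, Or.inl ⟨t, Or.inl rfl⟩, by rw [f4PairWord_eq, hA.coe_W]; rfl⟩
    · exact ⟨_, Or.inl ⟨t, Or.inr rfl⟩, by rw [f4PairWord_eq, hA.coe_W]; rfl⟩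
    · exact ⟨_, Or.inr ⟨t, u, Or.inl rfl⟩, by rw [b2ClassWord_eq, hA.coe_W]; rfl⟩
    · exact ⟨_, Or.inr ⟨t, u, Or.inr rfl⟩, by rw [b2ClassWord_eq, hA.coe_W]; rfl⟩

theorem pair_pos_mem (hA : AddFact chevF4 K) (m : ℕ) (t : K) :
    hA.W (pairW 33 24 (f4Th K m) t) ∈ twistedF4 K (2 ^ m) := by
  rw [twistedF4_eq hA]
  exact Subgroup.subset_closure (Or.inl (Or.inl ⟨t, rfl⟩))

theorem pair_neg_mem (hA : AddFact chevF4 K) (m : ℕ) (t : K) :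
    hA.W (pairW 14 23 (f4Th K m) t) ∈ twistedF4 K (2 ^ m) := by
  rw [twistedF4_eq hA]
  exact Subgroup.subset_closure (Or.inl (Or.inr ⟨t, rfl⟩))

theorem cls_pos_mem (hA : AddFact chevF4 K) (m : ℕ) (t u : K) :
    hA.W (clsW 27 25 28 30 (f4Th K m) (f4Ps K m) t u) ∈ twistedF4 K (2 ^ m) := by
  rw [twistedF4_eq hA]
  exact Subgroup.subset_closure (Or.inr (Or.inl ⟨t, u, rfl⟩))

theorem cls_neg_mem (hA : AddFact chevF4 K) (m : ℕ) (t u : K) :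
    hA.W (clsW 20 22 19 17 (f4Th K m) (f4Ps K m) t u) ∈ twistedF4 K (2 ^ m) := by
  rw [twistedF4_eq hA]
  exact Subgroup.subset_closure (Or.inr (Or.inr ⟨t, u, rfl⟩))

omit [CharP K 2] in
theorem f4_nn (hA : AddFact chevF4 K) : hA.nn 0 = hA.X 33 1 * (hA.X 14 (-1) * hA.X 33 1) ∧
    hA.nn 1 = hA.X 27 1 * (hA.X 20 (-1) * hA.X 27 1) ∧ hA.nn 2 = hA.X 25 1 * (hA.X 22 (-1) * hA.X 25 1) ∧
    hA.nn 3 = hA.X 24 1 * (hA.X 23 (-1) * hA.X 24 1) := by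
  have s0 : chevF4.simple 0 = 33 := by decide
  have s1 : chevF4.simple 1 = 27 := by decide
  have s2 : chevF4.simple 2 = 25 := by decide
  have s3 : chevF4.simple 3 = 24 := by decide
  have n0 : chevF4.neg 33 = 14 := by decide
  have n1 : chevF4.neg 27 = 20 := by decide
  have n2 : chevF4.neg 25 = 22 := by decide
  have n3 : chevF4.neg 24 = 23 := by decide
  refine ⟨?_, ?_, ?_, ?_⟩
  · unfold AddFact.nn
    rw [← hA.W_nWord, nWord_def, s0, n0]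
    simp [AddFact.W]
  · unfold AddFact.nn
    rw [← hA.W_nWord, nWord_def, s1, n1]
    simp [AddFact.W]
  · unfold AddFact.nn
    rw [← hA.W_nWord, nWord_def, s2, n2]
    simp [AddFact.W]
  · unfold AddFact.nn
    rw [← hA.W_nWord, nWord_def, s3, n3]
    simp [AddFact.W]

/-- the representative of `w_{J₁}`. -/
theorem f4_n1_eq (hA : AddFact chevF4 K) (Θ : K →+* K) :
    hA.W (pairW 33 24 Θ 1) * hA.W (pairW 14 23 Θ 1) * hA.W (pairW 33 24 Θ 1) = hA.nword [0, 3] := by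
  have h := W_eq_of_checkIdNP tbF4_valid 2 hA
    (w1 := [(33, ⟨2, 0, 0, 0, 0⟩), (24, ⟨2, 0, 0, 0, 0⟩), (14, ⟨2, 0, 0, 0, 0⟩), (23, ⟨2, 0, 0, 0, 0⟩),
      (33, ⟨2, 0, 0, 0, 0⟩), (24, ⟨2, 0, 0, 0, 0⟩)])
    (w2 := [(33, ⟨2, 0, 0, 0, 0⟩), (14, ⟨3, 0, 0, 0, 0⟩), (33, ⟨2, 0, 0, 0, 0⟩),
      (24, ⟨2, 0, 0, 0, 0⟩), (23, ⟨3, 0, 0, 0, 0⟩), (24, ⟨2, 0, 0, 0, 0⟩)])
    (by decide) (by decide) (by decide +kernel) (envTU 0 0)
  have e1 : Mono.eval (envTU (0 : K) 0) ⟨2, 0, 0, 0, 0⟩ = 1 := by simp [Mono.eval, dc_two]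
  have e2 : Mono.eval (envTU (0 : K) 0) ⟨3, 0, 0, 0, 0⟩ = -1 := by simp [Mono.eval, dc_three]
  simp only [AddFact.W, List.map_cons, List.map_nil, List.prod_cons, List.prod_nil, mul_one, e1, e2] at h
  obtain ⟨f0, -, -, f3⟩ := f4_nn hA
  simp only [AddFact.nword_cons, AddFact.nword_nil, mul_one, f0, f3, pairW, AddFact.W, List.map_cons,
    List.map_nil, List.prod_cons, List.prod_nil, map_one]
  simp only [mul_assoc] at h ⊢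
  exact h

/-- the representative of `w_{J₂}`. -/
theorem f4_n2_eq (hA : AddFact chevF4 K) (Θ Ψ : K →+* K) :
    hA.W (clsW 27 25 28 30 Θ Ψ 0 1) * hA.W (clsW 20 22 19 17 Θ Ψ 0 1) * hA.W (clsW 27 25 28 30 Θ Ψ 0 1) *
      hA.W (clsW 20 22 19 17 Θ Ψ 0 1) * hA.W (clsW 27 25 28 30 Θ Ψ 0 1) = hA.nword [1, 2, 1, 2] := by
  have h := W_eq_of_checkIdNP tbF4_valid 2 hA
    (w1 := [(28, ⟨2, 0, 0, 0, 0⟩), (30, ⟨2, 0, 0, 0, 0⟩), (19, ⟨2, 0, 0, 0, 0⟩), (17, ⟨2, 0, 0, 0, 0⟩),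
      (28, ⟨2, 0, 0, 0, 0⟩), (30, ⟨2, 0, 0, 0, 0⟩), (19, ⟨2, 0, 0, 0, 0⟩), (17, ⟨2, 0, 0, 0, 0⟩),
      (28, ⟨2, 0, 0, 0, 0⟩), (30, ⟨2, 0, 0, 0, 0⟩)])
    (w2 := [(27, ⟨2, 0, 0, 0, 0⟩), (20, ⟨3, 0, 0, 0, 0⟩), (27, ⟨2, 0, 0, 0, 0⟩),
      (25, ⟨2, 0, 0, 0, 0⟩), (22, ⟨3, 0, 0, 0, 0⟩), (25, ⟨2, 0, 0, 0, 0⟩),
      (27, ⟨2, 0, 0, 0, 0⟩), (20, ⟨3, 0, 0, 0, 0⟩), (27, ⟨2, 0, 0, 0, 0⟩),
      (25, ⟨2, 0, 0, 0, 0⟩), (22, ⟨3, 0, 0, 0, 0⟩), (25, ⟨2, 0, 0, 0, 0⟩)])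
    (by decide) (by decide) (by decide +kernel) (envTU 0 0)
  have e1 : Mono.eval (envTU (0 : K) 0) ⟨2, 0, 0, 0, 0⟩ = 1 := by simp [Mono.eval, dc_two]
  have e2 : Mono.eval (envTU (0 : K) 0) ⟨3, 0, 0, 0, 0⟩ = -1 := by simp [Mono.eval, dc_three]
  simp only [AddFact.W, List.map_cons, List.map_nil, List.prod_cons, List.prod_nil, mul_one, e1, e2] at h
  obtain ⟨-, f1, f2, -⟩ := f4_nn hA
  simp only [AddFact.nword_cons, AddFact.nword_nil, mul_one, f1, f2, clsW, AddFact.W, List.map_cons,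
    List.map_nil, List.prod_cons, List.prod_nil, map_one, map_zero, mul_zero, zero_add, hA.X_zero, one_mul]
  simp only [mul_assoc] at h ⊢
  exact h

theorem f4_n1_mem (hA : AddFact chevF4 K) (m : ℕ) : hA.nword [0, 3] ∈ twistedF4 K (2 ^ m) := by
  rw [← f4_n1_eq hA (f4Th K m)]
  exact mul_mem (mul_mem (pair_pos_mem hA m _) (pair_neg_mem hA m _)) (pair_pos_mem hA m _)

theorem f4_n2_mem (hA : AddFact chevF4 K) (m : ℕ) : hA.nword [1, 2, 1, 2] ∈ twistedF4 K (2 ^ m) := by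
  rw [← f4_n2_eq hA (f4Th K m) (f4Ps K m)]
  exact mul_mem (mul_mem (mul_mem (mul_mem (cls_pos_mem hA m _ _) (cls_neg_mem hA m _ _))
    (cls_pos_mem hA m _ _)) (cls_neg_mem hA m _ _)) (cls_pos_mem hA m _ _)

/-- the orbit words -/
def f4Orbs : List (List ℕ) := [[0, 3], [1, 2, 1, 2]]

theorem f4_nword_mem (hA : AddFact chevF4 K) (m : ℕ) {ω : List ℕ} (hω : ω ∈ f4Orbs) :
    hA.nword ω ∈ twistedF4 K (2 ^ m) := by
  simp only [f4Orbs, List.mem_cons, List.not_mem_nil, or_false] at hω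
  rcases hω with rfl | rfl
  · exact f4_n1_mem hA m
  · exact f4_n2_mem hA m

theorem f4_nword_flatten_mem (hA : AddFact chevF4 K) (m : ℕ) : ∀ L : List (List ℕ), (∀ ω ∈ L, ω ∈ f4Orbs) →
    hA.nword L.flatten ∈ twistedF4 K (2 ^ m)
  | [], _ => one_mem _
  | ω :: L, h => by
    rw [List.flatten_cons, hA.nword_append]
    exact mul_mem (f4_nword_mem hA m (h ω (List.mem_cons_self ..)))
      (f4_nword_flatten_mem hA m L fun ω' h' => h ω' (List.mem_cons_of_mem _ h'))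

theorem f4_orbOK : OrbOK chevF4 isoRhoF4 isoRhoF4 f4Orbs := by
  decide +kernel

end words

end Cfsg.Agent.Lib.Helper23
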