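import Cfsg.Agent.Lib.Helper23.F4Tw2

/-!
# `²F₄`: the fixed points on `U`, the `(B, N)`-pair
-/

set_option autoImplicit false
set_option maxRecDepth 100000

namespace Cfsg.Agent.Lib.Helper23
open Cfsg.Lie Matrix Cfsg.Agent.Lib.Helper22 Cfsg.Agent.Lib.Helper45

section uniq
variable {D : ChevalleyDatum} {F : Type*} [Field F] (b : Bundle D F)

theorem word_unique (hC : UComm D F) (hSep : USep b.hA) {l : List ℕ} (hnd : l.Nodup)
    (hpos : ∀ a ∈ l, D.IsPosRoot a) {w w' : List (ℕ × F)} (h1 : w.map Prod.fst = l)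
    (h2 : w'.map Prod.fst = l) (h : b.hA.W w = b.hA.W w') : w = w' := by
  have e1 := wL_toFn w (h1 ▸ hnd)
  have e2 := wL_toFn w' (h2 ▸ hnd)
  rw [h1] at e1
  rw [h2] at e2
  rw [← e1, ← e2] at h
  rw [← e1, ← e2]
  exact wL_congr (factor_unique b.hA hC hSep hnd hpos h)

end uniq

/-- the blocks of positive roots with the words carrying them to the fundamental blocks -/
def f4Cert : List (List ℕ × List (List ℕ)) :=
  [([33, 24], []), ([27, 25, 28, 30], []), ([34, 26, 36, 42], [[0, 3]]),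
    ([35, 31, 40, 46], [[0, 3], [1, 2, 1, 2]]), ([29, 41, 44, 47], [[0, 3], [1, 2, 1, 2], [0, 3]]),
    ([37, 32], [[1, 2, 1, 2]]), ([38, 43], [[1, 2, 1, 2], [0, 3]]),
    ([39, 45], [[1, 2, 1, 2], [0, 3], [1, 2, 1, 2]])]

/-- the blocks of positive roots -/
def f4Blocks : List (List ℕ) := f4Cert.map Prod.fst

theorem f4Cert_ok : ∀ p ∈ f4Cert, (p.1.map (wact chevF4 p.2.flatten) = [33, 24] ∨
    p.1.map (wact chevF4 p.2.flatten) = [27, 25, 28, 30]) ∧ (∀ ω ∈ p.2, ω ∈ f4Orbs) ∧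
    (∀ a ∈ p.1, a < chevF4.nroots) ∧ ∀ i ∈ p.2.flatten, i < chevF4.rank := by
  decide +kernel

theorem f4Blocks_nodup : f4Blocks.flatten.Nodup := by decide +kernel

theorem f4Blocks_all : ∀ a, a ∈ f4Blocks.flatten ↔ chevF4.IsPosRoot a := by
  intro a
  rw [isPosRoot_iff_of_mem memF4]
  have h48 : chevF4.nroots = 48 := rfl
  rw [h48]
  constructor
  · intro h
    have : ∀ a ∈ f4Blocks.flatten, a < 48 ∧ 48 ≤ 2 * a := by decide +kernel
    exact this a h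
  · rintro ⟨h1, h2⟩
    have : ∀ a < 48, 48 ≤ 2 * a → a ∈ f4Blocks.flatten := by decide +kernel
    exact this a h1 h2

section sigma
variable {K : Type*} [Field K] [CharP K 2] [Fintype K] {m : ℕ} (hK : Fintype.card K = 2 ^ (2 * m + 1))
  (b : Bundle chevF4 K) (α : ↥(chevF4.group K) ≃* ↥(chevF4.group K))
  (hα : ∀ r < 48, ∀ t : K,
    (α ⟨b.hA.X r t, b.hA.X_mem_group r t⟩ : GL chevF4.Idx K) = b.hA.X (isoRhoF4 r) (t ^ isoLamF4 r))

omit [Fintype K] [CharP K 2] in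
theorem mem_XL1 {g : GL chevF4.Idx K} : g ∈ XL b [33, 24] ↔ ∃ x y : K, g = b.hA.W [(33, x), (24, y)] := by
  rw [mem_XL_iff b (by decide)]
  constructor
  · rintro ⟨t, rfl⟩
    exact ⟨t 33, t 24, rfl⟩
  · rintro ⟨x, y, rfl⟩
    exact ⟨toFn [(33, x), (24, y)], by rw [← wL_toFn [(33, x), (24, y)] (by simp)]; rfl⟩

omit [Fintype K] [CharP K 2] in
theorem mem_XL2 {g : GL chevF4.Idx K} : g ∈ XL b [27, 25, 28, 30] ↔
    ∃ x y z v : K, g = b.hA.W [(27, x), (25, y), (28, z), (30, v)] := by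
  rw [mem_XL_iff b (by decide)]
  constructor
  · rintro ⟨t, rfl⟩
    exact ⟨t 27, t 25, t 28, t 30, rfl⟩
  · rintro ⟨x, y, z, v, rfl⟩
    exact ⟨toFn [(27, x), (25, y), (28, z), (30, v)],
      by rw [← wL_toFn [(27, x), (25, y), (28, z), (30, v)] (by simp)]; rfl⟩

include hK hα in
theorem f4_stab1 : StabL b (f4Sigma b α m) [33, 24] := by
  intro g hg
  obtain ⟨x, y, rfl⟩ := (mem_XL1 b).1 hg
  rw [sigma_pair_pos hK b α hα]
  exact (mem_XL1 b).2 ⟨_, _, rfl⟩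

include hK hα in
theorem f4_stab2 : StabL b (f4Sigma b α m) [27, 25, 28, 30] := by
  intro g hg
  obtain ⟨x, y, z, v, rfl⟩ := (mem_XL2 b).1 hg
  rw [sigma_cls_pos hK b α hα]
  exact (mem_XL2 b).2 ⟨_, _, _, _, rfl⟩

omit [Fintype K] [CharP K 2] in
theorem f4_unique2 {x y x' y' : K} (h : b.hA.W [(33, x), (24, y)] = b.hA.W [(33, x'), (24, y')]) :
    x = x' ∧ y = y' := by
  have := word_unique b (uComm_of_mem K memF4) (uSep_of_mem memF4 b.hA) (l := [33, 24]) (by decide)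
    (fun a ha => (f4Blocks_all a).1 (by
      have : ∀ a ∈ [33, 24], a ∈ f4Blocks.flatten := by decide +kernel
      exact this a ha)) rfl rfl h
  simpa using this

omit [Fintype K] [CharP K 2] in
theorem f4_unique4 {x y z v x' y' z' v' : K}
    (h : b.hA.W [(27, x), (25, y), (28, z), (30, v)] = b.hA.W [(27, x'), (25, y'), (28, z'), (30, v')]) :
    x = x' ∧ y = y' ∧ z = z' ∧ v = v' := by
  have := word_unique b (uComm_of_mem K memF4) (uSep_of_mem memF4 b.hA) (l := [27, 25, 28, 30]) (by decide)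
    (fun a ha => (f4Blocks_all a).1 (by
      have : ∀ a ∈ [27, 25, 28, 30], a ∈ f4Blocks.flatten := by decide +kernel
      exact this a ha)) rfl rfl h
  simpa using this

include hK hα in
theorem mem_FixL1 {g : GL chevF4.Idx K} : g ∈ FixL b (f4Sigma b α m) [33, 24] ↔
    ∃ t : K, g = b.hA.W (pairW 33 24 (f4Th K m) t) := by
  constructor
  · rintro ⟨hg, hf⟩
    obtain ⟨x, y, rfl⟩ := (mem_XL1 b).1 hg
    rw [sigma_pair_pos hK b α hα] at hf
    obtain ⟨h1, -⟩ := f4_unique2 b hf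
    exact ⟨y, by unfold pairW; rw [h1]⟩
  · rintro ⟨t, rfl⟩
    exact ⟨(mem_XL1 b).2 ⟨_, _, rfl⟩, pair_pos_fixed hK b α hα t⟩

include hK hα in
theorem mem_FixL2 {g : GL chevF4.Idx K} : g ∈ FixL b (f4Sigma b α m) [27, 25, 28, 30] ↔
    ∃ t u : K, g = b.hA.W (clsW 27 25 28 30 (f4Th K m) (f4Ps K m) t u) := by
  constructor
  · rintro ⟨hg, hf⟩
    obtain ⟨x, y, z, v, rfl⟩ := (mem_XL2 b).1 hg
    rw [sigma_cls_pos hK b α hα] at hf
    obtain ⟨h1, h2, h3, -⟩ := f4_unique4 b hf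
    refine ⟨y, f4Th K m v, ?_⟩
    unfold clsW
    rw [f4Ps_f4Th hK, h1, ← h3, h2, h1]
  · rintro ⟨t, u, rfl⟩
    exact ⟨(mem_XL2 b).2 ⟨_, _, _, _, rfl⟩, cls_pos_fixed hK b α hα t u⟩

include hK hα in
theorem card_FixL1 : Nat.card (FixL b (f4Sigma b α m) [33, 24]) = 2 ^ (2 * m + 1) := by
  rw [← hK, ← Nat.card_eq_fintype_card]
  symm
  refine Nat.card_congr (Equiv.ofBijective
    (fun t : K => ⟨b.hA.W (pairW 33 24 (f4Th K m) t), (mem_FixL1 hK b α hα).2 ⟨t, rfl⟩⟩) ⟨?_, ?_⟩)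
  · intro t t' h
    exact (f4_unique2 b (congrArg Subtype.val h)).2
  · rintro ⟨g, hg⟩
    obtain ⟨t, rfl⟩ := (mem_FixL1 hK b α hα).1 hg
    exact ⟨t, rfl⟩

include hK hα in
theorem card_FixL2 : Nat.card (FixL b (f4Sigma b α m) [27, 25, 28, 30]) = (2 ^ (2 * m + 1)) ^ 2 := by
  rw [← hK, ← Nat.card_eq_fintype_card, sq, ← Nat.card_prod]
  symm
  refine Nat.card_congr (Equiv.ofBijective
    (fun p : K × K => ⟨b.hA.W (clsW 27 25 28 30 (f4Th K m) (f4Ps K m) p.1 p.2),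
      (mem_FixL2 hK b α hα).2 ⟨p.1, p.2, rfl⟩⟩) ⟨?_, ?_⟩)
  · rintro ⟨t, u⟩ ⟨t', u'⟩ h
    obtain ⟨-, h2, h3, -⟩ := f4_unique4 b (congrArg Subtype.val h)
    simp only at h2 h3
    subst h2
    rw [add_left_cancel h3]
  · rintro ⟨g, hg⟩
    obtain ⟨t, u, rfl⟩ := (mem_FixL2 hK b α hα).1 hg
    exact ⟨(t, u), rfl⟩

/-- the fixed points of the twisting map. -/
noncomputable def f4Fix : Subgroup (GL chevF4.Idx K) :=
  FixS (chevF4.group K) (f4Sigma b α m) (f4_isTwist hK b α hα).mul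

theorem f4_G1_fix : twistedF4 K (2 ^ m) ≤ f4Fix hK b α hα := by
  rw [twistedF4_eq b.hA, Subgroup.closure_le]
  rintro g ((⟨t, rfl⟩ | ⟨t, rfl⟩) | (⟨t, u, rfl⟩ | ⟨t, u, rfl⟩))
  · exact ⟨b.hA.W_mem_group _, pair_pos_fixed hK b α hα t⟩
  · exact ⟨b.hA.W_mem_group _, pair_neg_fixed hK b α hα t⟩
  · exact ⟨b.hA.W_mem_group _, cls_pos_fixed hK b α hα t u⟩
  · exact ⟨b.hA.W_mem_group _, cls_neg_fixed hK b α hα t u⟩

include hK hα in
theorem f4_nword_fix {L : List (List ℕ)} (hL : ∀ ω ∈ L, ω ∈ f4Orbs) :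
    f4Sigma b α m (b.hA.nword L.flatten) = b.hA.nword L.flatten :=
  (f4_G1_fix hK b α hα (f4_nword_flatten_mem b.hA m L hL)).2

include hK hα in
theorem f4_blocksG : BlocksG b (f4Sigma b α m) f4Blocks where
  nodup := f4Blocks_nodup
  all := f4Blocks_all
  stab := by
    intro β hβ
    obtain ⟨p, hp, rfl⟩ := List.mem_map.1 hβ
    obtain ⟨h1, h2, h3, h4⟩ := f4Cert_ok p hp
    apply StabL.conj b (f4_isTwist hK b α hα) h4 (f4_nword_fix hK b α hα h2) h3
    rcases h1 with h1 | h1 <;> rw [h1]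
    · exact f4_stab1 hK b α hα
    · exact f4_stab2 hK b α hα

include hK hα in
theorem f4_U_fix : ∀ u ∈ chevF4.posUnipotent K, f4Sigma b α m u = u → u ∈ twistedF4 K (2 ^ m) := by
  intro u hu hf
  refine fix_leG b (f4_isTwist hK b α hα) (uComm_of_mem K memF4) (uSep_of_mem memF4 b.hA)
    (f4_blocksG hK b α hα) ?_ hu hf
  intro β hβ
  obtain ⟨p, hp, rfl⟩ := List.mem_map.1 hβ
  obtain ⟨h1, h2, h3, h4⟩ := f4Cert_ok p hp
  apply FixL_le_conj b (f4_isTwist hK b α hα) h4 (f4_nword_fix hK b α hα h2)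
    (f4_nword_flatten_mem b.hA m _ h2) h3
  rcases h1 with h1 | h1 <;> rw [h1]
  · intro g hg
    obtain ⟨t, rfl⟩ := (mem_FixL1 hK b α hα).1 hg
    exact pair_pos_mem b.hA m t
  · intro g hg
    obtain ⟨t, u, rfl⟩ := (mem_FixL2 hK b α hα).1 hg
    exact cls_pos_mem b.hA m t u

include hK hα in
theorem f4_card_U1 : Nat.card ↥(chevF4.posUnipotent K ⊓ twistedF4 K (2 ^ m)) = (2 ^ (2 * m + 1)) ^ 12 := by
  have e : Nat.card ↥(chevF4.posUnipotent K ⊓ twistedF4 K (2 ^ m)) =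
      Nat.card {u // u ∈ chevF4.posUnipotent K ∧ f4Sigma b α m u = u} := by
    apply Nat.card_congr
    apply Equiv.subtypeEquivRight
    intro u
    constructor
    · rintro ⟨h1, h2⟩
      exact ⟨h1, (f4_G1_fix hK b α hα h2).2⟩
    · rintro ⟨h1, h2⟩
      exact ⟨h1, f4_U_fix hK b α hα u h1 h2⟩
  rw [e, card_fixU b (uComm_of_mem K memF4) (uSep_of_mem memF4 b.hA) (f4_isTwist hK b α hα)
    (f4_blocksG hK b α hα)]
  have hc : ∀ p ∈ f4Cert, Nat.card (FixL b (f4Sigma b α m) p.1) = (2 ^ (2 * m + 1)) ^ (p.1.length / 2) := by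
    intro p hp
    obtain ⟨h1, h2, h3, h4⟩ := f4Cert_ok p hp
    rw [card_FixL_conj b (f4_isTwist hK b α hα) h4 (f4_nword_fix hK b α hα h2) h3]
    have hlen : p.1.length = (p.1.map (wact chevF4 p.2.flatten)).length := (List.length_map _).symm
    rcases h1 with h1 | h1 <;> rw [hlen, h1]
    · rw [card_FixL1 hK b α hα]; simp
    · rw [card_FixL2 hK b α hα]; simp
  unfold f4Blocks
  rw [List.map_map, List.map_congr_left (g := fun p => (2 ^ (2 * m + 1)) ^ (p.1.length / 2)) hc]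
  simp only [f4Cert, List.map_cons, List.map_nil, List.prod_cons, List.prod_nil, List.length_cons,
    List.length_nil]
  ring

end sigma

end Cfsg.Agent.Lib.Helper23
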