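import Cfsg.Agent.Lib.Helper23.F4Tw3
import Cfsg.Agent.Lib.Helper45.TwistWeyl2

/-!
# `²F₄`: the `(B, N)`-pair
-/

set_option autoImplicit false
set_option maxRecDepth 100000

namespace Cfsg.Agent.Lib.Helper23
open Cfsg.Lie Matrix Cfsg.Agent.Lib.Helper22 Cfsg.Agent.Lib.Helper45

section sigma
variable {K : Type*} [Field K] [CharP K 2] [Fintype K] {m : ℕ} (hK : Fintype.card K = 2 ^ (2 * m + 1))
  (b : Bundle chevF4 K) (α : ↥(chevF4.group K) ≃* ↥(chevF4.group K))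
  (hα : ∀ r < 48, ∀ t : K,
    (α ⟨b.hA.X r t, b.hA.X_mem_group r t⟩ : GL chevF4.Idx K) = b.hA.X (isoRhoF4 r) (t ^ isoLamF4 r))

omit [Fintype K] [CharP K 2] in
/-- conjugating a word by `nword v` -/
theorem f4_conj_word {v : List ℕ} (hv : ∀ i ∈ v, i < chevF4.rank) {l : List ℕ} {w : List (ℕ × K)}
    (hw : w.map Prod.fst = l) (hl : ∀ a ∈ l, a < chevF4.nroots) :
    b.hA.nword v * b.hA.W w * (b.hA.nword v)⁻¹ ∈ XL b (l.map (wact chevF4 v)) :=
  XL_conj b hv hl ⟨w, hw, rfl⟩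

omit [Fintype K] [CharP K 2] in
theorem XL_le_pos {l : List ℕ} (hl : ∀ a ∈ l, chevF4.IsPosRoot a) {g : GL chevF4.Idx K} (hg : g ∈ XL b l) :
    g ∈ chevF4.posUnipotent K := by
  obtain ⟨w, rfl, rfl⟩ := hg
  exact Cfsg.Agent.Lib.Helper22.W_mem_pos' b.hA fun p hp => hl _ (List.mem_map_of_mem hp)

omit [Fintype K] [CharP K 2] in
theorem XL_le_neg {l : List ℕ} (hl : ∀ a ∈ l, chevF4.IsNegRoot a) {g : GL chevF4.Idx K} (hg : g ∈ XL b l) :
    g ∈ chevF4.negUnipotent K := by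
  obtain ⟨w, rfl, rfl⟩ := hg
  exact Cfsg.Agent.Lib.Helper22.W_mem_neg' b.hA fun p hp => hl _ (List.mem_map_of_mem hp)

theorem f4_fixBN : FixBN (chevF4.group K) (chevF4.borelSubgroup K) (chevF4.monomialSubgroup K)
    (chevF4.diagonalSubgroup K) (chevF4.posUnipotent K) (Umin chevF4 K) (f4Fix hK b α hα)
    (twistedF4 K (2 ^ m)) {s | ∃ ω ∈ f4Orbs, s = b.hA.nword ω} := by
  refine chev_fixBN b (f4_isTwist hK b α hα) (sharpBN_of_mem K memF4) f4_orbOK (fun ω => b.hA.nword ω)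
    (fun _ => 1) (fun _ _ => one_mem _) (fun _ _ => (mul_one _).symm) (fun ω hω => f4_nword_mem b.hA m hω)
    (f4_G1_fix hK b α hα) (f4_U_fix hK b α hα) (f4Gens b.hA m) (twistedF4_eq b.hA m) ?_ ?_
  · rintro g ((⟨t, rfl⟩ | ⟨t, rfl⟩) | (⟨t, u, rfl⟩ | ⟨t, u, rfl⟩))
    · left
      exact AddFact.pos_le_borel (XL_le_pos b (l := [33, 24]) (by decide +kernel) ⟨_, rfl, rfl⟩)
    · right
      refine ⟨[0, 3], by simp [f4Orbs], AddFact.pos_le_borel (XL_le_pos b ?_
        (f4_conj_word b (v := [0, 3]) (by decide +kernel) (l := [14, 23]) rfl (by decide +kernel)))⟩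
      decide +kernel
    · left
      exact AddFact.pos_le_borel (XL_le_pos b (l := [27, 25, 28, 30]) (by decide +kernel) ⟨_, rfl, rfl⟩)
    · right
      refine ⟨[1, 2, 1, 2], by simp [f4Orbs], AddFact.pos_le_borel (XL_le_pos b ?_
        (f4_conj_word b (v := [1, 2, 1, 2]) (by decide +kernel) (l := [20, 22, 19, 17]) rfl
          (by decide +kernel)))⟩
      decide +kernel
  · intro ω hω
    simp only [f4Orbs, List.mem_cons, List.not_mem_nil, or_false] at hω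
    rcases hω with rfl | rfl
    · refine ⟨b.hA.W (pairW 33 24 (f4Th K m) 1),
        AddFact.pos_le_borel (XL_le_pos b (l := [33, 24]) (by decide +kernel) ⟨_, rfl, rfl⟩),
        pair_pos_mem b.hA m 1, ?_, XL_le_neg b ?_
        (f4_conj_word b (v := [0, 3]) (by decide +kernel) (l := [33, 24]) rfl (by decide +kernel))⟩
      · intro h
        have e : (1 : GL chevF4.Idx K) = b.hA.W [(33, 0), (24, 0)] := by simp [AddFact.W]
        rw [e] at h
        exact one_ne_zero (f4_unique2 b h).2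
      · decide +kernel
    · refine ⟨b.hA.W (clsW 27 25 28 30 (f4Th K m) (f4Ps K m) 1 0),
        AddFact.pos_le_borel (XL_le_pos b (l := [27, 25, 28, 30]) (by decide +kernel) ⟨_, rfl, rfl⟩),
        cls_pos_mem b.hA m 1 0, ?_, XL_le_neg b ?_
        (f4_conj_word b (v := [1, 2, 1, 2]) (by decide +kernel) (l := [27, 25, 28, 30]) rfl
          (by decide +kernel))⟩
      · intro h
        have e : (1 : GL chevF4.Idx K) = b.hA.W [(27, 0), (25, 0), (28, 0), (30, 0)] := by simp [AddFact.W]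
        rw [e] at h
        exact one_ne_zero (f4_unique4 b h).2.1
      · decide +kernel

include hK hα in
/-- the `(B, N)`-pair of `²F₄`. -/
theorem f4_bnPair : ∃ P : Cfsg.BNPair ↥(twistedF4 K (2 ^ m)),
    P.B = (chevF4.borelSubgroup K ⊓ twistedF4 K (2 ^ m)).subgroupOf (twistedF4 K (2 ^ m)) ∧
    P.N = (chevF4.monomialSubgroup K ⊓ twistedF4 K (2 ^ m)).subgroupOf (twistedF4 K (2 ^ m)) ∧
    P.S = {s : ↥(twistedF4 K (2 ^ m)) | (s : GL chevF4.Idx K) ∈ {s | ∃ ω ∈ f4Orbs, s = b.hA.nword ω}} :=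
  (f4_fixBN hK b α hα).exists_bnPair (sharpBN_of_mem K memF4)

end sigma

/-- the setup: characteristic, bundle and isogeny -/
theorem f4_setup {K : Type*} [Field K] [Fintype K] {m : ℕ} (hK : Fintype.card K = 2 ^ (2 * m + 1)) :
    ∃ (_ : CharP K 2) (b : Bundle chevF4 K) (α : ↥(chevF4.group K) ≃* ↥(chevF4.group K)),
      ∀ r < 48, ∀ t : K,
        (α ⟨b.hA.X r t, b.hA.X_mem_group r t⟩ : GL chevF4.Idx K) = b.hA.X (isoRhoF4 r) (t ^ isoLamF4 r) := by
  have : CharP K 2 := charP_of_card_pow Nat.prime_two hK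
  obtain ⟨α, hα⟩ := exists_isogF4 (f4_sq_surj hK) (bundle_of_mem K memF4).hA
  exact ⟨inferInstance, bundle_of_mem K memF4, α, hα⟩

end Cfsg.Agent.Lib.Helper23
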