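import Cfsg.Agent.Lib.Helper23.F4Tw4
import Cfsg.Agent.Lib.Helper5.DihedralIso

/-!
# `²F₄`: `N¹/H¹` is dihedral of order `16`
-/

set_option autoImplicit false
set_option maxRecDepth 100000

namespace Cfsg.Agent.Lib.Helper23
open Cfsg.Lie Matrix Cfsg.Agent.Lib.Helper22 Cfsg.Agent.Lib.Helper45 Cfsg.Agent.Lib.Helper8

/-- the Coxeter matrix of type `I₂(8)` -/
def cmI8 : CoxeterMatrix (Fin 2) where
  M := !![1, 8; 8, 1]
  off_diagonal := by
    intro i i' h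
    fin_cases i <;> fin_cases i' <;> simp_all

/-- the orbits -/
def orbFF4 : Fin 2 → List ℕ := ![[0, 3], [1, 2, 1, 2]]

/-- the entries of the Coxeter matrix as natural numbers -/
def cmI8n (i j : Fin 2) : ℕ := cmI8 i j

theorem twCoxF4_one : ∀ i j : Fin 2, ∀ r < chevF4.nroots, chevF4.IsPosRoot r →
    chevF4.IsPosRoot (wact chevF4 (List.replicate (cmI8 i j) (orbFF4 i ++ orbFF4 j)).flatten r) := by
  decide +kernel

theorem twCoxF4_ne : ∀ i j : Fin 2, ∀ t : Fin (cmI8n i j), 0 < t.val → ∃ r < chevF4.nroots,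
    chevF4.IsPosRoot r ∧
    chevF4.IsNegRoot (wact chevF4 (List.replicate t.val (orbFF4 i ++ orbFF4 j)).flatten r) := by
  decide +kernel

theorem twCoxF4 : TwCox chevF4 orbFF4 cmI8 :=
  ⟨(by decide +kernel : ∀ i j : Fin 2, 0 < cmI8n i j), twCoxF4_one, twCoxF4_ne⟩

theorem orbFF4_mem : ∀ i, orbFF4 i ∈ f4Orbs := by decide +kernel

theorem orbFF4_surj : ∀ ω ∈ f4Orbs, ∃ i, orbFF4 i = ω := by decide +kernel

/-- a group generated by two involutions whose product has order `n` is dihedral -/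
theorem exists_dihedral_equiv {W : Type*} [Group W] (f : Fin 2 → W) (h1 : ∀ i, f i * f i = 1)
    (hne : ∀ i, f i ≠ 1) (h2 : ∀ w, ∃ L, wp f L = w) {n : ℕ} (h4 : orderOf (f 0 * f 1) = n) :
    Nonempty (DihedralGroup n ≃* W) := by
  have ho : ∀ i, orderOf (f i) = 2 := fun i =>
    orderOf_eq_prime (by rw [sq]; exact h1 i) (hne i)
  have htop : Subgroup.closure ({f 0, f 1} : Set W) = ⊤ := by
    rw [eq_top_iff]
    rintro w -
    obtain ⟨L, rfl⟩ := h2 w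
    apply Subgroup.list_prod_mem
    intro x hx
    obtain ⟨i, _, rfl⟩ := List.mem_map.1 hx
    apply Subgroup.subset_closure
    fin_cases i
    · exact Or.inl rfl
    · exact Or.inr rfl
  subst h4
  exact ⟨(Cfsg.Agent.Lib.Helper5.dihEquiv (ho 0) (ho 1)).symm.trans
    ((MulEquiv.subgroupCongr htop).trans Subgroup.topEquiv)⟩

section sigma
variable {K : Type*} [Field K] [CharP K 2] [Fintype K] {m : ℕ} (hK : Fintype.card K = 2 ^ (2 * m + 1))
  (b : Bundle chevF4 K) (α : ↥(chevF4.group K) ≃* ↥(chevF4.group K))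
  (hα : ∀ r < 48, ∀ t : K,
    (α ⟨b.hA.X r t, b.hA.X_mem_group r t⟩ : GL chevF4.Idx K) = b.hA.X (isoRhoF4 r) (t ^ isoLamF4 r))

omit [Fintype K] in
theorem f4_weyl {P : Cfsg.BNPair ↥(twistedF4 K (2 ^ m))}
    (hPB : P.B = (chevF4.borelSubgroup K ⊓ twistedF4 K (2 ^ m)).subgroupOf (twistedF4 K (2 ^ m)))
    (hPS : P.S = {s : ↥(twistedF4 K (2 ^ m)) |
      (s : GL chevF4.Idx K) ∈ {s | ∃ ω ∈ f4Orbs, s = b.hA.nword ω}}) :
    ∃ σ : Fin 2 ≃ P.S, (∀ i, (((σ i : P.S) : ↥(twistedF4 K (2 ^ m))) : GL chevF4.Idx K) =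
        b.hA.nword (orbFF4 i)) ∧
      (∀ i, sg P (σ i) * sg P (σ i) = 1) ∧ (∀ w, ∃ L, wp (fun i => sg P (σ i)) L = w) ∧
      ExCond (fun i => sg P (σ i)) ∧ (∀ i j, orderOf (sg P (σ i) * sg P (σ j)) = cmI8 i j) :=
  tw_weyl b (rep := fun ω => b.hA.nword ω) (h₀ := fun _ => 1) hPB hPS f4_orbOK.rank
    (fun _ _ => one_mem _) (fun _ _ => (mul_one _).symm) (fun _ hω => f4_nword_mem b.hA m hω) orbFF4
    orbFF4_mem orbFF4_surj twCoxF4

include hK hα in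
theorem f4_weyl_hom : ∃ φ : ↥(chevF4.monomialSubgroup K ⊓ twistedF4 K (2 ^ m)) →* DihedralGroup 8,
    Function.Surjective φ ∧ φ.ker = (chevF4.diagonalSubgroup K ⊓ twistedF4 K (2 ^ m)).subgroupOf
      (chevF4.monomialSubgroup K ⊓ twistedF4 K (2 ^ m)) := by
  obtain ⟨P, hPB, hPN, hPS⟩ := f4_bnPair hK b α hα
  obtain ⟨σ', _, h1, h2, _, h4⟩ := f4_weyl b hPB hPS
  obtain ⟨e⟩ := exists_dihedral_equiv (fun i => sg P (σ' i)) h1 (fun i => sg_ne_one _) h2 (h4 0 1)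
  have hS := sharpBN_of_mem K memF4
  obtain ⟨φ, h5, h6, _⟩ := fix_weyl_hom hPB hPN hS.BN hS.H_le_B e
  exact ⟨φ, h5, h6⟩

end sigma

end Cfsg.Agent.Lib.Helper23
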