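import Cfsg.Agent.Lib.Helper23.TwAutSub

/-!
# Automorphisms of twisted groups: the subgroups `X_{±J}`, `n_J(t)`, and `P_J ∩ V¹ = X_{-J}`
-/

set_option autoImplicit false

namespace Cfsg.Agent.Lib.Helper23.TwAut

open Cfsg.Lie Matrix Cfsg.Agent.Lib.Helper23 Cfsg.Agent.Lib.Helper22 Cfsg.Agent.Lib.Helper45
open Cfsg.Agent.Lib.Helper45.AutAbs

variable {D : ChevalleyDatum} {K : Type*} [Field K]

theorem nJ_inv (hA : AddFact D K) (φ : K →+* K) {J : List ℕ} (hJ : J.Pairwise hA.Orth) (t : K) :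
    (hA.nJ φ J t)⁻¹ = hA.nJ φ J (-t) := by
  rw [hA.nJ_eq φ hJ, hA.nJ_eq φ hJ, _root_.mul_inv_rev, _root_.mul_inv_rev, hA.xJ_inv φ hJ,
    hA.xJ_inv φ hJ, inv_neg, neg_neg, mul_assoc]

theorem acts_nJ (b : Bundle D K) (φ : K →+* K) {J : List ℕ} (hJ : ∀ i ∈ J, i < D.rank) {t : K}
    (ht : t ≠ 0) : Acts D K (b.hA.nJ φ J t) (wact D J) := by
  induction J generalizing t with
  | nil =>
    have := acts_nword b (w := []) (by simp)
    simpa using this
  | cons i J ih =>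
    have hJ' : ∀ k ∈ J, k < D.rank := fun k hk => hJ k (by simp [hk])
    rw [AddFact.nJ_cons]
    exact ((acts_nG b (hJ i (by simp)) ht).mul (ih hJ' ((map_ne_zero φ).2 ht))
      (fun r hr => b.hR.wact_lt hJ' hr)).congr fun _ _ => rfl

theorem nJ_mem_mono (b : Bundle D K) (φ : K →+* K) {J : List ℕ} (hJ : ∀ i ∈ J, i < D.rank) {t : K}
    (ht : t ≠ 0) : b.hA.nJ φ J t ∈ D.monomialSubgroup K := by
  induction J generalizing t with
  | nil => exact one_mem _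
  | cons i J ih =>
    rw [AddFact.nJ_cons]
    exact mul_mem (b.hA.nG_mem_mono (b.hR.simple_lt (hJ i (by simp))) ht)
      (ih (fun k hk => hJ k (by simp [hk])) ((map_ne_zero φ).2 ht))

namespace TwC

variable {b : Bundle D K} {σ : GL D.Idx K → GL D.Idx K} {ρ ρ' : ℕ → ℕ} {c : ℕ → K → K}
  {O : List (List ℕ)} {cert : List (List ℕ × List (List ℕ))} {G1 : Subgroup (GL D.Idx K)}
  {φ : K →+* K} (C : TwC b σ ρ ρ' c O cert G1 φ)
include C

/-- `X_{±J}` -/
def XS (sg : Bool) {J : List ℕ} (hJ : J ∈ O) : Subgroup ↥G1 where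
  carrier := {g | ∃ t, (φ ^ J.length) t = t ∧ (g : GL D.Idx K) = b.hA.xJ φ sg J t}
  mul_mem' := by
    rintro x y ⟨t, ht, ex⟩ ⟨u, hu, ey⟩
    exact ⟨t + u, by rw [map_add, ht, hu], by
      rw [Subgroup.coe_mul, ex, ey, b.hA.xJ_add φ (C.orth J hJ)]⟩
  one_mem' := ⟨0, map_zero _, by rw [AddFact.xJ_zero]; rfl⟩
  inv_mem' := by
    rintro x ⟨t, ht, ex⟩
    exact ⟨-t, by rw [map_neg, ht], by rw [Subgroup.coe_inv, ex, b.hA.xJ_inv φ (C.orth J hJ)]⟩

theorem mem_XS {sg : Bool} {J : List ℕ} {hJ : J ∈ O} {g : ↥G1} :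
    g ∈ C.XS sg hJ ↔ ∃ t, (φ ^ J.length) t = t ∧ (g : GL D.Idx K) = b.hA.xJ φ sg J t := Iff.rfl

/-- conjugation by elements of `N ∩ G¹` -/
theorem mp_XS {m : GL D.Idx K} (hm : m ∈ G1) {π π' : ℕ → ℕ} (hπ : Acts D K m π)
    (hπ' : Acts D K m⁻¹ π') (hinv : ∀ r < D.nroots, π' (π r) = r) {J J' : List ℕ}
    (hJ : J ∈ O) (hJ' : J' ∈ O) {sg sg' : Bool}
    (hp : ((J.map (sgR D sg)).map π).Perm (J'.map (sgR D sg'))) :
    Mp (cj (⟨m, hm⟩ : ↥G1)) (C.XS sg hJ) (C.XS sg' hJ') := by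
  intro g
  constructor
  · rintro ⟨t, ht, e⟩
    have hp' : ((J'.map (sgR D sg')).map π').Perm (J.map (sgR D sg)) := by
      have h1 := (hp.symm.map π')
      have h2 : ((J.map (sgR D sg)).map π).map π' = J.map (sgR D sg) := by
        rw [List.map_map]
        conv_rhs => rw [← List.map_id (J.map (sgR D sg))]
        apply List.map_congr_left
        intro a ha
        exact hinv a ((C.block hJ sg).lt a ha)
      rwa [h2] at h1
    obtain ⟨t', ht', e'⟩ := C.conj_xJ (inv_mem hm) hπ' hJ' hJ hp' ht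
    refine ⟨t', ht', ?_⟩
    rw [← e', ← e]
    show (g : GL D.Idx K) = m⁻¹ * (m * g * m⁻¹) * m⁻¹⁻¹
    group
  · rintro ⟨t, ht, e⟩
    obtain ⟨t', ht', e'⟩ := C.conj_xJ hm hπ hJ hJ' hp ht
    refine ⟨t', ht', ?_⟩
    rw [← e', ← e]
    rfl

theorem nJ_mem {J : List ℕ} (hJ : J ∈ O) {t : K} (ht : (φ ^ J.length) t = t) : b.hA.nJ φ J t ∈ G1 := by
  rw [C.hG]; exact b.hA.nJ_mem φ hJ (C.orth J hJ) ht

theorem hJ_mem {J : List ℕ} (hJ : J ∈ O) {t : K} (ht : (φ ^ J.length) t = t) : b.hA.hJ φ J t ∈ G1 := by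
  rw [C.hG]; exact b.hA.hJ_mem φ hJ (C.orth J hJ) ht

theorem acts_nJ_inv {J : List ℕ} (hJ : J ∈ O) {t : K} (ht : t ≠ 0) :
    Acts D K (b.hA.nJ φ J t)⁻¹ (wact D J.reverse) := by
  have hw := C.rank hJ
  have hw' : ∀ i ∈ J.reverse, i < D.rank := fun i hi => hw i (List.mem_reverse.1 hi)
  refine (acts_nJ b φ hw ht).inv (fun r hr => b.hR.wact_lt hw' hr) fun r hr => ?_
  have := b.hR.wact_reverse hw' hr
  rwa [List.reverse_reverse] at this

theorem nJ_not_mem_borel {J : List ℕ} (hJ : J ∈ O) {t : K} (ht : t ≠ 0) :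
    b.hA.nJ φ J t ∉ D.borelSubgroup K := by
  cases J with
  | nil => exact absurd rfl (C.X.hT.ne _ hJ)
  | cons i J =>
    exact (acts_nJ b φ (C.rank hJ) ht).not_mem_borel b (b.hR.simple_pos (C.rank hJ i (by simp)))
      (C.X.hT.flipP _ hJ i (by simp))

theorem nJ_ne_VB {J : List ℕ} (hJ : J ∈ O) {t : K} (ht : t ≠ 0) {v x : GL D.Idx K}
    (hv : v ∈ D.negUnipotent K) (hx : x ∈ D.borelSubgroup K) : b.hA.nJ φ J t ≠ v * x := fun e =>
  C.nJ_not_mem_borel hJ ht (AddFact.diag_le_borel (mono_VB C.X.hD (nJ_mem_mono b φ (C.rank hJ) ht) hv hx e))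

theorem nJ_mul_nJ_mem_diag {J : List ℕ} (hJ : J ∈ O) {t u : K} (ht : t ≠ 0) (hu : u ≠ 0) :
    b.hA.nJ φ J t * b.hA.nJ φ J u ∈ D.diagonalSubgroup K := by
  have hw := C.rank hJ
  exact ((acts_nJ b φ hw ht).mul (acts_nJ b φ hw hu) fun r hr => b.hR.wact_lt hw hr).mem_diag b
    (mul_mem (nJ_mem_mono b φ hw ht) (nJ_mem_mono b φ hw hu))
    fun r hr => C.X.hT.orb.sq J hJ r hr.1 hr

/-- elements of `U_{n_J}⁻ ∩ G¹` -/
theorem eq_xJ_of_mem_Umin {J : List ℕ} (hJ : J ∈ O) {u : GL D.Idx K}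
    (hu : u ∈ Umin D K (b.hA.nword J)) (hu1 : u ∈ G1) :
    ∃ t, (φ ^ J.length) t = t ∧ u = b.hA.xJ φ true J t := by
  classical
  have P := bruhatPack_of_mem K C.X.hD
  have hw := C.rank hJ
  have hact := acts_nword b hw
  set n := b.hA.nword J with hn
  set β := J.map (sgR D true) with hβ
  have hβ' : β = J.map D.simple := rfl
  set R := D.posRoots.filter (fun a => a ∉ β) with hR
  have hBl := C.block hJ true
  have hnd : (β ++ R).Nodup := by
    rw [List.nodup_append]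
    refine ⟨hBl.nodup, (posRoots_nodup D).filter _, ?_⟩
    intro a ha a' ha' e
    rw [hR, List.mem_filter] at ha'
    subst e
    simpa [ha] using ha'.2
  have hall : ∀ a, a ∈ β ++ R ↔ D.IsPosRoot a := by
    intro a
    rw [List.mem_append, hR, List.mem_filter, mem_posRoots]
    constructor
    · rintro (h | h)
      · obtain ⟨i, hi, rfl⟩ := List.mem_map.1 h
        exact b.hR.simple_pos (hw i hi)
      · exact h.1
    · intro h
      by_cases ha : a ∈ β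
      · exact Or.inl ha
      · exact Or.inr ⟨h, by simpa using ha⟩
  obtain ⟨τ, rfl⟩ := exists_factor b.hA P.hC hnd hall (Umin_le_pos b.hA _ hu)
  have hV := conj_Umin_le_neg b.hA _ hu
  rw [wL_append, AddFact.W_append] at hV hu1 ⊢
  set u1 := b.hA.W (wL β τ) with hu1def
  set u2 := b.hA.W (wL R τ) with hu2def
  have h1 : n * u1 * n⁻¹ ∈ D.negUnipotent K := by
    obtain ⟨w', e1, e2⟩ := conj_W_acts b hact (wL β τ) (by
      intro p hp
      obtain ⟨a, ha, rfl⟩ := List.mem_map.1 hp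
      exact hBl.lt a ha)
    rw [hu1def, e2]
    apply W_mem_neg'
    intro p hp
    have : p.1 ∈ w'.map Prod.fst := List.mem_map_of_mem hp
    rw [e1] at this
    obtain ⟨a, ha, e⟩ := List.mem_map.1 this
    have ha' : a ∈ β := by
      obtain ⟨q, hq, rfl⟩ := List.mem_map.1 ha
      obtain ⟨a', ha', rfl⟩ := List.mem_map.1 hq
      exact ha'
    obtain ⟨i, hi, rfl⟩ := List.mem_map.1 ha'
    rw [← e]
    exact C.X.hT.flipP J hJ i hi
  have h2 : n * u2 * n⁻¹ ∈ D.posUnipotent K := by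
    have hRpos : ∀ a ∈ R, D.IsPosRoot a ∧ a ∉ β := by
      intro a ha
      rw [hR, List.mem_filter, mem_posRoots] at ha
      exact ⟨ha.1, by simpa using ha.2⟩
    obtain ⟨w', e1, e2⟩ := conj_W_acts b hact (wL R τ) (by
      intro p hp
      obtain ⟨a, ha, rfl⟩ := List.mem_map.1 hp
      exact (hRpos a ha).1.1)
    rw [hu2def, e2]
    apply W_mem_pos'
    intro p hp
    have : p.1 ∈ w'.map Prod.fst := List.mem_map_of_mem hp
    rw [e1] at this
    obtain ⟨a, ha, e⟩ := List.mem_map.1 this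
    have ha' : a ∈ R := by
      obtain ⟨q, hq, rfl⟩ := List.mem_map.1 ha
      obtain ⟨a', ha', rfl⟩ := List.mem_map.1 hq
      exact ha'
    rw [← e]
    exact C.stay J hJ a (hRpos a ha').1.1 (hRpos a ha').1 (hRpos a ha').2
  have h3 : n * u2 * n⁻¹ ∈ D.negUnipotent K := by
    have e : n * u2 * n⁻¹ = (n * u1 * n⁻¹)⁻¹ * (n * (u1 * u2) * n⁻¹) := by group
    rw [e]
    exact mul_mem (inv_mem h1) hV
  have h4 : u2 = 1 := by
    have := UV_inf b h2 h3
    have e : u2 = n⁻¹ * (n * u2 * n⁻¹) * n := by group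
    rw [e, this]; group
  rw [h4, mul_one] at hu1 ⊢
  exact C.eq_xJ_of_mem hJ true τ hu1

/-- `(B ∪ B n_J B) ∩ V ∩ G¹ = X_{-J}` -/
theorem par_inf_negT {J : List ℕ} (hJ : J ∈ O) {g : GL D.Idx K} (hg1 : g ∈ G1)
    (hV : g ∈ D.negUnipotent K)
    (hg : g ∈ D.borelSubgroup K ∨ ∃ x ∈ D.borelSubgroup K, ∃ y ∈ D.borelSubgroup K,
      g = x * b.hA.nword J * y) :
    ∃ t, (φ ^ J.length) t = t ∧ g = b.hA.xJ φ false J t := by
  have hBV : ∀ z, z ∈ D.borelSubgroup K → z ∈ D.negUnipotent K → z = 1 := by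
    intro z h1 h2
    have : z ∈ D.borelSubgroup K ⊓ D.negUnipotent K := ⟨h1, h2⟩
    rwa [b.hTri.BV, Subgroup.mem_bot] at this
  have hw := C.rank hJ
  have hO := C.orth J hJ
  rcases hg with hg | hg
  · exact ⟨0, map_zero _, by rw [hBV g hg hV, AddFact.xJ_zero]⟩
  · have hnN : b.hA.nword J ∈ D.monomialSubgroup K := b.hA.nword_mem_mono b.hR hw
    have hn1 : b.hA.nword J ∈ G1 := C.X.nword_mem hJ
    obtain ⟨x, hx, hx1, u, hu, hu1, e⟩ := C.X.fixBN.key C.X.sharp hg1 hnN hn1 hg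
    obtain ⟨t, ht, rfl⟩ := C.eq_xJ_of_mem_Umin hJ hu hu1
    by_cases ht0 : t = 0
    · exfalso
      rw [ht0, AddFact.xJ_zero, mul_one] at e
      have e1 : (b.hA.nword J)⁻¹ = g⁻¹ * x := by rw [e]; group
      have h1 := mono_VB C.X.hD (inv_mem hnN) (inv_mem hV) hx e1
      have h2 : b.hA.nJ φ J 1 ∈ D.borelSubgroup K := by
        rw [AddFact.nJ_one]
        have := AddFact.diag_le_borel (inv_mem h1)
        rwa [inv_inv] at this
      exact C.nJ_not_mem_borel hJ one_ne_zero h2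
    · have e1 := b.hA.nJ_eq φ hO t
      have e2 : b.hA.xJ φ true J t =
          b.hA.nJ φ J t * (b.hA.xJ φ true J t)⁻¹ * (b.hA.xJ φ false J (-t⁻¹))⁻¹ := by
        rw [e1]; group
      have hxJ : b.hA.xJ φ true J t ∈ D.posUnipotent K := Umin_le_pos b.hA _ hu
      have h1 : g * b.hA.xJ φ false J (-t⁻¹) ∈ D.borelSubgroup K := by
        have e3 : g * b.hA.xJ φ false J (-t⁻¹) =
            x * (b.hA.nJ φ J 1 * b.hA.nJ φ J t) * (b.hA.xJ φ true J t)⁻¹ := by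
          rw [e, AddFact.nJ_one]
          conv_lhs => rw [e2]
          group
        rw [e3]
        exact mul_mem (mul_mem hx (AddFact.diag_le_borel (C.nJ_mul_nJ_mem_diag hJ one_ne_zero ht0)))
          (inv_mem (AddFact.pos_le_borel hxJ))
      have hxm : ∀ s, b.hA.xJ φ false J s ∈ D.negUnipotent K := by
        intro s
        rw [xJ_eq_W]
        apply W_mem_neg'
        intro p hp
        have : p.1 ∈ (pJ D φ false J s).map Prod.fst := List.mem_map_of_mem hp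
        rw [pJ_fst] at this
        obtain ⟨i, hi, e⟩ := List.mem_map.1 this
        rw [← e]
        exact b.hR.neg_of_pos (b.hR.simple_pos (hw i hi))
      have h2 := hBV _ h1 (mul_mem hV (hxm _))
      refine ⟨t⁻¹, by rw [map_inv₀, ht], ?_⟩
      rw [eq_inv_of_mul_eq_one_left h2, b.hA.xJ_inv φ hO, neg_neg]

/-- `X_{-J} ⊆ B¹ ∪ B¹ n_J B¹` -/
theorem xJ_neg_mem_par {J : List ℕ} (hJ : J ∈ O) {s : K} (hs : (φ ^ J.length) s = s) :
    b.hA.xJ φ false J s ∈ D.borelSubgroup K ∨ ∃ x ∈ D.borelSubgroup K, x ∈ G1 ∧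
      ∃ y ∈ D.borelSubgroup K, y ∈ G1 ∧ b.hA.xJ φ false J s = x * b.hA.nword J * y := by
  have hw := C.rank hJ
  have hO := C.orth J hJ
  by_cases hs0 : s = 0
  · left; rw [hs0, AddFact.xJ_zero]; exact one_mem _
  · right
    set t := -s⁻¹ with ht
    have ht0 : t ≠ 0 := neg_ne_zero.2 (inv_ne_zero hs0)
    have htS : (φ ^ J.length) t = t := by rw [ht, map_neg, map_inv₀, hs]
    have hts : -t⁻¹ = s := by rw [ht, inv_neg, inv_inv, neg_neg]
    have hxp : ∀ s, b.hA.xJ φ true J s ∈ D.borelSubgroup K := by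
      intro s
      apply AddFact.pos_le_borel
      rw [xJ_eq_W]
      apply W_mem_pos'
      intro p hp
      have : p.1 ∈ (pJ D φ true J s).map Prod.fst := List.mem_map_of_mem hp
      rw [pJ_fst] at this
      obtain ⟨i, hi, e⟩ := List.mem_map.1 this
      rw [← e]
      exact b.hR.simple_pos (hw i hi)
    have e1 := b.hA.nJ_eq φ hO t
    rw [hts] at e1
    have hH : b.hA.hJ φ J t ∈ D.diagonalSubgroup K := by
      rw [b.hA.hJ_eq φ hO]
      exact C.nJ_mul_nJ_mem_diag hJ ht0 (neg_ne_zero.2 one_ne_zero)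
    refine ⟨(b.hA.xJ φ true J t)⁻¹ * b.hA.hJ φ J t,
      mul_mem (inv_mem (hxp _)) (AddFact.diag_le_borel hH),
      mul_mem (inv_mem (C.xJ_mem hJ true htS)) (C.hJ_mem hJ htS), (b.hA.xJ φ true J t)⁻¹,
      inv_mem (hxp _), inv_mem (C.xJ_mem hJ true htS), ?_⟩
    have e2 : b.hA.nJ φ J (-1) = (b.hA.nJ φ J 1)⁻¹ := (nJ_inv b.hA φ hO 1).symm
    rw [b.hA.hJ_eq φ hO, e2, ← AddFact.nJ_one b.hA φ, e1]
    group

end TwC

end Cfsg.Agent.Lib.Helper23.TwAut
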