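import Cfsg.Agent.Lib.Helper22.OF4Defs
import Cfsg.Agent.Lib.Helper23.TwAutX

/-! `n_a B¹ ⊆ B¹ n_a X_a`, `n_b B¹ ⊆ B¹ n_b X_b` in the large Ree groups -/

set_option autoImplicit false
set_option maxRecDepth 100000

namespace Cfsg.Agent.Lib.Helper22.OF4
open Cfsg.Lie Matrix Cfsg.Agent.Lib.Helper22 Cfsg.Agent.Lib.Helper23 Cfsg.Agent.Lib.Helper45
open Cfsg.Agent.Lib.Helper45.AutAbs Cfsg.Agent.Lib.Helper23.TwAut

/-- elements of `U_n⁻` are products along the roots made negative by `n` -/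
theorem umin_mem_XL {D : ChevalleyDatum} {K : Type*} [Field K]
    (hD : D ∈ [chevG2, chevB2, chevD4, chevF4, chevE6, chevE7, chevE8]) (b : Bundle D K)
    {v : List ℕ} (hw : ∀ i ∈ v, i < D.rank) {β : List ℕ} (hβnd : β.Nodup)
    (hβpos : ∀ a ∈ β, D.IsPosRoot a) (hflip : ∀ a ∈ β, D.IsNegRoot (wact D v a))
    (hstay : ∀ a, D.IsPosRoot a → a ∉ β → D.IsPosRoot (wact D v a)) {u : GL D.Idx K}
    (hu : u ∈ Umin D K (b.hA.nword v)) : ∃ τ : ℕ → K, u = b.hA.W (wL β τ) := by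
  classical
  have P := bruhatPack_of_mem K hD
  have hact := acts_nword b hw
  set n := b.hA.nword v with hn
  set R := D.posRoots.filter (fun a => a ∉ β) with hR
  have hnd : (β ++ R).Nodup := by
    rw [List.nodup_append]
    refine ⟨hβnd, (posRoots_nodup D).filter _, ?_⟩
    intro a ha a' ha' e
    rw [hR, List.mem_filter] at ha'
    subst e
    simpa [ha] using ha'.2
  have hall : ∀ a, a ∈ β ++ R ↔ D.IsPosRoot a := by
    intro a
    rw [List.mem_append, hR, List.mem_filter, mem_posRoots]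
    constructor
    · rintro (h | h)
      · exact hβpos a h
      · exact h.1
    · intro h
      by_cases ha : a ∈ β
      · exact Or.inl ha
      · exact Or.inr ⟨h, by simpa using ha⟩
  obtain ⟨τ, rfl⟩ := exists_factor b.hA P.hC hnd hall (Umin_le_pos b.hA _ hu)
  have hV := conj_Umin_le_neg b.hA _ hu
  rw [wL_append, AddFact.W_append] at hV ⊢
  set u1 := b.hA.W (wL β τ) with hu1def
  set u2 := b.hA.W (wL R τ) with hu2def
  have h1 : n * u1 * n⁻¹ ∈ D.negUnipotent K := by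
    obtain ⟨w', e1, e2⟩ := conj_W_acts b hact (wL β τ) (by
      intro p hp
      obtain ⟨a, ha, rfl⟩ := List.mem_map.1 hp
      exact (hβpos a ha).1)
    rw [hu1def, e2]
    apply W_mem_neg'
    intro p hp
    have : p.1 ∈ w'.map Prod.fst := List.mem_map_of_mem hp
    rw [e1] at this
    obtain ⟨a, ha, e⟩ := List.mem_map.1 this
    have ha' : a ∈ β := by
      obtain ⟨q, hq, rfl⟩ := List.mem_map.1 ha
      obtain ⟨a', ha', rfl⟩ := List.mem_map.1 hq
      exact ha'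
    rw [← e]
    exact hflip a ha'
  have h2 : n * u2 * n⁻¹ ∈ D.posUnipotent K := by
    have hRpos : ∀ a ∈ R, D.IsPosRoot a ∧ a ∉ β := by
      intro a ha
      rw [hR, List.mem_filter, mem_posRoots] at ha
      exact ⟨ha.1, by simpa using ha.2⟩
    obtain ⟨w', e1, e2⟩ := conj_W_acts b hact (wL R τ) (by
      intro p hp
      obtain ⟨a, ha, rfl⟩ := List.mem_map.1 hp
      exact (hRpos a ha).1.1)
    rw [hu2def, e2]
    apply W_mem_pos'
    intro p hp
    have : p.1 ∈ w'.map Prod.fst := List.mem_map_of_mem hp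
    rw [e1] at this
    obtain ⟨a, ha, e⟩ := List.mem_map.1 this
    have ha' : a ∈ R := by
      obtain ⟨q, hq, rfl⟩ := List.mem_map.1 ha
      obtain ⟨a', ha', rfl⟩ := List.mem_map.1 hq
      exact ha'
    rw [← e]
    exact hstay a (hRpos a ha').1 (hRpos a ha').2
  have h3 : n * u2 * n⁻¹ ∈ D.negUnipotent K := by
    have e : n * u2 * n⁻¹ = (n * u1 * n⁻¹)⁻¹ * (n * (u1 * u2) * n⁻¹) := by group
    rw [e]
    exact mul_mem (inv_mem h1) hV
  have h4 : u2 = 1 := by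
    have := UV_inf b h2 h3
    have e : u2 = n⁻¹ * (n * u2 * n⁻¹) * n := by group
    rw [e, this]; group
  exact ⟨τ, by rw [h4, mul_one]⟩

variable {K : Type*} [Field K] [CharP K 2] [Fintype K] {m : ℕ} (hK : Fintype.card K = 2 ^ (2 * m + 1))
  (b : Bundle chevF4 K) (α : ↥(chevF4.group K) ≃* ↥(chevF4.group K))
  (hα : ∀ r < 48, ∀ t : K,
    (α ⟨b.hA.X r t, b.hA.X_mem_group r t⟩ : GL chevF4.Idx K) = b.hA.X (isoRhoF4 r) (t ^ isoLamF4 r))

include hK hα in
/-- [NDC] -/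
theorem f4_na_dc (x : ↥(twistedF4 K (2 ^ m))) (hx : x ∈ BB K m) :
    ∃ b' ∈ BB K m, ∃ t u, na b.hA m * x = b' * na b.hA m * xa b.hA m t u := by
  have hw : ∀ i ∈ [1, 2, 1, 2], i < chevF4.rank := by decide +kernel
  have hnN : b.hA.nword [1, 2, 1, 2] ∈ chevF4.monomialSubgroup K := b.hA.nword_mem_mono b.hR hw
  obtain ⟨y, hy, hy1, u, hu, hu1, e⟩ := (f4_fixBN hK b α hα).key (sharpBN_of_mem K memF4)
    (g := b.hA.nword [1, 2, 1, 2] * (x : GL chevF4.Idx K)) (mul_mem (f4_n2_mem b.hA m) x.2) hnN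
    (f4_n2_mem b.hA m) ⟨1, one_mem _, x, mem_sT.1 hx, by rw [one_mul]⟩
  obtain ⟨τ, hτ⟩ := umin_mem_XL memF4 b hw (β := [27, 25, 28, 30]) (by decide)
    (by decide +kernel) (by decide +kernel) (by
      have : ∀ a ∈ f4Blocks.flatten, a ∉ [27, 25, 28, 30] →
          chevF4.IsPosRoot (wact chevF4 [1, 2, 1, 2] a) := by decide +kernel
      exact fun a ha => this a ((f4Blocks_all a).2 ha)) hu
  have hXL : u ∈ XL b [27, 25, 28, 30] := (mem_XL_iff b (by decide)).2 ⟨τ, hτ⟩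
  obtain ⟨t, s, hts⟩ := (mem_FixL2 hK b α hα).1 ⟨hXL, (f4_G1_fix hK b α hα hu1).2⟩
  refine ⟨⟨y, hy1⟩, mem_sT.2 hy, t, s, ?_⟩
  apply Subtype.ext
  change b.hA.nword [1, 2, 1, 2] * (x : GL chevF4.Idx K) = y * b.hA.nword [1, 2, 1, 2] * _
  rw [e, hts]
  rfl

include hK hα in
/-- [NDC] (second half) -/
theorem f4_nb_dc (x : ↥(twistedF4 K (2 ^ m))) (hx : x ∈ BB K m) :
    ∃ b' ∈ BB K m, ∃ t, nb b.hA m * x = b' * nb b.hA m * xb b.hA m t := by
  have hw : ∀ i ∈ [0, 3], i < chevF4.rank := by decide +kernel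
  have hnN : b.hA.nword [0, 3] ∈ chevF4.monomialSubgroup K := b.hA.nword_mem_mono b.hR hw
  obtain ⟨y, hy, hy1, u, hu, hu1, e⟩ := (f4_fixBN hK b α hα).key (sharpBN_of_mem K memF4)
    (g := b.hA.nword [0, 3] * (x : GL chevF4.Idx K)) (mul_mem (f4_n1_mem b.hA m) x.2) hnN
    (f4_n1_mem b.hA m) ⟨1, one_mem _, x, mem_sT.1 hx, by rw [one_mul]⟩
  obtain ⟨τ, hτ⟩ := umin_mem_XL memF4 b hw (β := [33, 24]) (by decide)
    (by decide +kernel) (by decide +kernel) (by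
      have : ∀ a ∈ f4Blocks.flatten, a ∉ [33, 24] →
          chevF4.IsPosRoot (wact chevF4 [0, 3] a) := by decide +kernel
      exact fun a ha => this a ((f4Blocks_all a).2 ha)) hu
  have hXL : u ∈ XL b [33, 24] := (mem_XL_iff b (by decide)).2 ⟨τ, hτ⟩
  obtain ⟨t, hts⟩ := (mem_FixL1 hK b α hα).1 ⟨hXL, (f4_G1_fix hK b α hα hu1).2⟩
  refine ⟨⟨y, hy1⟩, mem_sT.2 hy, t, ?_⟩
  apply Subtype.ext
  change b.hA.nword [0, 3] * (x : GL chevF4.Idx K) = y * b.hA.nword [0, 3] * _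
  rw [e, hts]
  rfl

end Cfsg.Agent.Lib.Helper22.OF4
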