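import Cfsg.Agent.S0914
import Cfsg.Agent.Lib.Helper82.Codegree

/-! a character whose degree is divisible by `|G|_p` forms a block of defect zero -/

set_option autoImplicit false

namespace Cfsg.Agent.Lib.Helper23.SDC

open Cfsg

theorem dz_of_dvd {G : Type*} [Group G] [Finite G] (p : ℕ) [Fact p.Prime]
    (M : Ideal AlgInt) (hM : IsPModular p M) (χ : IrrCharacter G)
    (h : p ^ (Nat.card G).factorization p ∣ charDegree (χ : G → ℂ)) :
    IsPBlock M ({χ} : Set (IrrCharacter G)) ∧ blockDefect p ({χ} : Set (IrrCharacter G)) = 0 := by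
  have hp : p.Prime := Fact.out
  have hcard : Nat.card G ≠ 0 := Nat.card_pos.ne'
  obtain ⟨e, he⟩ := Cfsg.Agent.Lib.Helper82.isIrr_charDegree_dvd_card χ.2
  have hd0 : charDegree (χ : G → ℂ) ≠ 0 := by
    intro h0
    rw [h0, zero_mul] at he
    exact hcard he
  have h1 : blockOf M (χ : G → ℂ) = {χ} := by
    rw [← Cfsg.Agent.S0914.result p M hM χ, he, Nat.mul_div_cancel_left _ (Nat.pos_of_ne_zero hd0)]
    intro hpe
    have h2 : p ^ ((Nat.card G).factorization p + 1) ∣ Nat.card G := by
      rw [pow_succ]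
      conv_rhs => rw [he]
      exact Nat.mul_dvd_mul h hpe
    exact Nat.pow_succ_factorization_not_dvd hcard hp h2
  refine ⟨⟨χ, h1.symm⟩, ?_⟩
  unfold blockDefect
  rw [Set.image_singleton, csInf_singleton]
  exact Nat.sub_eq_zero_of_le ((hp.pow_dvd_iff_le_factorization hd0).1 h)

end Cfsg.Agent.Lib.Helper23.SDC
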