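import Cfsg.Agent.Lib.Helper45.AutOut1
import Cfsg.Agent.Lib.Helper85.St2Gen
import Cfsg.Agent.S1032
import Cfsg.Agent.S1033

/-!
# The rank one relations in a Chevalley group, for every root
-/

set_option autoImplicit false

namespace Cfsg.Agent.Lib.Helper23.StP

open Cfsg.Lie Matrix Cfsg.Agent.Lib.Helper23 Cfsg.Agent.Lib.Helper22 Cfsg.Agent.Lib.Helper45
open Cfsg.Agent.Lib.Helper85

/-- the sign in `n x(t) n⁻¹ = y(ε t)` is `-1` -/
theorem sign_eq {K G : Type*} [Field K] [Group G] (x y : K → G) (hx : ∀ t u, x (t + u) = x t * x u)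
    (hy : ∀ t u, y (t + u) = y t * y u) (ε : K) (hε : ε = 1 ∨ ε = -1)
    (h1 : ∀ t, (x 1 * y (-1) * x 1) * x t * (x 1 * y (-1) * x 1)⁻¹ = y (ε * t))
    (h2 : ∀ t, (x 1 * y (-1) * x 1) * y t * (x 1 * y (-1) * x 1)⁻¹ = x (ε * t))
    (hxy : ∀ a b, x a = y b → a = 0) : ε = -1 := by
  rcases hε with rfl | rfl
  · have y0 : y 0 = 1 := by
      have := hy 0 0
      rw [add_zero] at this
      exact (mul_eq_left.1 this.symm)
    have yn : y (-1) = (y 1)⁻¹ := by
      rw [eq_inv_iff_mul_eq_one, ← hy, neg_add_cancel, y0]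
    have H1 := h1 1
    have H2 := h2 1
    rw [yn, one_mul] at H1 H2
    set a := x 1
    set b := y 1
    have g1 := mul_inv_eq_iff_eq_mul.1 H1
    have g2 := mul_inv_eq_iff_eq_mul.1 H2
    have E1 : a * b⁻¹ * a = b * a * b⁻¹ := by
      apply mul_right_cancel (b := a)
      rw [g1]; group
    have E3 : b * a = a * a * b⁻¹ * a := by
      calc b * a = (b * a * b⁻¹) * b := by group
        _ = (a * b⁻¹ * a) * b := by rw [E1]
        _ = a * (a * b⁻¹ * a) := g2
        _ = _ := by group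
    have h3 : b = a * a * b⁻¹ := mul_right_cancel E3
    have E2 : a * a = b * b := by
      calc a * a = a * a * b⁻¹ * b := by group
        _ = b * b := by rw [← h3]
    have : x (1 + 1) = y (1 + 1) := by rw [hx, hy]; exact E2
    have h0 := hxy _ _ this
    exact eq_neg_of_add_eq_zero_left h0
  · rfl

theorem cartan_self {D : ChevalleyDatum}
    (hD : D ∈ [chevG2, chevB2, chevD4, chevF4, chevE6, chevE7, chevE8]) :
    ∀ i < D.rank, D.cartan i (D.simple i) = 2 ∧ D.cartan i (D.neg (D.simple i)) = -2 := by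
  simp only [List.mem_cons, List.not_mem_nil, or_false] at hD
  rcases hD with rfl | rfl | rfl | rfl | rfl | rfl | rfl <;> decide +kernel

variable {D : ChevalleyDatum} {F : Type*} [Field F]

theorem X_ne_neg (hD : D ∈ [chevG2, chevB2, chevD4, chevF4, chevE6, chevE7, chevE8]) (hA : AddFact D F)
    {r : ℕ} (hr : r < D.nroots) (a c : F) (h : hA.X r a = hA.X (D.neg r) c) : a = 0 := by
  have b := bundle_of_mem F hD
  by_contra ha
  have e := X_eq_X hD hA hr (b.hR.neg_lt hr) ha h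
  rcases b.hR.pos_or_neg hr with hp | hn
  · exact (b.hR.negF r hr).2.2.2.1 ⟨hp, e ▸ b.hR.neg_of_pos hp⟩
  · exact (b.hR.negF r hr).2.2.2.1 ⟨e ▸ b.hR.pos_of_neg hn, hn⟩

/-- `n_p x_p(t) n_p⁻¹ = x_{-p}(-t)` -/
theorem nn_conj_simple (hD : D ∈ [chevG2, chevB2, chevD4, chevF4, chevE6, chevE7, chevE8])
    (hA : AddFact D F) {i : ℕ} (hi : i < D.rank) (t : F) :
    hA.nn i * hA.X (D.simple i) t * (hA.nn i)⁻¹ = hA.X (D.neg (D.simple i)) (-t) := by
  have b := bundle_of_mem F hD
  obtain ⟨ε, e1, e2, e3⟩ := hA.nn_conj b.hR b.hN hi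
  have hp := b.hR.simple_lt hi
  have hnp := b.hR.neg_lt hp
  have r1 : D.reflectRoot i (D.simple i) = D.neg (D.simple i) := RootFacts.refl_simple i
  have r2 : D.reflectRoot i (D.neg (D.simple i)) = D.simple i := by
    rw [b.hR.refl_neg hi hp, r1, b.hR.neg_neg hp]
  have hs : ε (D.simple i) = -1 := by
    apply sign_eq (hA.X (D.simple i)) (hA.X (D.neg (D.simple i))) (hA.X_add _) (hA.X_add _) _ (e1 _ hp)
    · intro t
      have := e3 _ hp t
      rw [r1] at this
      simpa [AddFact.nn, AddFact.nG] using this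
    · intro t
      have := e3 _ hnp t
      rw [r2, e2 _ hp] at this
      simpa [AddFact.nn, AddFact.nG] using this
    · exact fun a c h => X_ne_neg hD hA hp a c h
  rw [e3 _ hp, r1, hs, neg_one_mul]

theorem hG_conj (hD : D ∈ [chevG2, chevB2, chevD4, chevF4, chevE6, chevE7, chevE8])
    (hA : AddFact D F) {i s : ℕ} (hi : i < D.rank) (hs : s < D.nroots) {c : F} (hc : c ≠ 0) (t : F) :
    hA.hG (D.simple i) c * hA.X s t * (hA.hG (D.simple i) c)⁻¹ = hA.X s (c ^ (D.cartan i s) * t) := by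
  rw [mul_inv_eq_iff_eq_mul]
  apply Units.ext
  simp only [Units.val_mul, AddFact.coe_X, AddFact.coe_hG]
  exact Cfsg.Agent.S1032.result D hD i s hi hs c hc t

/-- the rank one relation for a fundamental root -/
theorem rel_simple (hD : D ∈ [chevG2, chevB2, chevD4, chevF4, chevE6, chevE7, chevE8])
    (hA : AddFact D F) {i : ℕ} (hi : i < D.rank) {t : F} (ht : t ≠ 0) (u : F) :
    hA.nG (D.simple i) t * hA.X (D.simple i) u * (hA.nG (D.simple i) t)⁻¹ =
      hA.X (D.neg (D.simple i)) (-(t⁻¹ ^ 2 * u)) := by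
  have b := bundle_of_mem F hD
  have hp := b.hR.simple_lt hi
  rw [AddFact.nG_eq_hG_mul]
  have e : hA.hG (D.simple i) t * hA.nG (D.simple i) 1 * hA.X (D.simple i) u *
      (hA.hG (D.simple i) t * hA.nG (D.simple i) 1)⁻¹ =
      hA.hG (D.simple i) t * (hA.nn i * hA.X (D.simple i) u * (hA.nn i)⁻¹) * (hA.hG (D.simple i) t)⁻¹ := by
    simp only [AddFact.nn]; group
  rw [e, nn_conj_simple hD hA hi, hG_conj hD hA hi (b.hR.neg_lt hp) ht, (cartan_self hD i hi).2]
  congr 1
  have e3 : t ^ (-2 : ℤ) = t⁻¹ ^ 2 := by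
    rw [_root_.zpow_neg, inv_pow]; norm_cast
  rw [e3]
  ring

theorem hmul_simple (hD : D ∈ [chevG2, chevB2, chevD4, chevF4, chevE6, chevE7, chevE8])
    (hA : AddFact D F) {i : ℕ} (hi : i < D.rank) {t u : F} (ht : t ≠ 0) (hu : u ≠ 0) :
    hA.hG (D.simple i) t * hA.hG (D.simple i) u = hA.hG (D.simple i) (t * u) := by
  apply Units.ext
  simp only [Units.val_mul, AddFact.coe_hG]
  rw [Cfsg.Agent.S1033.result D hD i hi t ht, Cfsg.Agent.S1033.result D hD i hi u hu,
    Cfsg.Agent.S1033.result D hD i hi (t * u) (mul_ne_zero ht hu), Matrix.diagonal_mul_diagonal]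
  congr 1
  funext k
  rcases k with k | k
  · simp
  · simp [mul_zpow]

/-- the rank one datum of a fundamental root -/
def st2Simple (hD : D ∈ [chevG2, chevB2, chevD4, chevF4, chevE6, chevE7, chevE8])
    (hA : AddFact D F) {i : ℕ} (hi : i < D.rank) : St2 F (GL D.Idx F) where
  x := hA.X (D.simple i)
  y := hA.X (D.neg (D.simple i))
  x_add t u := (hA.X_add _ t u).symm
  y_add t u := (hA.X_add _ t u).symm
  rel t u ht := rel_simple hD hA hi ht u

theorem st2Simple_hmul (hD : D ∈ [chevG2, chevB2, chevD4, chevF4, chevE6, chevE7, chevE8])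
    (hA : AddFact D F) {i : ℕ} (hi : i < D.rank) : (st2Simple hD hA hi).HMul :=
  fun _ _ ht hu => hmul_simple hD hA hi ht hu

/-- `w(-t) w(1) = h(t)` -/
theorem St2_w_neg_mul {K G : Type*} [Field K] [Group G] (S : St2 K G) (hm : S.HMul) {t : K} (ht : t ≠ 0) :
    S.w (-t) * S.w 1 = S.h t := by
  have h1 : S.w (-t) * S.w 1 = S.h (-t) * (S.w 1 * S.w 1) := by
    have : S.w (-1) = (S.w 1)⁻¹ := S.w_neg 1
    simp only [St2.h, this]; group
  rw [h1, St2.w_sq' hm, hm _ _ (neg_ne_zero.2 ht) (neg_ne_zero.2 one_ne_zero)]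
  congr 1
  ring

/-- the rank one relation for every root -/
theorem rel_root (hD : D ∈ [chevG2, chevB2, chevD4, chevF4, chevE6, chevE7, chevE8])
    (hA : AddFact D F) {r : ℕ} (hr : r < D.nroots) {t : F} (ht : t ≠ 0) (u : F) :
    hA.nG r t * hA.X r u * (hA.nG r t)⁻¹ = hA.X (D.neg r) (-(t⁻¹ ^ 2 * u)) := by
  have b := bundle_of_mem F hD
  obtain ⟨w, j, hw, hj, rfl⟩ := b.hR.exists_word r hr
  have hp := b.hR.simple_lt hj
  obtain ⟨ε, hε, c1, c2⟩ := hA.nword_conj b.hR b.hN hw hp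
  have hεε : ε * ε = 1 := by rcases hε with rfl | rfl <;> simp
  have hε0 : ε ≠ 0 := by rcases hε with rfl | rfl <;> simp
  have x1 : ∀ v, hA.X (wact D w (D.simple j)) v =
      hA.nword w * hA.X (D.simple j) (ε * v) * (hA.nword w)⁻¹ := by
    intro v; rw [c1, ← mul_assoc, hεε, one_mul]
  have x2 : ∀ v, hA.X (D.neg (wact D w (D.simple j))) v =
      hA.nword w * hA.X (D.neg (D.simple j)) (ε * v) * (hA.nword w)⁻¹ := by
    intro v; rw [c2, ← mul_assoc, hεε, one_mul]
  have n1 : hA.nG (wact D w (D.simple j)) t =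
      hA.nword w * hA.nG (D.simple j) (ε * t) * (hA.nword w)⁻¹ := by
    have e : ε * -t⁻¹ = -(ε * t)⁻¹ := by
      rcases hε with rfl | rfl <;> simp [inv_neg]
    simp only [AddFact.nG, x1, x2, e]; group
  rw [n1, x1, x2]
  have := rel_simple hD hA hj (mul_ne_zero hε0 ht) (ε * u)
  have e2 : -((ε * t)⁻¹ ^ 2 * (ε * u)) = ε * -(t⁻¹ ^ 2 * u) := by
    rcases hε with rfl | rfl <;> simp [inv_neg]
  rw [e2] at this
  rw [← this]; group

theorem hmul_root (hD : D ∈ [chevG2, chevB2, chevD4, chevF4, chevE6, chevE7, chevE8])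
    (hA : AddFact D F) {r : ℕ} (hr : r < D.nroots) {t u : F} (ht : t ≠ 0) (hu : u ≠ 0) :
    hA.hG r t * hA.hG r u = hA.hG r (t * u) := by
  have b := bundle_of_mem F hD
  obtain ⟨w, j, hw, hj, rfl⟩ := b.hR.exists_word r hr
  have hp := b.hR.simple_lt hj
  obtain ⟨ε, hε, c1⟩ := hA.nword_conj_nG b.hR b.hN hw hp
  have hεε : ε * ε = 1 := by rcases hε with rfl | rfl <;> simp
  have n1 : ∀ v, hA.nG (wact D w (D.simple j)) v =
      hA.nword w * hA.nG (D.simple j) (ε * v) * (hA.nword w)⁻¹ := by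
    intro v; rw [c1, ← mul_assoc, hεε, one_mul]
  have key : ∀ v, v ≠ 0 → hA.hG (wact D w (D.simple j)) v =
      hA.nword w * hA.hG (D.simple j) v * (hA.nword w)⁻¹ := by
    intro v hv
    have e0 : hA.hG (wact D w (D.simple j)) v = hA.nword w *
        (hA.nG (D.simple j) (ε * v) * hA.nG (D.simple j) (ε * -1)) * (hA.nword w)⁻¹ := by
      simp only [AddFact.hG, n1]; group
    rw [e0]
    congr 2
    rcases hε with rfl | rfl
    · simp [AddFact.hG]
    · have := St2_w_neg_mul (st2Simple hD hA hj) (st2Simple_hmul hD hA hj) hv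
      simpa [St2.w, St2.h, st2Simple, AddFact.nG, AddFact.hG] using this
  rw [key t ht, key u hu, key _ (mul_ne_zero ht hu), ← hmul_simple hD hA hj ht hu]
  group

/-- the rank one datum of a root -/
def st2Root (hD : D ∈ [chevG2, chevB2, chevD4, chevF4, chevE6, chevE7, chevE8])
    (hA : AddFact D F) {r : ℕ} (hr : r < D.nroots) : St2 F (GL D.Idx F) where
  x := hA.X r
  y := hA.X (D.neg r)
  x_add t u := (hA.X_add _ t u).symm
  y_add t u := (hA.X_add _ t u).symm
  rel t u ht := rel_root hD hA hr ht u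

theorem st2Root_hmul (hD : D ∈ [chevG2, chevB2, chevD4, chevF4, chevE6, chevE7, chevE8])
    (hA : AddFact D F) {r : ℕ} (hr : r < D.nroots) : (st2Root hD hA hr).HMul :=
  fun _ _ ht hu => hmul_root hD hA hr ht hu

end Cfsg.Agent.Lib.Helper23.StP
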