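import Cfsg.Agent.Lib.Helper78.DFZ.Defs
import Cfsg.Agent.Lib.Helper85.St2Lift
import Cfsg.Agent.Lib.Helper23.StRank1
import Cfsg.Agent.Lib.Helper23.TwAutSub
import Cfsg.Agent.Lib.Helper45.AutChev2

/-! the split datum `SD` of the Chevalley groups: definitions (ladder SDC, target S2318) -/

set_option autoImplicit false

namespace Cfsg.Agent.Lib.Helper23.SDC
open Cfsg.Lie Matrix Cfsg.Agent.Lib.Helper22 Cfsg.Agent.Lib.Helper23 Cfsg.Agent.Lib.Helper45
open Cfsg.Agent.Lib.Helper85 Cfsg.Agent.Lib.Helper78.DFZ Cfsg.Agent.Lib.Helper23.TwAut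

variable {D : ChevalleyDatum} {F : Type*} [Field F]

/-- the subgroup generated by the root subgroups `X_r`, `r ∈ A` -/
def RS (hA : AddFact D F) (A : ℕ → Prop) : Subgroup (GL D.Idx F) :=
  Subgroup.closure {g | ∃ r t, A r ∧ g = hA.X r t}

/-- `U_s` : positive roots other than the simple root `s` -/
def UsG (hA : AddFact D F) (s : ℕ) : Subgroup (GL D.Idx F) :=
  RS hA fun r => D.IsPosRoot r ∧ r ≠ D.simple s

/-- `U_s⁻` : negative roots other than minus the simple root `s` -/
def UmsG (hA : AddFact D F) (s : ℕ) : Subgroup (GL D.Idx F) :=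
  RS hA fun r => D.IsNegRoot r ∧ r ≠ D.neg (D.simple s)

/-- the rank one datum of a root, in the group -/
def st2G (hD : D ∈ [chevG2, chevB2, chevD4, chevF4, chevE6, chevE7, chevE8]) (hA : AddFact D F)
    {r : ℕ} (hr : r < D.nroots) : St2 F ↥(D.group F) where
  x t := ⟨hA.X r t, hA.X_mem_group r t⟩
  y t := ⟨hA.X (D.neg r) t, hA.X_mem_group _ t⟩
  x_add t u := Subtype.ext (hA.X_add r t u).symm
  y_add t u := Subtype.ext (hA.X_add _ t u).symm
  rel t u ht := Subtype.ext (StP.rel_root hD hA hr ht u)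

variable [Finite F] (hD : D ∈ [chevG2, chevB2, chevD4, chevF4, chevE6, chevE7, chevE8]) (b : Bundle D F)

/-- the root `SL₂` of the simple root `s` -/
noncomputable def phi (s : Fin D.rank) : SL2 F →* ↥(D.group F) :=
  (st2G hD b.hA (b.hR.simple_lt s.2)).exists_hom.choose

theorem phi_up (s : Fin D.rank) (c : F) : ((phi hD b s (up c) : ↥(D.group F)) : GL D.Idx F) = b.hA.X (D.simple s) c :=
  congrArg Subtype.val ((st2G hD b.hA (b.hR.simple_lt s.2)).exists_hom.choose_spec.1 c)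

theorem phi_lo (s : Fin D.rank) (c : F) :
    ((phi hD b s (lo c) : ↥(D.group F)) : GL D.Idx F) = b.hA.X (D.neg (D.simple s)) c :=
  congrArg Subtype.val ((st2G hD b.hA (b.hR.simple_lt s.2)).exists_hom.choose_spec.2 c)

/-- the longest word -/
noncomputable def w0 : List ℕ := b.hL.choose

omit [Finite F] in
theorem w0_rank : ∀ i ∈ w0 b, i < D.rank := b.hL.choose_spec.1

omit [Finite F] in
theorem w0_neg : ∀ r, D.IsPosRoot r → D.IsNegRoot (wact D (w0 b) r) := fun r hr => b.hL.choose_spec.2 r hr.1 hr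

/-- `n₀` -/
noncomputable def n0 : ↥(D.group F) :=
  ⟨b.hA.nword (w0 b), b.hA.mono_le_group (b.hA.nword_mem_mono b.hR (w0_rank b))⟩

/-- `U`, `U⁻` -/
def UU (D : ChevalleyDatum) (F : Type*) [Field F] : Subgroup ↥(D.group F) := sT (D.group F) (D.posUnipotent F)
def VV (D : ChevalleyDatum) (F : Type*) [Field F] : Subgroup ↥(D.group F) := sT (D.group F) (D.negUnipotent F)

/-- `T` -/
def TT : Subgroup ↥(D.group F) :=
  Subgroup.closure {g | ∃ (s : Fin D.rank) (c : Fˣ), g = phi hD b s (Cfsg.Agent.Lib.Helper78.DFZ.dg c)}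

end Cfsg.Agent.Lib.Helper23.SDC
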