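import Cfsg.Agent.Lib.Helper23.SDCNRM

/-! ladder SDC, rung FACT -/

set_option autoImplicit false

namespace Cfsg.Agent.Lib.Helper23.SDC
open Cfsg.Lie Matrix Cfsg.Agent.Lib.Helper22 Cfsg.Agent.Lib.Helper23 Cfsg.Agent.Lib.Helper45
open Cfsg.Agent.Lib.Helper85 Cfsg.Agent.Lib.Helper78.DFZ Cfsg.Agent.Lib.Helper23.TwAut

variable {D : ChevalleyDatum} {F : Type*} [Field F]
  (hD : D ∈ [chevG2, chevB2, chevD4, chevF4, chevE6, chevE7, chevE8]) (b : Bundle D F)

theorem UsG_le (s : ℕ) : UsG b.hA s ≤ D.posUnipotent F := by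
  unfold UsG RS
  rw [Subgroup.closure_le]
  rintro _ ⟨r, t, hr, rfl⟩
  exact b.hA.X_mem_pos hr.1 _

theorem UmsG_le (s : ℕ) : UmsG b.hA s ≤ D.negUnipotent F := by
  unfold UmsG RS
  rw [Subgroup.closure_le]
  rintro _ ⟨r, t, hr, rfl⟩
  exact b.hA.X_mem_neg hr.1 _

include hD in
/-- splitting off one positive root, on either side -/
theorem split_pos {a : ℕ} (ha : D.IsPosRoot a) : ∀ u ∈ D.posUnipotent F,
    (∃ c, ∃ u' ∈ RS b.hA (fun r => D.IsPosRoot r ∧ r ≠ a), u = b.hA.X a c * u') ∧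
    (∃ c, ∃ u' ∈ RS b.hA (fun r => D.IsPosRoot r ∧ r ≠ a), u = u' * b.hA.X a c) := by
  classical
  intro u hu
  set R := D.posRoots.filter (fun r => r ≠ a) with hR
  have hRm : ∀ r, r ∈ R ↔ D.IsPosRoot r ∧ r ≠ a := by
    intro r
    rw [hR, List.mem_filter, mem_posRoots]
    simp
  have hRnd : R.Nodup := (posRoots_nodup D).filter _
  have hW : ∀ τ : ℕ → F, b.hA.W (wL R τ) ∈ RS b.hA (fun r => D.IsPosRoot r ∧ r ≠ a) := by
    intro τ
    apply W_mem_RS b
    intro p hp
    obtain ⟨r, hr, rfl⟩ := List.mem_map.1 hp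
    exact (hRm r).1 hr
  constructor
  · obtain ⟨τ, e⟩ := exists_factor b.hA (uComm_of_mem F hD) (L := a :: R)
      (List.nodup_cons.2 ⟨fun h => ((hRm a).1 h).2 rfl, hRnd⟩) (fun r => by
        rw [List.mem_cons, hRm]
        constructor
        · rintro (rfl | h)
          · exact ha
          · exact h.1
        · intro h
          by_cases e : r = a
          · exact Or.inl e
          · exact Or.inr ⟨h, e⟩) hu
    refine ⟨τ a, _, hW τ, ?_⟩
    rw [e, wL_cons]
    simp [AddFact.W]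
  · obtain ⟨τ, e⟩ := exists_factor b.hA (uComm_of_mem F hD) (L := R ++ [a])
      (by
        rw [List.nodup_append]
        refine ⟨hRnd, by simp, ?_⟩
        intro x hx y hy e
        rw [List.mem_singleton] at hy
        exact ((hRm x).1 hx).2 (e.trans hy)) (fun r => by
        rw [List.mem_append, List.mem_singleton, hRm]
        constructor
        · rintro (h | rfl)
          · exact h.1
          · exact ha
        · intro h
          by_cases e : r = a
          · exact Or.inr e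
          · exact Or.inl ⟨h, e⟩) hu
    refine ⟨τ a, _, hW τ, ?_⟩
    rw [e, wL_append, AddFact.W_append]
    simp [AddFact.W, wL]

include hD in
theorem U_factG (s : ℕ) (hs : s < D.rank) : ∀ u ∈ D.posUnipotent F,
    ∃ c, ∃ u' ∈ UsG b.hA s, u = b.hA.X (D.simple s) c * u' :=
  fun u hu => (split_pos hD b (b.hR.simple_pos hs) u hu).1

theorem U_uniqG (s : ℕ) (hs : s < D.rank) (c : F) (h : b.hA.X (D.simple s) c ∈ UsG b.hA s) : c = 0 := by
  have h1 := UsG_le b s (ns_UsG b s hs _ h)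
  obtain ⟨c', e⟩ := (acts_nword b (rank1 hs)).conj b (b.hR.simple_lt hs) c
  have e1 : wact D [s] (D.simple s) = D.neg (D.simple s) := RootFacts.refl_simple s
  rw [e1] at e
  have h2 : b.hA.nword [s] * b.hA.X (D.simple s) c * (b.hA.nword [s])⁻¹ ∈ D.negUnipotent F := by
    rw [e]; exact b.hA.X_mem_neg (b.hR.neg_of_pos (b.hR.simple_pos hs)) _
  have h3 := UV_inf b h1 h2
  have h4 : b.hA.X (D.simple s) c = 1 := by
    have e2 : b.hA.X (D.simple s) c = (b.hA.nword [s])⁻¹ *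
      (b.hA.nword [s] * b.hA.X (D.simple s) c * (b.hA.nword [s])⁻¹) * b.hA.nword [s] := by group
    rw [e2, h3]; group
  exact b.hA.X_eq_one b.hTri (b.hR.simple_lt hs) h4

include hD in
theorem Um_factG (s : ℕ) (hs : s < D.rank) : ∀ u ∈ D.negUnipotent F,
    ∃ c, ∃ u' ∈ UmsG b.hA s, u = u' * b.hA.X (D.neg (D.simple s)) c := by
  intro u hu
  have hw := w0_rank b
  have hw' : ∀ i ∈ (w0 b).reverse, i < D.rank := fun i hi => hw i (List.mem_reverse.1 hi)
  obtain ⟨o1, o2, o3⟩ := word_opp b hw (w0_neg b)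
  set m := b.hA.nword (w0 b) with hm
  have hact : Acts D F m (wact D (w0 b)) := acts_nword b hw
  have hact' : Acts D F m⁻¹ (wact D (w0 b).reverse) := acts_nword_inv b hw
  have ha : D.IsNegRoot (D.neg (D.simple s)) := b.hR.neg_of_pos (b.hR.simple_pos hs)
  set a := D.neg (D.simple s) with hadef
  set a' := wact D (w0 b) a with ha'
  have h1 : m * u * m⁻¹ ∈ D.posUnipotent F := hact.neg_to_pos b o1 u hu
  obtain ⟨c, u', hu', e⟩ := (split_pos hD b (o1 a ha) _ h1).2
  have h3 : m⁻¹ * u' * m⁻¹⁻¹ ∈ RS b.hA (fun r => D.IsNegRoot r ∧ r ≠ a) := by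
    refine acts_RS b hact' (fun r hr => ⟨hr.1.1, o3 r hr.1, fun e => hr.2 ?_⟩) _ hu'
    have := b.hR.wact_reverse hw' hr.1.1
    rw [List.reverse_reverse] at this
    rw [← this, e]
  obtain ⟨c', e'⟩ := hact'.conj b (o1 a ha).1 c
  rw [b.hR.wact_reverse hw ha.1] at e'
  refine ⟨c', _, h3, ?_⟩
  rw [← e']
  have e2 : u = m⁻¹ * (m * u * m⁻¹) * m⁻¹⁻¹ := by group
  rw [e2, e]
  group

end Cfsg.Agent.Lib.Helper23.SDC
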