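import Cfsg.Agent.Lib.Helper23.SDCDefs

/-! ladder SDC, rung PHI -/

set_option autoImplicit false

namespace Cfsg.Agent.Lib.Helper23.SDC
open Cfsg.Lie Matrix Cfsg.Agent.Lib.Helper22 Cfsg.Agent.Lib.Helper23 Cfsg.Agent.Lib.Helper45
open Cfsg.Agent.Lib.Helper85 Cfsg.Agent.Lib.Helper78.DFZ Cfsg.Agent.Lib.Helper23.TwAut

theorem wn_eq {F : Type*} [Field F] : (wn : SL2 F) = up 1 * lo (-1) * up 1 := by
  apply Subtype.ext
  show (!![0, 1; -1, 0] : Matrix (Fin 2) (Fin 2) F) = !![1, 1; 0, 1] * !![1, 0; -1, 1] * !![1, 1; 0, 1]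
  simp [Matrix.mul_fin_two]

theorem dg_eq {F : Type*} [Field F] (c : Fˣ) : (Cfsg.Agent.Lib.Helper78.DFZ.dg c : SL2 F) =
    (up (c : F) * lo (-(c : F)⁻¹) * up (c : F)) * (up (-1) * lo (-(-1 : F)⁻¹) * up (-1)) := by
  have hc : (c : F) ≠ 0 := c.ne_zero
  apply Subtype.ext
  show (!![(c : F), 0; 0, ((c⁻¹ : Fˣ) : F)] : Matrix (Fin 2) (Fin 2) F) =
    (!![1, (c : F); 0, 1] * !![1, 0; -(c : F)⁻¹, 1] * !![1, (c : F); 0, 1]) *
      (!![1, -1; 0, 1] * !![1, 0; -(-1 : F)⁻¹, 1] * !![1, -1; 0, 1])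
  simp [Matrix.mul_fin_two, hc]

variable {D : ChevalleyDatum} {F : Type*} [Field F] [Finite F]
  (hD : D ∈ [chevG2, chevB2, chevD4, chevF4, chevE6, chevE7, chevE8]) (b : Bundle D F)

theorem phi_wn (s : Fin D.rank) : ((phi hD b s wn : ↥(D.group F)) : GL D.Idx F) = b.hA.nword [(s : ℕ)] := by
  rw [wn_eq, map_mul, map_mul]
  show ((phi hD b s (up 1) : ↥(D.group F)) : GL D.Idx F) * ((phi hD b s (lo (-1)) : ↥(D.group F)) : GL D.Idx F) *
    ((phi hD b s (up 1) : ↥(D.group F)) : GL D.Idx F) = _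
  rw [phi_up, phi_lo]
  simp [AddFact.nword, AddFact.nn, AddFact.nG]

theorem phi_dg (s : Fin D.rank) (c : Fˣ) :
    ((phi hD b s (Cfsg.Agent.Lib.Helper78.DFZ.dg c) : ↥(D.group F)) : GL D.Idx F) = b.hA.hG (D.simple s) (c : F) := by
  rw [dg_eq, map_mul, map_mul, map_mul, map_mul, map_mul]
  show ((phi hD b s (up (c : F)) : ↥(D.group F)) : GL D.Idx F) *
      ((phi hD b s (lo (-(c : F)⁻¹)) : ↥(D.group F)) : GL D.Idx F) *
      ((phi hD b s (up (c : F)) : ↥(D.group F)) : GL D.Idx F) *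
    (((phi hD b s (up (-1)) : ↥(D.group F)) : GL D.Idx F) *
      ((phi hD b s (lo (-(-1 : F)⁻¹)) : ↥(D.group F)) : GL D.Idx F) *
      ((phi hD b s (up (-1)) : ↥(D.group F)) : GL D.Idx F)) = _
  rw [phi_up, phi_lo, phi_up, phi_lo]
  rfl

end Cfsg.Agent.Lib.Helper23.SDC
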