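import Cfsg.Agent.Lib.Helper23.SDCNRM
import Cfsg.Agent.Lib.Helper23.SDCPHI

/-! ladder SDC, rung TOR -/

set_option autoImplicit false

namespace Cfsg.Agent.Lib.Helper23.SDC
open Cfsg.Lie Matrix Cfsg.Agent.Lib.Helper22 Cfsg.Agent.Lib.Helper23 Cfsg.Agent.Lib.Helper45
open Cfsg.Agent.Lib.Helper85 Cfsg.Agent.Lib.Helper78.DFZ Cfsg.Agent.Lib.Helper23.TwAut

variable {D : ChevalleyDatum} {F : Type*} [Field F] [Finite F]
  (hD : D ∈ [chevG2, chevB2, chevD4, chevF4, chevE6, chevE7, chevE8]) (b : Bundle D F)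

theorem TT_diag : ∀ t ∈ TT hD b, (t : GL D.Idx F) ∈ D.diagonalSubgroup F := by
  have : TT hD b ≤ (D.diagonalSubgroup F).subgroupOf (D.group F) := by
    unfold TT
    rw [Subgroup.closure_le]
    rintro _ ⟨s, c, rfl⟩
    rw [SetLike.mem_coe, Subgroup.mem_subgroupOf, phi_dg]
    exact b.hA.hG_mem_diag (b.hR.simple_lt s.2) c.ne_zero
  exact fun t ht => Subgroup.mem_subgroupOf.1 (this ht)

omit [Finite F] in
theorem diag_RS (A : ℕ → Prop) (hA : ∀ r, A r → r < D.nroots) : ∀ t ∈ D.diagonalSubgroup F, ∀ u ∈ RS b.hA A,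
    t * u * t⁻¹ ∈ RS b.hA A :=
  fun _ ht => acts_RS b (acts_diag b ht) (fun r hr => ⟨hA r hr, hr⟩)

omit [Finite F] in
include b in
theorem diag_neg : ∀ t ∈ D.diagonalSubgroup F, ∀ u ∈ D.negUnipotent F, t * u * t⁻¹ ∈ D.negUnipotent F := by
  intro t ht
  rw [b.hA.negUnipotent_eq]
  apply conj_closure_le
  rintro _ ⟨r, c, hr, rfl⟩
  obtain ⟨t', e⟩ := (acts_diag b ht).conj b hr.1 c
  rw [e, ← b.hA.negUnipotent_eq]
  exact b.hA.X_mem_neg hr _

omit [Finite F] in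
theorem diag_X (r : ℕ) (hr : r < D.nroots) : ∀ t ∈ D.diagonalSubgroup F, ∀ c, ∃ c',
    t * b.hA.X r c * t⁻¹ = b.hA.X r c' :=
  fun _ ht c => (acts_diag b ht).conj b hr c

omit [Finite F] in
include b in
theorem diag_comm : ∀ a ∈ D.diagonalSubgroup F, ∀ c ∈ D.diagonalSubgroup F, a * c = c * a :=
  fun _ ha _ hc => b.hA.diag_comm b.hT ha hc

end Cfsg.Agent.Lib.Helper23.SDC
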