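import Cfsg.Agent.Lib.Helper23.SDCFACT
import Cfsg.Agent.Lib.Helper23.SDCPHI
import Cfsg.Agent.Lib.Helper23.SDCTOR
import Cfsg.Agent.Lib.Helper49.SDCOPP

/-! the split datum of the Chevalley groups -/

set_option autoImplicit false

namespace Cfsg.Agent.Lib.Helper23.SDC
open Cfsg.Lie Matrix Cfsg.Agent.Lib.Helper22 Cfsg.Agent.Lib.Helper23 Cfsg.Agent.Lib.Helper45
open Cfsg.Agent.Lib.Helper85 Cfsg.Agent.Lib.Helper78.DFZ Cfsg.Agent.Lib.Helper23.TwAut

variable {D : ChevalleyDatum} {F : Type*} [Field F] [Finite F]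
  (hD : D ∈ [chevG2, chevB2, chevD4, chevF4, chevE6, chevE7, chevE8]) (b : Bundle D F)

/-! ## assembly -/
noncomputable def sdChev : SD ↥(D.group F) (Fin D.rank) F where
  U := UU D F
  Um := VV D F
  T := TT hD b
  Us s := sT (D.group F) (UsG b.hA s)
  Ums s := sT (D.group F) (UmsG b.hA s)
  φ := phi hD b
  n0 := n0 b
  up_mem s c := by
    rw [UU, mem_sT, phi_up]; exact b.hA.X_mem_pos (b.hR.simple_pos s.2) _
  lo_mem s c := by
    rw [VV, mem_sT, phi_lo]; exact b.hA.X_mem_neg (b.hR.neg_of_pos (b.hR.simple_pos s.2)) _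
  dg_mem s c := Subgroup.subset_closure ⟨s, c, rfl⟩
  Us_le s := fun u hu => mem_sT.2 (UsG_le b s (mem_sT.1 hu))
  Ums_le s := fun u hu => mem_sT.2 (UmsG_le b s (mem_sT.1 hu))
  U_fact s u hu := by
    obtain ⟨c, u', hu', e⟩ := U_factG hD b s s.2 u (mem_sT.1 hu)
    have hu'g : u' ∈ D.group F := b.hA.pos_le_group (UsG_le b s hu')
    refine ⟨(c, ⟨u', hu'g⟩), ⟨mem_sT.2 hu', Subtype.ext (by
      show (u : GL D.Idx F) = ((phi hD b s (up c) : ↥(D.group F)) : GL D.Idx F) * u'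
      rw [phi_up, e])⟩, ?_⟩
    rintro ⟨c₂, u₂⟩ ⟨h1, h2⟩
    have h2' : (u : GL D.Idx F) = b.hA.X (D.simple s) c₂ * (u₂ : GL D.Idx F) := by
      rw [← phi_up hD b s c₂]; exact congrArg Subtype.val h2
    have h3 : b.hA.X (D.simple s) (c₂ - c) ∈ UsG b.hA s := by
      have e3 : b.hA.X (D.simple s) (c₂ - c) = u' * (u₂ : GL D.Idx F)⁻¹ := by
        rw [eq_mul_inv_iff_mul_eq, sub_eq_neg_add, AddFact.X_add, mul_assoc, ← h2', e, ← mul_assoc,
          ← AddFact.X_add, neg_add_cancel, AddFact.X_zero, one_mul]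
      rw [e3]
      exact mul_mem hu' (inv_mem (mem_sT.1 h1))
    have h4 : c₂ = c := sub_eq_zero.1 (U_uniqG b s s.2 _ h3)
    subst h4
    refine Prod.ext rfl (Subtype.ext ?_)
    exact mul_left_cancel (h2'.symm.trans e)
  Um_fact s u hu := by
    obtain ⟨c, u', hu', e⟩ := Um_factG hD b s s.2 u (mem_sT.1 hu)
    have hu'g : u' ∈ D.group F := b.hA.neg_le_group (UmsG_le b s hu')
    exact ⟨c, ⟨u', hu'g⟩, mem_sT.2 hu', Subtype.ext (by
      show (u : GL D.Idx F) = u' * ((phi hD b s (lo c) : ↥(D.group F)) : GL D.Idx F)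
      rw [phi_lo, e])⟩
  T_U t ht u hu := mem_sT.2 ((borel_cmp b (AddFact.diag_le_borel (TT_diag hD b t ht)) _).2 (mem_sT.1 hu))
  T_Um t ht u hu := mem_sT.2 (diag_neg b _ (TT_diag hD b t ht) _ (mem_sT.1 hu))
  T_Us s t ht u hu := mem_sT.2 (diag_RS b _ (fun r hr => hr.1.1) _ (TT_diag hD b t ht) _ (mem_sT.1 hu))
  T_lo s t ht c := by
    obtain ⟨c', e⟩ := diag_X b _ (b.hR.neg_lt (b.hR.simple_lt s.2)) _ (TT_diag hD b t ht) c
    refine ⟨c', Subtype.ext ?_⟩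
    show (t : GL D.Idx F) * ((phi hD b s (lo c) : ↥(D.group F)) : GL D.Idx F) * (t : GL D.Idx F)⁻¹ = _
    rw [phi_lo, phi_lo, e]
  lo_Us s c u hu := by
    rw [mem_sT]
    show ((phi hD b s (lo c) : ↥(D.group F)) : GL D.Idx F) * (u : GL D.Idx F) *
      ((phi hD b s (lo c) : ↥(D.group F)) : GL D.Idx F)⁻¹ ∈ _
    rw [phi_lo]
    exact lo_UsG hD b s s.2 c _ (mem_sT.1 hu)
  wn_Us s u hu := by
    rw [mem_sT]
    show ((phi hD b s wn : ↥(D.group F)) : GL D.Idx F)⁻¹ * (u : GL D.Idx F) *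
      ((phi hD b s wn : ↥(D.group F)) : GL D.Idx F) ∈ _
    rw [phi_wn]
    exact wn_UsG b s s.2 _ (mem_sT.1 hu)
  up_Ums s c u hu := by
    rw [mem_sT]
    show ((phi hD b s (up c) : ↥(D.group F)) : GL D.Idx F) * (u : GL D.Idx F) *
      ((phi hD b s (up c) : ↥(D.group F)) : GL D.Idx F)⁻¹ ∈ _
    rw [phi_up]
    exact up_UmsG hD b s s.2 c _ (mem_sT.1 hu)
  gen := gen_G hD b
  T_gen := le_rfl
  T_comm a ha c hc := Subtype.ext (diag_comm b _ (TT_diag hD b a ha) _ (TT_diag hD b c hc))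
  n0_Um u := by
    have := (cmp_opp b (w0_rank b) (one_mem _) (w0_neg b)).2 (u : GL D.Idx F)
    rw [mul_one] at this
    show u ∈ sT _ _ ↔ n0 b * u * (n0 b)⁻¹ ∈ sT _ _
    rw [mem_sT, mem_sT]
    exact this.symm
  n0_U u := by
    have := (cmp_opp b (w0_rank b) (one_mem _) (w0_neg b)).1 (u : GL D.Idx F)
    rw [mul_one] at this
    show u ∈ sT _ _ ↔ n0 b * u * (n0 b)⁻¹ ∈ sT _ _
    rw [mem_sT, mem_sT]
    exact this.symm
  opp := opp_G b

end Cfsg.Agent.Lib.Helper23.SDC
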