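import Cfsg.Agent.Lib.Helper23.SDCDefs
import Cfsg.Agent.Lib.Helper22.UAll

/-! ladder SDC, rung NRM -/

set_option autoImplicit false

namespace Cfsg.Agent.Lib.Helper23.SDC
open Cfsg.Lie Matrix Cfsg.Agent.Lib.Helper22 Cfsg.Agent.Lib.Helper23 Cfsg.Agent.Lib.Helper45
open Cfsg.Agent.Lib.Helper85 Cfsg.Agent.Lib.Helper78.DFZ Cfsg.Agent.Lib.Helper23.TwAut

variable {D : ChevalleyDatum} {F : Type*} [Field F]
  (hD : D ∈ [chevG2, chevB2, chevD4, chevF4, chevE6, chevE7, chevE8]) (b : Bundle D F)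

theorem acts_RS {m : GL D.Idx F} {π : ℕ → ℕ} (h : Acts D F m π) {A A' : ℕ → Prop}
    (hAA : ∀ r, A r → r < D.nroots ∧ A' (π r)) : ∀ u ∈ RS b.hA A, m * u * m⁻¹ ∈ RS b.hA A' := by
  apply conj_closure_le
  rintro _ ⟨r, t, hr, rfl⟩
  obtain ⟨t', e⟩ := h.conj b (hAA r hr).1 t
  rw [e]
  exact Subgroup.subset_closure ⟨_, t', (hAA r hr).2, rfl⟩

theorem X_mem_RS {A : ℕ → Prop} {r : ℕ} (hr : A r) (t : F) : b.hA.X r t ∈ RS b.hA A :=
  Subgroup.subset_closure ⟨r, t, hr, rfl⟩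

theorem W_mem_RS {A : ℕ → Prop} {w : List (ℕ × F)} (hw : ∀ p ∈ w, A p.1) : b.hA.W w ∈ RS b.hA A := by
  unfold AddFact.W
  apply Subgroup.list_prod_mem
  intro z hz
  obtain ⟨p, hp, rfl⟩ := List.mem_map.1 hz
  exact X_mem_RS b (hw p hp) _

include hD in
/-- `X_a` normalises the product of the other positive root subgroups -/
theorem pos_norm {a : ℕ} (ha : D.IsPosRoot a) (c : F) : ∀ u ∈ RS b.hA (fun r => D.IsPosRoot r ∧ r ≠ a),
    b.hA.X a c * u * (b.hA.X a c)⁻¹ ∈ RS b.hA (fun r => D.IsPosRoot r ∧ r ≠ a) := by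
  apply conj_closure_le
  rintro _ ⟨r, t, ⟨hr, hra⟩, rfl⟩
  obtain ⟨w, hw, e⟩ := conj_eq b.hA (uComm_of_mem F hD) ha hr (Ne.symm hra) c t
  rw [e]
  exact mul_mem (X_mem_RS b ⟨hr, hra⟩ _)
    (W_mem_RS b fun p hp => ⟨(hw p hp).1, by have := (hw p hp).2.1; omega⟩)

include hD in
/-- `X_a` normalises the product of the other negative root subgroups -/
theorem neg_norm {a : ℕ} (ha : D.IsNegRoot a) (c : F) : ∀ u ∈ RS b.hA (fun r => D.IsNegRoot r ∧ r ≠ a),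
    b.hA.X a c * u * (b.hA.X a c)⁻¹ ∈ RS b.hA (fun r => D.IsNegRoot r ∧ r ≠ a) := by
  intro u hu
  have hw := w0_rank b
  have hw' : ∀ i ∈ (w0 b).reverse, i < D.rank := fun i hi => hw i (List.mem_reverse.1 hi)
  obtain ⟨o1, o2, o3⟩ := word_opp b hw (w0_neg b)
  set m := b.hA.nword (w0 b) with hm
  have hact : Acts D F m (wact D (w0 b)) := acts_nword b hw
  have hact' : Acts D F m⁻¹ (wact D (w0 b).reverse) := acts_nword_inv b hw
  set a' := wact D (w0 b) a with ha'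
  have h1 : m * u * m⁻¹ ∈ RS b.hA (fun r => D.IsPosRoot r ∧ r ≠ a') := by
    refine acts_RS b hact (fun r hr => ⟨hr.1.1, o1 r hr.1, fun e => hr.2 ?_⟩) u hu
    rw [← b.hR.wact_reverse hw hr.1.1, e, ha', b.hR.wact_reverse hw ha.1]
  obtain ⟨c', e⟩ := hact.conj b ha.1 c
  have h2 := pos_norm hD b (o1 a ha) c' _ h1
  have h3 : m⁻¹ * (b.hA.X a' c' * (m * u * m⁻¹) * (b.hA.X a' c')⁻¹) * m⁻¹⁻¹ ∈
      RS b.hA (fun r => D.IsNegRoot r ∧ r ≠ a) := by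
    refine acts_RS b hact' (fun r hr => ⟨hr.1.1, o3 r hr.1, fun e => hr.2 ?_⟩) _ h2
    have := b.hR.wact_reverse hw' hr.1.1
    rw [List.reverse_reverse] at this
    rw [← this, e]
  rw [← e] at h3
  have e2 : m⁻¹ * (m * b.hA.X a c * m⁻¹ * (m * u * m⁻¹) * (m * b.hA.X a c * m⁻¹)⁻¹) * m⁻¹⁻¹ =
      b.hA.X a c * u * (b.hA.X a c)⁻¹ := by group
  rwa [e2] at h3

theorem rank1 {s : ℕ} (hs : s < D.rank) : ∀ i ∈ [s], i < D.rank := by simpa using hs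

theorem ns_UsG (s : ℕ) (hs : s < D.rank) : ∀ u ∈ UsG b.hA s,
    b.hA.nword [s] * u * (b.hA.nword [s])⁻¹ ∈ UsG b.hA s := by
  refine acts_RS b (acts_nword b (rank1 hs)) (fun r hr => ⟨hr.1.1, b.hR.refl_pos hs hr.1 hr.2, fun e => ?_⟩)
  have e' : D.reflectRoot s r = D.simple s := e
  have h1 := b.hR.refl_refl hs hr.1.1
  rw [e', RootFacts.refl_simple] at h1
  exact b.hR.not_neg_of_pos hr.1 (h1 ▸ b.hR.neg_of_pos (b.hR.simple_pos hs))

theorem wn_UsG (s : ℕ) (hs : s < D.rank) : ∀ u ∈ UsG b.hA s,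
    (b.hA.nword [s])⁻¹ * u * b.hA.nword [s] ∈ UsG b.hA s := by
  intro u hu
  have := acts_RS b (acts_nword_inv b (rank1 hs)) (A := fun r => D.IsPosRoot r ∧ r ≠ D.simple s)
    (A' := fun r => D.IsPosRoot r ∧ r ≠ D.simple s)
    (fun r hr => ⟨hr.1.1, b.hR.refl_pos hs hr.1 hr.2, fun e => by
      have e' : D.reflectRoot s r = D.simple s := e
      have h1 := b.hR.refl_refl hs hr.1.1
      rw [e', RootFacts.refl_simple] at h1
      exact b.hR.not_neg_of_pos hr.1 (h1 ▸ b.hR.neg_of_pos (b.hR.simple_pos hs))⟩) u hu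
  rwa [inv_inv] at this

theorem ns_UmsG (s : ℕ) (hs : s < D.rank) : ∀ u ∈ UmsG b.hA s,
    b.hA.nword [s] * u * (b.hA.nword [s])⁻¹ ∈ UmsG b.hA s := by
  refine acts_RS b (acts_nword b (rank1 hs)) (fun r hr => ⟨hr.1.1, b.hR.refl_neg_root hs hr.1 hr.2, fun e => ?_⟩)
  have e' : D.reflectRoot s r = D.neg (D.simple s) := e
  have h1 := b.hR.refl_refl hs hr.1.1
  rw [e', b.hR.refl_neg_simple hs] at h1
  exact b.hR.not_neg_of_pos (b.hR.simple_pos hs) (h1 ▸ hr.1)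

theorem wn_UmsG (s : ℕ) (hs : s < D.rank) : ∀ u ∈ UmsG b.hA s,
    (b.hA.nword [s])⁻¹ * u * b.hA.nword [s] ∈ UmsG b.hA s := by
  intro u hu
  have := acts_RS b (acts_nword_inv b (rank1 hs)) (A := fun r => D.IsNegRoot r ∧ r ≠ D.neg (D.simple s))
    (A' := fun r => D.IsNegRoot r ∧ r ≠ D.neg (D.simple s))
    (fun r hr => ⟨hr.1.1, b.hR.refl_neg_root hs hr.1 hr.2, fun e => by
      have e' : D.reflectRoot s r = D.neg (D.simple s) := e
      have h1 := b.hR.refl_refl hs hr.1.1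
      rw [e', b.hR.refl_neg_simple hs] at h1
      exact b.hR.not_neg_of_pos (b.hR.simple_pos hs) (h1 ▸ hr.1)⟩) u hu
  rwa [inv_inv] at this

include hD in
theorem lo_UsG (s : ℕ) (hs : s < D.rank) (c : F) : ∀ u ∈ UsG b.hA s,
    b.hA.X (D.neg (D.simple s)) c * u * (b.hA.X (D.neg (D.simple s)) c)⁻¹ ∈ UsG b.hA s := by
  intro u hu
  set n := b.hA.nword [s] with hn
  obtain ⟨c', e⟩ := (acts_nword b (rank1 hs)).conj b (b.hR.neg_lt (b.hR.simple_lt hs)) c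
  have e1 : wact D [s] (D.neg (D.simple s)) = D.simple s := b.hR.refl_neg_simple hs
  rw [e1] at e
  have h1 := wn_UsG b s hs _ (pos_norm hD b (b.hR.simple_pos hs) c' _ (ns_UsG b s hs u hu))
  rw [← e] at h1
  have e2 : n⁻¹ * (n * b.hA.X (D.neg (D.simple s)) c * n⁻¹ * (n * u * n⁻¹) *
      (n * b.hA.X (D.neg (D.simple s)) c * n⁻¹)⁻¹) * n =
      b.hA.X (D.neg (D.simple s)) c * u * (b.hA.X (D.neg (D.simple s)) c)⁻¹ := by group
  rwa [e2] at h1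

include hD in
theorem up_UmsG (s : ℕ) (hs : s < D.rank) (c : F) : ∀ u ∈ UmsG b.hA s,
    b.hA.X (D.simple s) c * u * (b.hA.X (D.simple s) c)⁻¹ ∈ UmsG b.hA s := by
  intro u hu
  set n := b.hA.nword [s] with hn
  obtain ⟨c', e⟩ := (acts_nword b (rank1 hs)).conj b (b.hR.simple_lt hs) c
  have e1 : wact D [s] (D.simple s) = D.neg (D.simple s) := RootFacts.refl_simple s
  rw [e1] at e
  have h1 := wn_UmsG b s hs _ (neg_norm hD b (b.hR.neg_of_pos (b.hR.simple_pos hs)) c' _ (ns_UmsG b s hs u hu))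
  rw [← e] at h1
  have e2 : n⁻¹ * (n * b.hA.X (D.simple s) c * n⁻¹ * (n * u * n⁻¹) *
      (n * b.hA.X (D.simple s) c * n⁻¹)⁻¹) * n =
      b.hA.X (D.simple s) c * u * (b.hA.X (D.simple s) c)⁻¹ := by group
  rwa [e2] at h1

end Cfsg.Agent.Lib.Helper23.SDC
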