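import Cfsg.Agent.Lib.Helper22.UTheory2

/-!
# Abstract lemmas on groups generated by additive one-parameter families
-/

set_option autoImplicit false
set_option linter.unusedSectionVars false

namespace Cfsg.Agent.Lib.Helper23.StP

open Cfsg.Agent.Lib.Helper22

variable {K Γ : Type*} [Field K] [Group Γ]

/-- product of a word -/
def WW (X : ℕ → K → Γ) (w : List (ℕ × K)) : Γ := (w.map fun p => X p.1 p.2).prod

/-- the subgroup generated by the families with index in `L` -/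
def Cl (X : ℕ → K → Γ) (L : List ℕ) : Subgroup Γ := Subgroup.closure {g | ∃ c ∈ L, ∃ t, g = X c t}

/-- each head normalises the subgroup of the tail -/
def Good (X : ℕ → K → Γ) : List ℕ → Prop
  | [] => True
  | a :: L => (∀ t, ∀ b ∈ L, ∀ u, X a t * X b u * (X a t)⁻¹ ∈ Cl X L) ∧ Good X L

section basic
variable (X : ℕ → K → Γ)

@[simp] theorem WW_nil : WW X [] = 1 := rfl

theorem WW_cons (p : ℕ × K) (w : List (ℕ × K)) : WW X (p :: w) = X p.1 p.2 * WW X w := by
  simp [WW]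

theorem WW_append (w w' : List (ℕ × K)) : WW X (w ++ w') = WW X w * WW X w' := by
  simp [WW]

theorem X_mem_Cl {L : List ℕ} {c : ℕ} (hc : c ∈ L) (t : K) : X c t ∈ Cl X L :=
  Subgroup.subset_closure ⟨c, hc, t, rfl⟩

theorem Cl_mono {L L' : List ℕ} (h : ∀ c ∈ L, c ∈ L') : Cl X L ≤ Cl X L' :=
  Subgroup.closure_mono fun _ ⟨c, hc, t, e⟩ => ⟨c, h c hc, t, e⟩

theorem WW_mem_Cl {L : List ℕ} {w : List (ℕ × K)} (h : ∀ p ∈ w, p.1 ∈ L) : WW X w ∈ Cl X L := by
  induction w with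
  | nil => exact one_mem _
  | cons p w ih =>
    rw [WW_cons]
    exact mul_mem (X_mem_Cl X (h p (by simp)) _) (ih fun q hq => h q (by simp [hq]))

theorem map_WW {Γ' : Type*} [Group Γ'] (π : Γ →* Γ') (w : List (ℕ × K)) :
    π (WW X w) = WW (fun r t => π (X r t)) w := by
  simp [WW, map_list_prod, List.map_map, Function.comp_def]

/-- conjugation preserving the generators preserves the subgroup -/
theorem conj_mem_Cl {L : List ℕ} {g : Γ} (h : ∀ b ∈ L, ∀ u, g * X b u * g⁻¹ ∈ Cl X L) {v : Γ}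
    (hv : v ∈ Cl X L) : g * v * g⁻¹ ∈ Cl X L := by
  induction hv using Subgroup.closure_induction with
  | mem x hx => obtain ⟨c, hc, t, rfl⟩ := hx; exact h c hc t
  | one => simp
  | mul x y _ _ ihx ihy =>
    have : g * (x * y) * g⁻¹ = (g * x * g⁻¹) * (g * y * g⁻¹) := by group
    rw [this]; exact mul_mem ihx ihy
  | inv x _ ih =>
    have : g * x⁻¹ * g⁻¹ = (g * x * g⁻¹)⁻¹ := by group
    rw [this]; exact inv_mem ih

variable (hadd : ∀ r t u, X r (t + u) = X r t * X r u)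
include hadd

theorem X_zero (r : ℕ) : X r 0 = 1 := by
  have := hadd r 0 0
  rw [add_zero] at this
  exact mul_eq_left.1 this.symm

theorem X_neg (r : ℕ) (t : K) : X r (-t) = (X r t)⁻¹ := by
  rw [eq_inv_iff_mul_eq_one, ← hadd, neg_add_cancel, X_zero X hadd]

/-- splitting off the head -/
theorem split_head {a : ℕ} {L : List ℕ} (h : ∀ t, ∀ b ∈ L, ∀ u, X a t * X b u * (X a t)⁻¹ ∈ Cl X L)
    {g : Γ} (hg : g ∈ Cl X (a :: L)) : ∃ t, ∃ v ∈ Cl X L, g = X a t * v := by
  induction hg using Subgroup.closure_induction with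
  | mem x hx =>
    obtain ⟨c, hc, t, rfl⟩ := hx
    rcases List.mem_cons.1 hc with rfl | hc
    · exact ⟨t, 1, one_mem _, by simp⟩
    · exact ⟨0, _, X_mem_Cl X hc t, by rw [X_zero X hadd, one_mul]⟩
  | one => exact ⟨0, 1, one_mem _, by rw [X_zero X hadd, one_mul]⟩
  | mul x y _ _ ihx ihy =>
    obtain ⟨t, v, hv, rfl⟩ := ihx
    obtain ⟨t', v', hv', rfl⟩ := ihy
    refine ⟨t + t', (X a (-t') * v * (X a (-t'))⁻¹) * v', mul_mem (conj_mem_Cl X (h (-t')) hv) hv', ?_⟩
    rw [hadd, X_neg X hadd]; group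
  | inv x _ ih =>
    obtain ⟨t, v, hv, rfl⟩ := ih
    refine ⟨-t, X a t * v⁻¹ * (X a t)⁻¹, conj_mem_Cl X (h t) (inv_mem hv), ?_⟩
    rw [X_neg X hadd]; group

/-- every element is an ordered product -/
theorem exists_prod {L : List ℕ} (hG : Good X L) (hnd : L.Nodup) {g : Γ} (hg : g ∈ Cl X L) :
    ∃ f : ℕ → K, g = WW X (wL L f) := by
  induction L generalizing g with
  | nil =>
    have : Cl X ([] : List ℕ) = ⊥ := by
      rw [eq_bot_iff, Cl, Subgroup.closure_le]
      rintro x ⟨c, hc, _⟩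
      simp at hc
    rw [this, Subgroup.mem_bot] at hg
    exact ⟨fun _ => 0, by rw [hg]; rfl⟩
  | cons a L ih =>
    obtain ⟨t, v, hv, rfl⟩ := split_head X hadd hG.1 hg
    obtain ⟨f, rfl⟩ := ih hG.2 (List.nodup_cons.1 hnd).2 hv
    refine ⟨Function.update f a t, ?_⟩
    rw [wL_cons, WW_cons, Function.update_self]
    congr 2
    exact wL_congr fun b hb => (Function.update_of_ne
      (fun (e : b = a) => (List.nodup_cons.1 hnd).1 (e ▸ hb)) _ _).symm

end basic

/-- `Good` from a conjugation formula with later terms -/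
theorem good_of_sorted (X : ℕ → K → Γ) (R : ℕ → ℕ → Prop) (hirr : ∀ x, ¬ R x x)
    (hasym : ∀ x y, R x y → ¬ R y x) {L : List ℕ} (hs : L.Pairwise R)
    (h : ∀ a ∈ L, ∀ b ∈ L, a ≠ b → ∀ t u, ∃ w : List (ℕ × K), (∀ p ∈ w, p.1 ∈ L ∧ R a p.1) ∧
      X a t * X b u * (X a t)⁻¹ = X b u * WW X w) : Good X L := by
  induction L with
  | nil => trivial
  | cons a L ih =>
    have hs' := List.pairwise_cons.1 hs
    refine ⟨fun t b hb u => ?_, ih hs'.2 fun a' ha' b' hb' hne t u => ?_⟩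
    · have hne : a ≠ b := fun e => hirr a (by have := hs'.1 b hb; rwa [← e] at this)
      obtain ⟨w, hw, e⟩ := h a (by simp) b (by simp [hb]) hne t u
      rw [e]
      refine mul_mem (X_mem_Cl X hb u) (WW_mem_Cl X fun p hp => ?_)
      obtain ⟨h1, h2⟩ := hw p hp
      rcases List.mem_cons.1 h1 with h3 | h3
      · exact absurd (h3 ▸ h2) (hirr a)
      · exact h3
    · obtain ⟨w, hw, e⟩ := h a' (by simp [ha']) b' (by simp [hb']) hne t u
      refine ⟨w, fun p hp => ?_, e⟩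
      obtain ⟨h1, h2⟩ := hw p hp
      rcases List.mem_cons.1 h1 with h3 | h3
      · exact absurd (h3 ▸ h2) (hasym _ _ (hs'.1 a' ha'))
      · exact ⟨h3, h2⟩

/-- `m` permutes the families linearly -/
def LA (n : ℕ) (X : ℕ → K → Γ) (m : Γ) (σ : ℕ → ℕ) : Prop :=
  ∀ r < n, ∃ c : K, c ≠ 0 ∧ ∀ t, m * X r t * m⁻¹ = X (σ r) (c * t)

theorem LA.exists_fun {n : ℕ} {X : ℕ → K → Γ} {m : Γ} {σ : ℕ → ℕ} (h : LA n X m σ) :
    ∃ γ : ℕ → K, (∀ r, γ r ≠ 0) ∧ ∀ r < n, ∀ t, m * X r t * m⁻¹ = X (σ r) (γ r * t) := by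
  classical
  refine ⟨fun r => if hr : r < n then Classical.choose (h r hr) else 1, fun r => ?_, fun r hr t => ?_⟩
  · by_cases hr : r < n
    · simp only [dif_pos hr]; exact (Classical.choose_spec (h r hr)).1
    · simp [dif_neg hr]
  · simp only [dif_pos hr]; exact (Classical.choose_spec (h r hr)).2 t

theorem LA.mul {n : ℕ} {X : ℕ → K → Γ} {m m' : Γ} {σ σ' : ℕ → ℕ} (h : LA n X m σ) (h' : LA n X m' σ')
    (hlt : ∀ r < n, σ' r < n) : LA n X (m * m') (σ ∘ σ') := by
  intro r hr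
  obtain ⟨c', hc', e'⟩ := h' r hr
  obtain ⟨c, hc, e⟩ := h _ (hlt r hr)
  refine ⟨c * c', mul_ne_zero hc hc', fun t => ?_⟩
  have : m * m' * X r t * (m * m')⁻¹ = m * (m' * X r t * m'⁻¹) * m⁻¹ := by group
  rw [this, e', e, mul_assoc]; rfl

theorem LA.inv {n : ℕ} {X : ℕ → K → Γ} {m : Γ} {σ σ' : ℕ → ℕ} (h : LA n X m σ)
    (hlt : ∀ r < n, σ' r < n) (hinv : ∀ r < n, σ (σ' r) = r) : LA n X m⁻¹ σ' := by
  intro r hr
  obtain ⟨c, hc, e⟩ := h _ (hlt r hr)
  refine ⟨c⁻¹, inv_ne_zero hc, fun t => ?_⟩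
  have := e (c⁻¹ * t)
  rw [hinv r hr, mul_inv_cancel_left₀ hc] at this
  rw [← this]; group

theorem conj_WW {n : ℕ} {X : ℕ → K → Γ} {m : Γ} {σ : ℕ → ℕ} {γ : ℕ → K}
    (h : ∀ r < n, ∀ t, m * X r t * m⁻¹ = X (σ r) (γ r * t)) {w : List (ℕ × K)} (hw : ∀ p ∈ w, p.1 < n) :
    m * WW X w * m⁻¹ = WW X (w.map fun q => (σ q.1, γ q.1 * q.2)) := by
  induction w with
  | nil => simp
  | cons p w ih =>
    rw [List.map_cons, WW_cons, WW_cons, ← ih fun q hq => hw q (by simp [hq]), ← h p.1 (hw p (by simp))]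
    group

/-- a word with distinct letters is of the form `wL` -/
theorem word_eq_wL (w : List (ℕ × K)) (hnd : (w.map Prod.fst).Nodup) :
    w = wL (w.map Prod.fst) (fun d => (w.lookup d).getD 0) := by
  induction w with
  | nil => rfl
  | cons p w ih =>
    obtain ⟨c, v⟩ := p
    rw [List.map_cons, List.nodup_cons] at hnd
    rw [List.map_cons, wL_cons]
    congr 1
    · simp
    · conv_lhs => rw [ih hnd.2]
      apply wL_congr
      intro d hd
      have hne : d ≠ c := fun e => hnd.1 (e ▸ hd)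
      have hb : (d == c) = false := by simpa using hne
      simp [List.lookup_cons, hb]

theorem word_map_inj {σ : ℕ → ℕ} {γ : ℕ → K} (hγ : ∀ r, γ r ≠ 0) :
    ∀ (w w' : List (ℕ × K)), w.map Prod.fst = w'.map Prod.fst →
      (w.map fun q => (σ q.1, γ q.1 * q.2)) = (w'.map fun q => (σ q.1, γ q.1 * q.2)) → w = w' := by
  intro w
  induction w with
  | nil => intro w' h _; cases w' with
    | nil => rfl
    | cons _ _ => simp at h
  | cons p w ih =>
    intro w' h h'
    cases w' with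
    | nil => simp at h
    | cons p' w' =>
      simp only [List.map_cons, List.cons.injEq] at h h'
      obtain ⟨c, v⟩ := p
      obtain ⟨c', v'⟩ := p'
      simp only at h h'
      obtain ⟨rfl, h2⟩ := h
      have h3 := (Prod.mk.injEq _ _ _ _ ▸ h'.1).2
      rw [mul_right_inj' (hγ c)] at h3
      rw [h3, ih w' h2 h'.2]

end Cfsg.Agent.Lib.Helper23.StP
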