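import Cfsg.Agent.Lib.Helper23.StInst
import Cfsg.Agent.Lib.Helper45.StTab
import Cfsg.Agent.Lib.Helper45.StTab5

/-!
# The presented groups: the kernel of the projection is central
-/

set_option autoImplicit false

namespace Cfsg.Agent.Lib.Helper23.StP

open Cfsg.Lie Matrix Cfsg.Agent.Lib.Helper23 Cfsg.Agent.Lib.Helper22 Cfsg.Agent.Lib.Helper45

variable {D : ChevalleyDatum} {K : Type*} [Field K]

theorem stTab_of_mem (hD : D ∈ [chevG2, chevB2, chevD4, chevF4, chevE6, chevE7, chevE8]) : StTab D :=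
  ⟨commTerms_pos hD, commTerms_neg hD, commTerms_ns_pos hD, commTerms_s_neg hD, exists_a3 hD⟩

/-- the system of the group presented by (R1), (R2) -/
def sysCover (hD : D ∈ [chevG2, chevB2, chevD4, chevF4, chevE6, chevE7, chevE8]) (hA : AddFact D K) :
    StSys D K hA (D.SteinbergCover K) :=
  mkSys hA (D.steinbergRelsAB K) (fun _ h => h) (lift_relsAB hD hA)

/-- the system of the group presented by (R1), (R2), (R3) -/
def sysGroup (hD : D ∈ [chevG2, chevB2, chevD4, chevF4, chevE6, chevE7, chevE8]) (hA : AddFact D K) :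
    StSys D K hA (D.SteinbergGroup K) :=
  mkSys hA (D.steinbergRels K) (fun _ h => Or.inl h) (lift_rels hD hA)

theorem sysCover_X (hD : D ∈ [chevG2, chevB2, chevD4, chevF4, chevE6, chevE7, chevE8]) (hA : AddFact D K)
    (r : ℕ) (t : K) : (sysCover hD hA).X r t = D.scGen K r t := rfl

theorem sysGroup_X (hD : D ∈ [chevG2, chevB2, chevD4, chevF4, chevE6, chevE7, chevE8]) (hA : AddFact D K)
    (r : ℕ) (t : K) : (sysGroup hD hA).X r t = D.stGen K r t := rfl

end Cfsg.Agent.Lib.Helper23.StP
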