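import Cfsg.Agent.Lib.Helper23.StSys4
import Cfsg.Agent.Lib.Helper23.StMain

/-!
# Over a finite field the relations (R3) follow from (R1), (R2)
-/

set_option autoImplicit false

namespace Cfsg.Agent.Lib.Helper23.StP

open Cfsg.Lie Matrix Cfsg.Agent.Lib.Helper23 Cfsg.Agent.Lib.Helper22 Cfsg.Agent.Lib.Helper45

variable {D : ChevalleyDatum} {K : Type*} [Field K]

theorem lift_of_eq_mk {α : Type*} (R : Set (FreeGroup α)) :
    FreeGroup.lift (PresentedGroup.of (rels := R)) = PresentedGroup.mk R := by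
  apply FreeGroup.ext_hom
  intro x
  rw [FreeGroup.lift_apply_of]
  rfl

theorem mk_stWord (R : Set (FreeGroup (Fin D.nroots × K))) (w : List (ℕ × K)) :
    PresentedGroup.mk R (D.stWord w) = WW (fun r t => PresentedGroup.mk R (D.stX r t)) w := by
  unfold ChevalleyDatum.stWord WW
  rw [map_list_prod, List.map_map]
  rfl

theorem cover_equiv [Finite K] (hD : D ∈ [chevG2, chevB2, chevD4, chevF4, chevE6, chevE7, chevE8]) :
    ∃ e : D.SteinbergCover K ≃* D.SteinbergGroup K, ∀ (r : ℕ) (t : K), e (D.scGen K r t) = D.stGen K r t := by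
  have hA := addFact_of_mem K hD
  have T := stTab_of_mem hD
  let S := sysCover hD hA
  have h1 : ∀ g ∈ D.steinbergRelsAB K,
      FreeGroup.lift (PresentedGroup.of (rels := D.steinbergRels K)) g = 1 := by
    intro g hg
    rw [lift_of_eq_mk]
    exact PresentedGroup.one_of_mem (Or.inl hg)
  have h2 : ∀ g ∈ D.steinbergRels K,
      FreeGroup.lift (PresentedGroup.of (rels := D.steinbergRelsAB K)) g = 1 := by
    rintro g (hg | ⟨r, t₁, t₂, hr, ht₁, ht₂, rfl⟩)
    · rw [lift_of_eq_mk]
      exact PresentedGroup.one_of_mem hg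
    · rw [lift_of_eq_mk]
      have key : ∀ v, PresentedGroup.mk (D.steinbergRelsAB K) (D.stH r v) = S.hB r v := by
        intro v
        rw [← S.WW_hWord]
        exact mk_stWord _ _
      rw [map_mul, map_mul, map_inv, key, key, key, S.hB_mul_of_finite hD T hr ht₁ ht₂, mul_inv_cancel]
  let f₁ : D.SteinbergCover K →* D.SteinbergGroup K := PresentedGroup.toGroup h1
  let f₂ : D.SteinbergGroup K →* D.SteinbergCover K := PresentedGroup.toGroup h2
  have c1 : f₂.comp f₁ = MonoidHom.id _ := by
    apply PresentedGroup.ext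
    intro x
    show f₂ (f₁ (PresentedGroup.of x)) = PresentedGroup.of x
    rw [PresentedGroup.toGroup.of, PresentedGroup.toGroup.of]
  have c2 : f₁.comp f₂ = MonoidHom.id _ := by
    apply PresentedGroup.ext
    intro x
    show f₁ (f₂ (PresentedGroup.of x)) = PresentedGroup.of x
    rw [PresentedGroup.toGroup.of, PresentedGroup.toGroup.of]
  refine ⟨MonoidHom.toMulEquiv f₁ f₂ c1 c2, fun r t => ?_⟩
  show f₁ (D.scGen K r t) = D.stGen K r t
  by_cases h : r < D.nroots
  · have e1 : D.scGen K r t = PresentedGroup.of (⟨r, h⟩, t) := by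
      simp [ChevalleyDatum.scGen, ChevalleyDatum.stX, h, PresentedGroup.of]
    have e2 : D.stGen K r t = PresentedGroup.of (⟨r, h⟩, t) := by
      simp [ChevalleyDatum.stGen, ChevalleyDatum.stX, h, PresentedGroup.of]
    rw [e1, e2, PresentedGroup.toGroup.of]
  · simp [ChevalleyDatum.scGen, ChevalleyDatum.stGen, ChevalleyDatum.stX, h]

end Cfsg.Agent.Lib.Helper23.StP
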