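import Cfsg.Agent.Lib.Helper23.StSys6
import Cfsg.Agent.Lib.Helper23.StIso

/-!
# The presented group satisfies (R3)
-/

set_option autoImplicit false

namespace Cfsg.Agent.Lib.Helper23.StP

open Cfsg.Lie Matrix Cfsg.Agent.Lib.Helper23 Cfsg.Agent.Lib.Helper22 Cfsg.Agent.Lib.Helper45

variable {D : ChevalleyDatum} {K : Type*} [Field K]

theorem sysGroup_hB (hD : D ∈ [chevG2, chevB2, chevD4, chevF4, chevE6, chevE7, chevE8]) (hA : AddFact D K)
    (r : ℕ) (v : K) : PresentedGroup.mk (D.steinbergRels K) (D.stH r v) = (sysGroup hD hA).hB r v := by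
  rw [← (sysGroup hD hA).WW_hWord]
  exact mk_stWord _ _

theorem sysGroup_R3 (hD : D ∈ [chevG2, chevB2, chevD4, chevF4, chevE6, chevE7, chevE8]) (hA : AddFact D K) :
    (sysGroup hD hA).R3 := by
  intro r hr t u ht hu
  have := PresentedGroup.one_of_mem (rels := D.steinbergRels K) (Or.inr ⟨r, t, u, hr, ht, hu, rfl⟩)
  rwa [map_mul, map_mul, map_inv, sysGroup_hB hD hA, sysGroup_hB hD hA, sysGroup_hB hD hA,
    mul_inv_eq_one] at this

end Cfsg.Agent.Lib.Helper23.StP
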