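import Cfsg.Agent.Lib.Helper23.StAbs
import Cfsg.Agent.Lib.Helper23.StRank1
import Cfsg.Agent.Lib.Helper22.BruhatAll
import Cfsg.Agent.S1025

/-!
# Facts on the Chevalley groups used for Steinberg's presentation
-/

set_option autoImplicit false

namespace Cfsg.Agent.Lib.Helper23.StP

open Cfsg.Lie Matrix Cfsg.Agent.Lib.Helper23 Cfsg.Agent.Lib.Helper22 Cfsg.Agent.Lib.Helper45

variable {D : ChevalleyDatum} {F : Type*} [Field F]

theorem W_eq_WW (hA : AddFact D F) (w : List (ℕ × F)) : hA.W w = WW hA.X w := rfl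

theorem la_nword (hD : D ∈ [chevG2, chevB2, chevD4, chevF4, chevE6, chevE7, chevE8]) (hA : AddFact D F)
    {l : List ℕ} (hl : ∀ i ∈ l, i < D.rank) : LA D.nroots hA.X (hA.nword l) (wact D l) := by
  have b := bundle_of_mem F hD
  intro r hr
  obtain ⟨ε, hε, h1, -⟩ := hA.nword_conj b.hR b.hN hl hr
  exact ⟨ε, by rcases hε with rfl | rfl <;> simp, h1⟩

theorem la_diag (hD : D ∈ [chevG2, chevB2, chevD4, chevF4, chevE6, chevE7, chevE8]) (hA : AddFact D F)
    {h : GL D.Idx F} (hh : h ∈ D.diagonalSubgroup F) : LA D.nroots hA.X h id := by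
  have b := bundle_of_mem F hD
  intro r hr
  obtain ⟨χ, hχ⟩ := hA.diag_isTor b.hT hh
  exact ⟨χ r, hχ.1 r, fun t => hχ.2.2 r hr t⟩

theorem la_nG (hD : D ∈ [chevG2, chevB2, chevD4, chevF4, chevE6, chevE7, chevE8]) (hA : AddFact D F)
    {i : ℕ} (hi : i < D.rank) {c : F} (hc : c ≠ 0) :
    LA D.nroots hA.X (hA.nG (D.simple i) c) (D.reflectRoot i) := by
  have b := bundle_of_mem F hD
  rw [AddFact.nG_eq_hG_mul]
  have h1 := la_nword hD hA (l := [i]) (by simpa using hi)
  have e : hA.nword [i] = hA.nG (D.simple i) 1 := by simp [AddFact.nword, AddFact.nn]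
  rw [e] at h1
  exact (la_diag hD hA (hA.hG_mem_diag (b.hR.simple_lt hi) hc)).mul h1
    (fun r hr => b.hR.wact_lt (w := [i]) (by simpa using hi) hr)

/-- uniqueness of the parameters of a word whose letters become positive under an element of `W` -/
theorem uniq_words (hD : D ∈ [chevG2, chevB2, chevD4, chevF4, chevE6, chevE7, chevE8]) (hA : AddFact D F)
    {l : List ℕ} (hl : ∀ i ∈ l, i < D.rank) {w w' : List (ℕ × F)}
    (hfst : w.map Prod.fst = w'.map Prod.fst) (hnd : (w.map Prod.fst).Nodup)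
    (hlt : ∀ c ∈ w.map Prod.fst, c < D.nroots) (hpos : ∀ c ∈ w.map Prod.fst, D.IsPosRoot (wact D l c))
    (h : WW hA.X w = WW hA.X w') : w = w' := by
  have b := bundle_of_mem F hD
  have P := bruhatPack_of_mem F hD
  obtain ⟨γ, hγ0, hγ⟩ := (la_nword hD hA hl).exists_fun
  have hw : ∀ p ∈ w, p.1 < D.nroots := fun p hp => hlt _ (List.mem_map_of_mem hp)
  have hw' : ∀ p ∈ w', p.1 < D.nroots := fun p hp => hlt _ (hfst ▸ List.mem_map_of_mem hp)
  have c1 := conj_WW hγ hw
  have c2 := conj_WW hγ hw'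
  rw [h, c2] at c1
  set v := w.map fun q => (wact D l q.1, γ q.1 * q.2) with hv
  set v' := w'.map fun q => (wact D l q.1, γ q.1 * q.2) with hv'
  have f1 : v.map Prod.fst = (w.map Prod.fst).map (wact D l) := by
    rw [hv, List.map_map, List.map_map]; rfl
  have f2 : v'.map Prod.fst = (w.map Prod.fst).map (wact D l) := by
    rw [hv', hfst, List.map_map, List.map_map]; rfl
  have hnd2 : ((w.map Prod.fst).map (wact D l)).Nodup := by
    apply List.Nodup.map_on _ hnd
    intro x hx y hy e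
    have := congrArg (wact D l.reverse) e
    rwa [b.hR.wact_reverse hl (hlt x hx), b.hR.wact_reverse hl (hlt y hy)] at this
  have e1 := word_eq_wL v (f1 ▸ hnd2)
  have e2 := word_eq_wL v' (f2 ▸ hnd2)
  rw [f1] at e1
  rw [f2] at e2
  have hpos2 : ∀ a ∈ (w.map Prod.fst).map (wact D l), D.IsPosRoot a := by
    intro a ha
    obtain ⟨c, hc, rfl⟩ := List.mem_map.1 ha
    exact hpos c hc
  have key := factor_unique hA P.hC P.hS hnd2 hpos2 (t := fun d => (v'.lookup d).getD 0)
    (t' := fun d => (v.lookup d).getD 0) (by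
      rw [W_eq_WW, W_eq_WW, ← e1, ← e2]; exact c1)
  have e3 : v = v' := by
    rw [e1, e2]
    exact wL_congr fun a ha => (key a ha).symm
  exact word_map_inj hγ0 w w' hfst e3

/-- the commutator formula in the group of units -/
theorem comm_G (hD : D ∈ [chevG2, chevB2, chevD4, chevF4, chevE6, chevE7, chevE8]) (hA : AddFact D F)
    {r s : ℕ} (hr : r < D.nroots) (hs : s < D.nroots) (h1 : s ≠ r) (h2 : s ≠ D.neg r) (t u : F) :
    (hA.X s u)⁻¹ * (hA.X r t)⁻¹ * hA.X s u * hA.X r t = WW hA.X (D.commWord F r s t u) := by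
  have e : hA.X s u * hA.X r t = hA.X r t * hA.X s u * hA.W (D.commWord F r s t u) := by
    apply Units.ext
    simp only [Units.val_mul, AddFact.coe_X, AddFact.coe_W]
    exact Cfsg.Agent.S1025.result D hD r s hr hs h1 h2 t u
  rw [← W_eq_WW, mul_assoc, e]; group

/-- the centre of a Chevalley group is trivial -/
theorem center_trivial (hD : D ∈ [chevG2, chevB2, chevD4, chevF4, chevE6, chevE7, chevE8])
    {z : GL D.Idx F} (hz : z ∈ D.group F) (hc : ∀ g ∈ D.group F, g * z = z * g) : z = 1 := by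
  have b := bundle_of_mem F hD
  have P := bruhatPack_of_mem F hD
  have hA := b.hA
  obtain ⟨x, hx, n, hn, u, hu, e⟩ := P.ex z hz
  have huU : u ∈ D.posUnipotent F := Umin_le_pos hA n hu
  obtain ⟨w, h, hw, hh, rfl⟩ := hA.mono_nform b.hR b.hN hn
  have hnH : hA.nword w * h ∈ D.diagonalSubgroup F := by
    refine hA.mem_diag_of_conj_pos b.hR b.hN b.hT b.hTri _ w h rfl hw hh fun r hr t => ?_
    have e1 : hA.nword w * h = x⁻¹ * z * u⁻¹ := by rw [e]; group
    have hy : u⁻¹ * hA.X r t * u ∈ D.posUnipotent F :=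
      mul_mem (mul_mem (inv_mem huU) (hA.X_mem_pos hr t)) huU
    have e2 : (x⁻¹ * z * u⁻¹) * hA.X r t * (x⁻¹ * z * u⁻¹)⁻¹ = x⁻¹ * (u⁻¹ * hA.X r t * u) * x := by
      have := hc _ (hA.pos_le_group hy)
      calc (x⁻¹ * z * u⁻¹) * hA.X r t * (x⁻¹ * z * u⁻¹)⁻¹
          = x⁻¹ * (z * (u⁻¹ * hA.X r t * u)) * z⁻¹ * x := by group
        _ = x⁻¹ * ((u⁻¹ * hA.X r t * u) * z) * z⁻¹ * x := by rw [this]
        _ = _ := by group
    rw [e1, e2]
    exact mul_mem (mul_mem (inv_mem hx) (AddFact.pos_le_borel hy)) hx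
  have hzB : z ∈ D.borelSubgroup F := by
    rw [e]
    exact mul_mem (mul_mem hx (AddFact.diag_le_borel hnH)) (AddFact.pos_le_borel huU)
  apply hA.eq_one_of_conj_mem_borel b.hR b.hN b.hT b.hTri b.hL
  intro g hg
  rw [hc g hg, mul_inv_cancel_right]
  exact hzB

end Cfsg.Agent.Lib.Helper23.StP
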