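import Cfsg.Agent.Lib.Helper23.StSys3
import Cfsg.Prelude.Def_SteinbergCover

/-!
# The presented groups as instances of `StSys`
-/

set_option autoImplicit false

namespace Cfsg.Agent.Lib.Helper23.StP

open Cfsg.Lie Matrix Cfsg.Agent.Lib.Helper23 Cfsg.Agent.Lib.Helper22 Cfsg.Agent.Lib.Helper45

variable {D : ChevalleyDatum} {K : Type*} [Field K]

/-- the images of the free generators -/
def fG (hA : AddFact D K) : Fin D.nroots × K → GL D.Idx K := fun x => hA.X x.1 x.2

theorem lift_stX (hA : AddFact D K) (r : ℕ) (t : K) : FreeGroup.lift (fG hA) (D.stX r t) = hA.X r t := by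
  unfold ChevalleyDatum.stX
  by_cases h : r < D.nroots
  · rw [dif_pos h, FreeGroup.lift_apply_of]; rfl
  · rw [dif_neg h, map_one]
    exact (Units.ext (x_of_ge h t)).symm

theorem lift_stWord (hA : AddFact D K) (w : List (ℕ × K)) :
    FreeGroup.lift (fG hA) (D.stWord w) = WW hA.X w := by
  unfold ChevalleyDatum.stWord WW
  rw [map_list_prod, List.map_map]
  congr 1
  apply List.map_congr_left
  intro p _
  exact lift_stX hA p.1 p.2

theorem lift_relsAB (hD : D ∈ [chevG2, chevB2, chevD4, chevF4, chevE6, chevE7, chevE8]) (hA : AddFact D K) :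
    ∀ g ∈ D.steinbergRelsAB K, FreeGroup.lift (fG hA) g = 1 := by
  rintro g (⟨r, t₁, t₂, _, rfl⟩ | ⟨r, s, t, u, hr, hs, h1, h2, rfl⟩)
  · simp only [map_mul, map_inv, lift_stX, hA.X_add, mul_inv_cancel]
  · simp only [map_mul, map_inv, lift_stX, lift_stWord]
    rw [comm_G hD hA hr hs h1 h2, mul_inv_cancel]

theorem lift_rels (hD : D ∈ [chevG2, chevB2, chevD4, chevF4, chevE6, chevE7, chevE8]) (hA : AddFact D K) :
    ∀ g ∈ D.steinbergRels K, FreeGroup.lift (fG hA) g = 1 := by
  rintro g (hg | ⟨r, t₁, t₂, hr, h1, h2, rfl⟩)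
  · exact lift_relsAB hD hA g hg
  · simp only [map_mul, map_inv, ChevalleyDatum.stH, lift_stWord, ← W_eq_WW, hA.W_hWord]
    rw [hmul_root hD hA hr h1 h2, mul_inv_cancel]

/-- the system attached to a set of relators containing (R1), (R2) -/
def mkSys (hA : AddFact D K) (R : Set (FreeGroup (Fin D.nroots × K))) (hAB : D.steinbergRelsAB K ⊆ R)
    (hR : ∀ g ∈ R, FreeGroup.lift (fG hA) g = 1) : StSys D K hA (PresentedGroup R) where
  X r t := PresentedGroup.mk R (D.stX r t)
  add r t u := by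
    by_cases h : r < D.nroots
    · have := PresentedGroup.one_of_mem (hAB (Or.inl ⟨r, t, u, h, rfl⟩))
      rw [map_mul, map_mul, map_inv, mul_inv_eq_one] at this
      exact this.symm
    · simp [ChevalleyDatum.stX, h]
  comm r s t u hr hs h1 h2 := by
    have := PresentedGroup.one_of_mem (hAB (Or.inr ⟨r, s, t, u, hr, hs, h1, h2, rfl⟩))
    rw [map_mul, map_inv, mul_inv_eq_one] at this
    simp only [map_mul, map_inv] at this
    rw [this]
    unfold ChevalleyDatum.stWord WW
    rw [map_list_prod, List.map_map]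
    rfl
  gen := by
    rw [eq_top_iff, ← PresentedGroup.closure_range_of]
    apply Subgroup.closure_mono
    rintro _ ⟨⟨⟨r, hr⟩, t⟩, rfl⟩
    refine ⟨r, t, hr, ?_⟩
    simp [ChevalleyDatum.stX, hr, PresentedGroup.of]
  π := PresentedGroup.toGroup (f := fG hA) hR
  hπ r t := by
    show PresentedGroup.toGroup (f := fG hA) hR (PresentedGroup.mk R (D.stX r t)) = _
    rw [← lift_stX hA r t]
    rfl

namespace StSys

variable {hA : AddFact D K} {Γ : Type*} [Group Γ] (S : StSys D K hA Γ)

theorem pi_mem_group (g : Γ) : S.π g ∈ D.group K := by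
  have hg : g ∈ Subgroup.closure {g | ∃ r t, r < D.nroots ∧ g = S.X r t} := by rw [S.gen]; trivial
  induction hg using Subgroup.closure_induction with
  | mem x hx => obtain ⟨r, t, _, rfl⟩ := hx; rw [S.hπ]; exact hA.X_mem_group r t
  | one => rw [map_one]; exact one_mem _
  | mul x y _ _ ihx ihy => rw [map_mul]; exact mul_mem ihx ihy
  | inv x _ ih => rw [map_inv]; exact inv_mem ih

/-- the homomorphism onto the Chevalley group -/
def θ : Γ →* ↥(D.group K) := S.π.codRestrict (D.group K) S.pi_mem_group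

theorem coe_θ (g : Γ) : ((S.θ g : ↥(D.group K)) : GL D.Idx K) = S.π g := rfl

theorem θ_surjective : Function.Surjective S.θ := by
  have key : ∀ y ∈ D.group K, ∃ a, S.π a = y := by
    intro y hy
    rw [hA.group_eq] at hy
    induction hy using Subgroup.closure_induction with
    | mem x hx =>
      obtain ⟨r, t, _, rfl⟩ := hx
      exact ⟨S.X r t, S.hπ r t⟩
    | one => exact ⟨1, map_one _⟩
    | mul x y _ _ ihx ihy =>
      obtain ⟨a, ha⟩ := ihx
      obtain ⟨c, hc⟩ := ihy
      exact ⟨a * c, by rw [map_mul, ha, hc]⟩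
    | inv x _ ih =>
      obtain ⟨a, ha⟩ := ih
      exact ⟨a⁻¹, by rw [map_inv, ha]⟩
  rintro ⟨y, hy⟩
  obtain ⟨a, ha⟩ := key y hy
  exact ⟨a, Subtype.ext ha⟩

theorem ker_θ : S.θ.ker = S.π.ker := MonoidHom.ker_codRestrict _ _ _

theorem θ_X (r : ℕ) (t : K) : (((S.θ (S.X r t) : ↥(D.group K)) : GL D.Idx K) : Matrix D.Idx D.Idx K) = D.x K r t := by
  rw [coe_θ, S.hπ, AddFact.coe_X]

theorem center_le_ker (hD : D ∈ [chevG2, chevB2, chevD4, chevF4, chevE6, chevE7, chevE8]) :
    Subgroup.center Γ ≤ S.π.ker := by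
  intro z hz
  rw [MonoidHom.mem_ker]
  apply center_trivial hD (S.pi_mem_group z)
  intro g hg
  obtain ⟨y, hy⟩ := S.θ_surjective ⟨g, hg⟩
  have e : g = S.π y := by rw [← coe_θ, hy]
  rw [e, ← map_mul, ← map_mul, Subgroup.mem_center_iff.1 hz y]

end StSys

end Cfsg.Agent.Lib.Helper23.StP
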