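import Cfsg.Agent.Lib.Helper23.StCen

/-!
# Unimodularity of the Cartan matrices of `G₂`, `F₄`, `E₈`
-/

set_option autoImplicit false

namespace Cfsg.Agent.Lib.Helper23.StP

open Cfsg.Lie

theorem unimodG2 {G : Type*} [AddCommGroup G] (x : ℕ → G)
    (h0 : ((2 : ℤ) • x 0) + (((-1 : ℤ) • x 1) + (0)) = 0)
    (h1 : ((-3 : ℤ) • x 0) + (((2 : ℤ) • x 1) + (0)) = 0)
    : ∀ i < 2, x i = 0 := by
  intro i hi
  interval_cases i
  · linear_combination (norm := module) ((2 : ℤ) • h0) + ((1 : ℤ) • h1)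
  · linear_combination (norm := module) ((3 : ℤ) • h0) + ((2 : ℤ) • h1)

theorem unimodF4 {G : Type*} [AddCommGroup G] (x : ℕ → G)
    (h0 : ((2 : ℤ) • x 0) + (((-1 : ℤ) • x 1) + (((0 : ℤ) • x 2) + (((0 : ℤ) • x 3) + (0)))) = 0)
    (h1 : ((-1 : ℤ) • x 0) + (((2 : ℤ) • x 1) + (((-1 : ℤ) • x 2) + (((0 : ℤ) • x 3) + (0)))) = 0)
    (h2 : ((0 : ℤ) • x 0) + (((-2 : ℤ) • x 1) + (((2 : ℤ) • x 2) + (((-1 : ℤ) • x 3) + (0)))) = 0)
    (h3 : ((0 : ℤ) • x 0) + (((0 : ℤ) • x 1) + (((-1 : ℤ) • x 2) + (((2 : ℤ) • x 3) + (0)))) = 0)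
    : ∀ i < 4, x i = 0 := by
  intro i hi
  interval_cases i
  · linear_combination (norm := module) ((2 : ℤ) • h0) + ((3 : ℤ) • h1) + ((2 : ℤ) • h2) + ((1 : ℤ) • h3)
  · linear_combination (norm := module) ((3 : ℤ) • h0) + ((6 : ℤ) • h1) + ((4 : ℤ) • h2) + ((2 : ℤ) • h3)
  · linear_combination (norm := module) ((4 : ℤ) • h0) + ((8 : ℤ) • h1) + ((6 : ℤ) • h2) + ((3 : ℤ) • h3)
  · linear_combination (norm := module) ((2 : ℤ) • h0) + ((4 : ℤ) • h1) + ((3 : ℤ) • h2) + ((2 : ℤ) • h3)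

theorem unimodE8 {G : Type*} [AddCommGroup G] (x : ℕ → G)
    (h0 : ((2 : ℤ) • x 0) + (((0 : ℤ) • x 1) + (((-1 : ℤ) • x 2) + (((0 : ℤ) • x 3) + (((0 : ℤ) • x 4) + (((0 : ℤ) • x 5) + (((0 : ℤ) • x 6) + (((0 : ℤ) • x 7) + (0)))))))) = 0)
    (h1 : ((0 : ℤ) • x 0) + (((2 : ℤ) • x 1) + (((0 : ℤ) • x 2) + (((-1 : ℤ) • x 3) + (((0 : ℤ) • x 4) + (((0 : ℤ) • x 5) + (((0 : ℤ) • x 6) + (((0 : ℤ) • x 7) + (0)))))))) = 0)
    (h2 : ((-1 : ℤ) • x 0) + (((0 : ℤ) • x 1) + (((2 : ℤ) • x 2) + (((-1 : ℤ) • x 3) + (((0 : ℤ) • x 4) + (((0 : ℤ) • x 5) + (((0 : ℤ) • x 6) + (((0 : ℤ) • x 7) + (0)))))))) = 0)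
    (h3 : ((0 : ℤ) • x 0) + (((-1 : ℤ) • x 1) + (((-1 : ℤ) • x 2) + (((2 : ℤ) • x 3) + (((-1 : ℤ) • x 4) + (((0 : ℤ) • x 5) + (((0 : ℤ) • x 6) + (((0 : ℤ) • x 7) + (0)))))))) = 0)
    (h4 : ((0 : ℤ) • x 0) + (((0 : ℤ) • x 1) + (((0 : ℤ) • x 2) + (((-1 : ℤ) • x 3) + (((2 : ℤ) • x 4) + (((-1 : ℤ) • x 5) + (((0 : ℤ) • x 6) + (((0 : ℤ) • x 7) + (0)))))))) = 0)
    (h5 : ((0 : ℤ) • x 0) + (((0 : ℤ) • x 1) + (((0 : ℤ) • x 2) + (((0 : ℤ) • x 3) + (((-1 : ℤ) • x 4) + (((2 : ℤ) • x 5) + (((-1 : ℤ) • x 6) + (((0 : ℤ) • x 7) + (0)))))))) = 0)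
    (h6 : ((0 : ℤ) • x 0) + (((0 : ℤ) • x 1) + (((0 : ℤ) • x 2) + (((0 : ℤ) • x 3) + (((0 : ℤ) • x 4) + (((-1 : ℤ) • x 5) + (((2 : ℤ) • x 6) + (((-1 : ℤ) • x 7) + (0)))))))) = 0)
    (h7 : ((0 : ℤ) • x 0) + (((0 : ℤ) • x 1) + (((0 : ℤ) • x 2) + (((0 : ℤ) • x 3) + (((0 : ℤ) • x 4) + (((0 : ℤ) • x 5) + (((-1 : ℤ) • x 6) + (((2 : ℤ) • x 7) + (0)))))))) = 0)
    : ∀ i < 8, x i = 0 := by
  intro i hi
  interval_cases i
  · linear_combination (norm := module) ((4 : ℤ) • h0) + ((5 : ℤ) • h1) + ((7 : ℤ) • h2) + ((10 : ℤ) • h3) + ((8 : ℤ) • h4) + ((6 : ℤ) • h5) + ((4 : ℤ) • h6) + ((2 : ℤ) • h7)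
  · linear_combination (norm := module) ((5 : ℤ) • h0) + ((8 : ℤ) • h1) + ((10 : ℤ) • h2) + ((15 : ℤ) • h3) + ((12 : ℤ) • h4) + ((9 : ℤ) • h5) + ((6 : ℤ) • h6) + ((3 : ℤ) • h7)
  · linear_combination (norm := module) ((7 : ℤ) • h0) + ((10 : ℤ) • h1) + ((14 : ℤ) • h2) + ((20 : ℤ) • h3) + ((16 : ℤ) • h4) + ((12 : ℤ) • h5) + ((8 : ℤ) • h6) + ((4 : ℤ) • h7)
  · linear_combination (norm := module) ((10 : ℤ) • h0) + ((15 : ℤ) • h1) + ((20 : ℤ) • h2) + ((30 : ℤ) • h3) + ((24 : ℤ) • h4) + ((18 : ℤ) • h5) + ((12 : ℤ) • h6) + ((6 : ℤ) • h7)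
  · linear_combination (norm := module) ((8 : ℤ) • h0) + ((12 : ℤ) • h1) + ((16 : ℤ) • h2) + ((24 : ℤ) • h3) + ((20 : ℤ) • h4) + ((15 : ℤ) • h5) + ((10 : ℤ) • h6) + ((5 : ℤ) • h7)
  · linear_combination (norm := module) ((6 : ℤ) • h0) + ((9 : ℤ) • h1) + ((12 : ℤ) • h2) + ((18 : ℤ) • h3) + ((15 : ℤ) • h4) + ((12 : ℤ) • h5) + ((8 : ℤ) • h6) + ((4 : ℤ) • h7)
  · linear_combination (norm := module) ((4 : ℤ) • h0) + ((6 : ℤ) • h1) + ((8 : ℤ) • h2) + ((12 : ℤ) • h3) + ((10 : ℤ) • h4) + ((8 : ℤ) • h5) + ((6 : ℤ) • h6) + ((3 : ℤ) • h7)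
  · linear_combination (norm := module) ((2 : ℤ) • h0) + ((3 : ℤ) • h1) + ((4 : ℤ) • h2) + ((6 : ℤ) • h3) + ((5 : ℤ) • h4) + ((4 : ℤ) • h5) + ((3 : ℤ) • h6) + ((2 : ℤ) • h7)

theorem sum_row {G : Type*} [AddCommGroup G] (n : ℕ) (f : ℕ → ℤ) (x : ℕ → G) (row : List ℤ)
    (hrow : (List.range n).map f = row) :
    ((List.range n).map fun i => f i • x i).sum = (List.zipWith (· • ·) row ((List.range n).map x)).sum := by
  subst hrow
  rw [List.zipWith_map, List.zipWith_self]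

theorem cartan_unimod {D : ChevalleyDatum} (hD : D ∈ [chevG2, chevF4, chevE8]) {K : Type*} [Field K]
    (c : ℕ → K) (hc : ∀ i < D.rank, c i ≠ 0)
    (h : ∀ s < D.nroots, ((List.range D.rank).map fun i => c i ^ D.cartan i s).prod = 1) :
    ∀ i < D.rank, c i = 1 := by
  classical
  let u : ℕ → Kˣ := fun i => if hi : c i ≠ 0 then Units.mk0 (c i) hi else 1
  have hu : ∀ i < D.rank, (u i : K) = c i := by
    intro i hi
    simp only [u, dif_pos (hc i hi), Units.val_mk0]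
  have h' : ∀ s < D.nroots, ((List.range D.rank).map fun i => u i ^ D.cartan i s).prod = 1 := by
    intro s hs
    apply Units.ext
    rw [Units.val_one, ← h s hs, ← Units.coeHom_apply, map_list_prod, List.map_map]
    congr 1
    apply List.map_congr_left
    intro i hi
    simp only [Function.comp, Units.coeHom_apply, Units.val_zpow_eq_zpow_val, hu i (List.mem_range.1 hi)]
  let x : ℕ → Additive Kˣ := fun i => Additive.ofMul (u i)
  have h'' : ∀ s < D.nroots, ((List.range D.rank).map fun i => D.cartan i s • x i).sum = 0 := by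
    intro s hs
    have := congrArg Additive.ofMul (h' s hs)
    rw [ofMul_list_prod, List.map_map] at this
    exact this
  have fin : (∀ i < D.rank, x i = 0) → ∀ i < D.rank, c i = 1 := by
    intro hx i hi
    rw [← hu i hi]
    have : u i = 1 := hx i hi
    rw [this, Units.val_one]
  apply fin
  simp only [List.mem_cons, List.not_mem_nil, or_false] at hD
  rcases hD with rfl | rfl | rfl
  · exact unimodG2 x ((sum_row 2 (fun i => chevG2.cartan i (chevG2.simple 0)) x [2, -1] (by decide +kernel)).symm.trans (h'' (chevG2.simple 0) (by decide +kernel))) ((sum_row 2 (fun i => chevG2.cartan i (chevG2.simple 1)) x [-3, 2] (by decide +kernel)).symm.trans (h'' (chevG2.simple 1) (by decide +kernel)))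
  · exact unimodF4 x ((sum_row 4 (fun i => chevF4.cartan i (chevF4.simple 0)) x [2, -1, 0, 0] (by decide +kernel)).symm.trans (h'' (chevF4.simple 0) (by decide +kernel))) ((sum_row 4 (fun i => chevF4.cartan i (chevF4.simple 1)) x [-1, 2, -1, 0] (by decide +kernel)).symm.trans (h'' (chevF4.simple 1) (by decide +kernel))) ((sum_row 4 (fun i => chevF4.cartan i (chevF4.simple 2)) x [0, -2, 2, -1] (by decide +kernel)).symm.trans (h'' (chevF4.simple 2) (by decide +kernel))) ((sum_row 4 (fun i => chevF4.cartan i (chevF4.simple 3)) x [0, 0, -1, 2] (by decide +kernel)).symm.trans (h'' (chevF4.simple 3) (by decide +kernel)))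
  · exact unimodE8 x ((sum_row 8 (fun i => chevE8.cartan i (chevE8.simple 0)) x [2, 0, -1, 0, 0, 0, 0, 0] (by decide +kernel)).symm.trans (h'' (chevE8.simple 0) (by decide +kernel))) ((sum_row 8 (fun i => chevE8.cartan i (chevE8.simple 1)) x [0, 2, 0, -1, 0, 0, 0, 0] (by decide +kernel)).symm.trans (h'' (chevE8.simple 1) (by decide +kernel))) ((sum_row 8 (fun i => chevE8.cartan i (chevE8.simple 2)) x [-1, 0, 2, -1, 0, 0, 0, 0] (by decide +kernel)).symm.trans (h'' (chevE8.simple 2) (by decide +kernel))) ((sum_row 8 (fun i => chevE8.cartan i (chevE8.simple 3)) x [0, -1, -1, 2, -1, 0, 0, 0] (by decide +kernel)).symm.trans (h'' (chevE8.simple 3) (by decide +kernel))) ((sum_row 8 (fun i => chevE8.cartan i (chevE8.simple 4)) x [0, 0, 0, -1, 2, -1, 0, 0] (by decide +kernel)).symm.trans (h'' (chevE8.simple 4) (by decide +kernel))) ((sum_row 8 (fun i => chevE8.cartan i (chevE8.simple 5))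 x [0, 0, 0, 0, -1, 2, -1, 0] (by decide +kernel)).symm.trans (h'' (chevE8.simple 5) (by decide +kernel))) ((sum_row 8 (fun i => chevE8.cartan i (chevE8.simple 6)) x [0, 0, 0, 0, 0, -1, 2, -1] (by decide +kernel)).symm.trans (h'' (chevE8.simple 6) (by decide +kernel))) ((sum_row 8 (fun i => chevE8.cartan i (chevE8.simple 7)) x [0, 0, 0, 0, 0, 0, -1, 2] (by decide +kernel)).symm.trans (h'' (chevE8.simple 7) (by decide +kernel)))

end Cfsg.Agent.Lib.Helper23.StP
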