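import Cfsg.Prelude.Def_ChevStructure

/-!
# Table facts for simply laced root systems with enough room (`E₆`, `E₇`, `E₈`)
-/

set_option autoImplicit false

namespace Cfsg.Agent.Lib.Helper23.StP

open Cfsg.Lie

/-- `c = a + b`, with structure constant `N = ±1` and a one term commutator formula -/
def Dec (D : ChevalleyDatum) (a b c : ℕ) (N : ℤ) : Prop :=
  a < D.nroots ∧ b < D.nroots ∧ c < D.nroots ∧ b ≠ a ∧ b ≠ D.neg a ∧ (N = 1 ∨ N = -1) ∧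
    D.commTerms a b = [(c, N, 1, 1)]

/-- roots whose root subgroups commute -/
def Cm (D : ChevalleyDatum) (a b : ℕ) : Prop :=
  a < D.nroots ∧ b < D.nroots ∧ (b = a ∨ (b ≠ a ∧ b ≠ D.neg a ∧ D.commTerms a b = []))

/-- `a' = a + κ`, `b = κ + b'`, `c = a + b = a' + b'` -/
def Link (D : ChevalleyDatum) (a b a' b' c : ℕ) : Prop :=
  ∃ (κ : ℕ) (N₁ N₂ N₃ : ℤ), Dec D a κ a' N₁ ∧ Dec D κ b' b N₂ ∧ Dec D a' b' c N₃ ∧
    Cm D a b' ∧ Cm D a' b ∧ Cm D b c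

structure SLTab (D : ChevalleyDatum) : Prop where
  one : ∀ a < D.nroots, ∀ b < D.nroots, b ≠ a → b ≠ D.neg a →
    D.commTerms a b = [] ∨ ∃ c N, Dec D a b c N
  wit : ∀ a b, Cm D a b → ∃ g d N, Dec D g d b N ∧ Cm D a g ∧ Cm D a d
  link : ∀ c < D.nroots, ∃ a₀ b₀ N₀, Dec D a₀ b₀ c N₀ ∧ (∃ a' b', Link D a₀ b₀ a' b' c) ∧
    ∀ a b N, Dec D a b c N → (a = a₀ ∧ b = b₀) ∨ (a = b₀ ∧ b = a₀) ∨ Link D a b a₀ b₀ c ∨ Link D a b b₀ a₀ c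

end Cfsg.Agent.Lib.Helper23.StP
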