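import Cfsg.Agent.Lib.Helper23.StU2

/-!
# Central extensions of a Chevalley group: the relations (R2) and the lift of the cover
-/

set_option autoImplicit false

namespace Cfsg.Agent.Lib.Helper23.StP

open Cfsg.Lie Matrix Cfsg.Agent.Lib.Helper23 Cfsg.Agent.Lib.Helper22 Cfsg.Agent.Lib.Helper45

variable {D : ChevalleyDatum} {K : Type*} [Field K]

/-- the terms of the commutator formula stay positive -/
def TermsPos (D : ChevalleyDatum) : Prop := ∀ l : List ℕ, (∀ i ∈ l, i < D.rank) → ∀ a < D.nroots,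
  ∀ b < D.nroots, b ≠ a → b ≠ D.neg a → D.IsPosRoot (wact D l a) → D.IsPosRoot (wact D l b) →
  ∀ c ∈ D.commTerms a b, D.IsPosRoot (wact D l c.1)

theorem nword_conj_hG (hD : D ∈ [chevG2, chevB2, chevD4, chevF4, chevE6, chevE7, chevE8]) (hA : AddFact D K)
    {w : List ℕ} (hw : ∀ i ∈ w, i < D.rank) {r : ℕ} (hr : r < D.nroots) {a : K} (ha : a ≠ 0) :
    hA.nword w * hA.hG r a * (hA.nword w)⁻¹ = hA.hG (wact D w r) a := by
  have b := bundle_of_mem K hD
  obtain ⟨ε, hε, c1⟩ := hA.nword_conj_nG b.hR b.hN hw hr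
  have e : hA.nword w * hA.hG r a * (hA.nword w)⁻¹ =
      (hA.nword w * hA.nG r a * (hA.nword w)⁻¹) * (hA.nword w * hA.nG r (-1) * (hA.nword w)⁻¹) := by
    rw [AddFact.hG]; group
  rw [e, c1, c1]
  rcases hε with rfl | rfl
  · rw [one_mul, one_mul]; rfl
  · have := St2_w_neg_mul (st2Root hD hA (b.hR.wact_lt hw hr)) (st2Root_hmul hD hA (b.hR.wact_lt hw hr)) ha
    rw [neg_one_mul, neg_one_mul, neg_neg]
    exact this

theorem exists_pos_word (hD : D ∈ [chevG2, chevB2, chevD4, chevF4, chevE6, chevE7, chevE8])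
    {a b : ℕ} (ha : a < D.nroots) (hb : b < D.nroots) (h2 : b ≠ D.neg a) :
    ∃ l : List ℕ, (∀ i ∈ l, i < D.rank) ∧ D.IsPosRoot (wact D l a) ∧ D.IsPosRoot (wact D l b) := by
  have hR := rootFacts_of_mem hD
  obtain ⟨l₀, hl₀, hopp⟩ := longWord_of_mem hD
  obtain ⟨w, j, hw, hj, rfl⟩ := hR.exists_word a ha
  have hwr : ∀ i ∈ w.reverse, i < D.rank := fun i hi => hw i (List.mem_reverse.1 hi)
  have hp := hR.simple_pos hj
  have e1 : wact D w.reverse (wact D w (D.simple j)) = D.simple j := hR.wact_reverse hw hp.1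
  have hb' := hR.wact_lt hwr hb
  have hflip : ∀ r, D.IsNegRoot r → D.IsPosRoot (wact D l₀ r) := by
    intro r hr
    have h1 := hopp _ (hR.neg_lt hr.1) (hR.pos_of_neg hr)
    rw [hR.wact_neg hl₀ hr.1] at h1
    have h3 := hR.pos_of_neg h1
    rwa [hR.neg_neg (hR.wact_lt hl₀ hr.1)] at h3
  rcases hR.pos_or_neg hb' with hpb | hnb
  · exact ⟨w.reverse, hwr, by rw [e1]; exact hp, hpb⟩
  · refine ⟨l₀ ++ j :: w.reverse, ?_, ?_, ?_⟩
    · intro i hi
      rcases List.mem_append.1 hi with h | h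
      · exact hl₀ i h
      · rcases List.mem_cons.1 h with h | h
        · exact h ▸ hj
        · exact hwr i h
    · rw [wact_append, wact_cons, e1, RootFacts.refl_simple]
      exact hflip _ (hR.neg_of_pos hp)
    · rw [wact_append, wact_cons]
      apply hflip
      apply hR.refl_neg_root hj hnb
      intro e
      apply h2
      have := congrArg (wact D w) e
      have h4 := hR.wact_reverse hwr hb
      rw [List.reverse_reverse] at h4
      rw [h4, hR.wact_neg hw hp.1] at this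
      exact this

namespace CExt

variable {hA : AddFact D K} {E : Type*} [Group E] (C : CExt D K hA E)
variable (hD : D ∈ [chevG2, chevB2, chevD4, chevF4, chevE6, chevE7, chevE8])
include hD

/-- conjugation by lifts of the monomial elements -/
theorem conj_Z_nword {l : List ℕ} (hl : ∀ i ∈ l, i < D.rank) {e : E} (he : C.ρ e = hA.nword l) {r : ℕ}
    (hr : r < D.nroots) : ∃ d : K, ∀ t, e * C.Z r t * e⁻¹ = C.Z (wact D l r) (d * t) := by
  have b := bundle_of_mem K hD
  obtain ⟨d, -, h1⟩ := la_nword hD hA hl r hr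
  exact ⟨d, C.conj_Z hr (b.hR.wact_lt hl hr) (by rw [he]; exact h1)
    (by rw [he]; exact nword_conj_hG hD hA hl hr C.ha)⟩

variable (T : StTab D)
include T

/-- the relations (R2), as conjugation formulas -/
theorem conj_rel (hc : C.ZComm) (hS : SepG hA) (hP : TermsPos D) {a b : ℕ} (ha : a < D.nroots)
    (hb : b < D.nroots) (h1 : b ≠ a) (h2 : b ≠ D.neg a) (t u : K) :
    C.Z a t * C.Z b u * (C.Z a t)⁻¹ = C.Z b u * WW C.Z (D.commWord K a b (-t) u) := by
  have bb := bundle_of_mem K hD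
  obtain ⟨l, hl, pa, pb⟩ := exists_pos_word hD ha hb h2
  have pc := hP l hl a ha b hb h1 h2 pa pb
  obtain ⟨e, he⟩ := C.lift (hA.nword l) (hA.mono_le_group (hA.nword_mem_mono bb.hR hl))
  set L := b :: (D.commTerms a b).map (·.1) with hL
  have hmem : ∀ c ∈ D.commTerms a b, c.1 ∈ L := fun c hc => by
    rw [hL]; exact List.mem_cons_of_mem _ (List.mem_map_of_mem hc)
  have y1 : C.Z a t * C.Z b u * (C.Z a t)⁻¹ ∈ Cl C.Z L :=
    C.conj_mem_Cl_of_sep hD hc hS ha hb h1 h2 (by rw [hL]; simp) hmem t u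
  have y2 : C.Z b u * WW C.Z (D.commWord K a b (-t) u) ∈ Cl C.Z L := by
    refine mul_mem (X_mem_Cl _ (by rw [hL]; simp) u) (WW_mem_Cl _ fun p hp => ?_)
    obtain ⟨c, hc, e⟩ := StSys.mem_commWord hp
    rw [e]; exact hmem c hc
  have key : ∀ g ∈ Cl C.Z L, e * g * e⁻¹ ∈ Cl C.Z D.posRoots := by
    intro g hg
    induction hg using Subgroup.closure_induction with
    | mem x hx =>
      obtain ⟨c, hcL, s, rfl⟩ := hx
      by_cases hcr : c < D.nroots
      · obtain ⟨d, hd⟩ := C.conj_Z_nword hD hl he hcr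
        rw [hd]
        apply X_mem_Cl
        rw [mem_posRoots]
        rw [hL] at hcL
        rcases List.mem_cons.1 hcL with h | h
        · rw [h]; exact pb
        · obtain ⟨c', hc', rfl⟩ := List.mem_map.1 h
          exact pc c' hc'
      · rw [C.Z_of_ge hcr, mul_one, mul_inv_cancel]; exact one_mem _
    | one => rw [mul_one, mul_inv_cancel]; exact one_mem _
    | mul x y _ _ ihx ihy =>
      have : e * (x * y) * e⁻¹ = (e * x * e⁻¹) * (e * y * e⁻¹) := by group
      rw [this]; exact mul_mem ihx ihy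
    | inv x _ ih =>
      have : e * x⁻¹ * e⁻¹ = (e * x * e⁻¹)⁻¹ := by group
      rw [this]; exact inv_mem ih
  have := C.inj_pos hD T hc hS (key _ y1) (key _ y2) (by
    simp only [map_mul, map_inv, C.rho_Z hD, C.rho_WW hD]
    rw [conj_eq_G hD ha hb h1 h2])
  exact mul_left_cancel (mul_right_cancel this)

theorem comm_rel (hc : C.ZComm) (hS : SepG hA) (hP : TermsPos D) {r s : ℕ} (hr : r < D.nroots)
    (hs : s < D.nroots) (h1 : s ≠ r) (h2 : s ≠ D.neg r) (t u : K) :
    (C.Z s u)⁻¹ * (C.Z r t)⁻¹ * C.Z s u * C.Z r t = WW C.Z (D.commWord K r s t u) := by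
  have := C.conj_rel hD T hc hS hP hr hs h1 h2 (-t) u
  rw [C.Z_neg hD hc, neg_neg, inv_inv] at this
  rw [mul_assoc, mul_assoc, ← mul_assoc (C.Z r t)⁻¹, this, inv_mul_cancel_left]

omit hD T in
/-- the images of the free generators -/
noncomputable def fE : Fin D.nroots × K → E := fun x => C.Z x.1 x.2

omit hD T in
theorem lift_stX (r : ℕ) (t : K) : FreeGroup.lift C.fE (D.stX r t) = C.Z r t := by
  unfold ChevalleyDatum.stX
  by_cases h : r < D.nroots
  · rw [dif_pos h, FreeGroup.lift_apply_of]; rfl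
  · rw [dif_neg h, map_one, C.Z_of_ge h]

omit hD T in
theorem lift_stWord (w : List (ℕ × K)) : FreeGroup.lift C.fE (D.stWord w) = WW C.Z w := by
  unfold ChevalleyDatum.stWord WW
  rw [map_list_prod, List.map_map]
  congr 1
  apply List.map_congr_left
  intro p _
  exact C.lift_stX p.1 p.2

theorem lift_relsAB (hc : C.ZComm) (hS : SepG hA) (hP : TermsPos D) :
    ∀ g ∈ D.steinbergRelsAB K, FreeGroup.lift C.fE g = 1 := by
  rintro g (⟨r, t₁, t₂, _, rfl⟩ | ⟨r, s, t, u, hr, hs, h1, h2, rfl⟩)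
  · simp only [map_mul, map_inv, lift_stX, C.Z_add hD hc, mul_inv_cancel]
  · simp only [map_mul, map_inv, lift_stX, lift_stWord]
    rw [C.comm_rel hD T hc hS hP hr hs h1 h2, mul_inv_cancel]

/-- the cover lifts to every central extension -/
theorem exists_lift (hc : C.ZComm) (hS : SepG hA) (hP : TermsPos D) :
    ∃ τ : D.SteinbergCover K →* E, ∀ x, C.ρ (τ x) = (sysCover hD hA).π x := by
  refine ⟨PresentedGroup.toGroup (f := C.fE) (C.lift_relsAB hD T hc hS hP), fun x => ?_⟩
  have : C.ρ.comp (PresentedGroup.toGroup (f := C.fE) (C.lift_relsAB hD T hc hS hP)) = (sysCover hD hA).π := by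
    apply PresentedGroup.ext
    rintro ⟨⟨r, hr⟩, t⟩
    have e1 : (PresentedGroup.of (⟨r, hr⟩, t) : D.SteinbergCover K) = (sysCover hD hA).X r t := by
      rw [sysCover_X]
      simp [ChevalleyDatum.scGen, ChevalleyDatum.stX, hr, PresentedGroup.of]
    rw [MonoidHom.comp_apply, PresentedGroup.toGroup.of, e1, (sysCover hD hA).hπ]
    exact C.rho_Z hD r t
  exact DFunLike.congr_fun this x

end CExt

end Cfsg.Agent.Lib.Helper23.StP
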