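import Cfsg.Agent.Lib.Helper23.StM0
import Cfsg.Agent.Lib.Helper23.StU3

/-!
# Central extensions of Chevalley groups of type `E₆`, `E₇`, `E₈` over an arbitrary field
-/

set_option autoImplicit false

namespace Cfsg.Agent.Lib.Helper23.StP

open Cfsg.Lie Matrix Cfsg.Agent.Lib.Helper23 Cfsg.Agent.Lib.Helper22 Cfsg.Agent.Lib.Helper45

theorem hall_id {G : Type*} [Group G] {u v w p q : G} (hp : p = u * v * u⁻¹ * v⁻¹)
    (hq : q = v * w * v⁻¹ * w⁻¹) (h1 : u * w = w * u) (h2 : p * q = q * p)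
    (h3 : q * (p * w * p⁻¹ * w⁻¹) = (p * w * p⁻¹ * w⁻¹) * q) :
    u * q * u⁻¹ * q⁻¹ = p * w * p⁻¹ * w⁻¹ := by
  have e1 : u * w * u⁻¹ = w := by rw [h1, mul_inv_cancel_right]
  have e2 : u * q * u⁻¹ = (u * v * u⁻¹) * (u * w * u⁻¹) * (u * v * u⁻¹)⁻¹ * (u * w * u⁻¹)⁻¹ := by
    rw [hq]; group
  have e3 : u * v * u⁻¹ = p * v := by rw [hp]; group
  have e4 : (p * v) * w * (p * v)⁻¹ * w⁻¹ = p * q * p⁻¹ * (p * w * p⁻¹ * w⁻¹) := by rw [hq]; group
  rw [mul_inv_eq_iff_eq_mul, e2, e1, e3, e4, h2, mul_inv_cancel_right, h3]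

theorem exists_fun_lt {α : Type*} [Inhabited α] {n : ℕ} {P : ℕ → α → Prop} (h : ∀ c < n, ∃ x, P c x) :
    ∃ f : ℕ → α, ∀ c < n, P c (f c) :=
  ⟨fun c => if hc : c < n then (h c hc).choose else default, fun c hc => by
    simp only [hc, dif_pos]; exact (h c hc).choose_spec⟩

variable {D : ChevalleyDatum} {K : Type*} [Field K]

section G

variable (hD : D ∈ [chevG2, chevB2, chevD4, chevF4, chevE6, chevE7, chevE8]) (hA : AddFact D K)
include hD

theorem cm_G {a b : ℕ} (h : Cm D a b) (t u : K) : hA.X a t * hA.X b u = hA.X b u * hA.X a t := by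
  obtain ⟨ha, hb, rfl | ⟨h1, h2, h0⟩⟩ := h
  · rw [← hA.X_add, add_comm, hA.X_add]
  · have := CExt.conj_eq_G (hA := hA) hD ha hb h1 h2 t u
    simp only [ChevalleyDatum.commWord, h0, List.map_nil, WW_nil, mul_one] at this
    rwa [mul_inv_eq_iff_eq_mul] at this

theorem dec_G {a b c : ℕ} {N : ℤ} (h : Dec D a b c N) (t u : K) :
    hA.X a t * hA.X b u * (hA.X a t)⁻¹ * (hA.X b u)⁻¹ = hA.X c ((N : K) * t * u) := by
  obtain ⟨ha, hb, -, h1, h2, -, h0⟩ := h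
  have := comm_G hD hA ha hb h1 h2 (-t) (-u)
  simp only [ChevalleyDatum.commWord, h0, List.map_cons, List.map_nil, WW_cons, WW_nil, mul_one, neg_neg,
    pow_one, ← hA.X_inv, inv_inv] at this
  have e : hA.X a t * hA.X b u * (hA.X a t)⁻¹ * (hA.X b u)⁻¹ =
      (hA.X b u * hA.X a t * (hA.X b u)⁻¹ * (hA.X a t)⁻¹)⁻¹ := by group
  rw [e, this, hA.X_inv]
  congr 1
  ring

end G

/-- a family of lifts satisfying (R1), (R2) gives a lift of the cover -/
theorem lift_of_Z (hD : D ∈ [chevG2, chevB2, chevD4, chevF4, chevE6, chevE7, chevE8]) (hA : AddFact D K)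
    {E : Type*} [Group E] (ρ : E →* GL D.Idx K) (Z : ℕ → K → E) (hge : ∀ r, ¬ r < D.nroots → ∀ t, Z r t = 1)
    (hρ : ∀ r t, ρ (Z r t) = hA.X r t) (hadd : ∀ r t u, Z r (t + u) = Z r t * Z r u)
    (hcomm : ∀ r s t u, r < D.nroots → s < D.nroots → s ≠ r → s ≠ D.neg r →
      (Z s u)⁻¹ * (Z r t)⁻¹ * Z s u * Z r t = WW Z (D.commWord K r s t u)) :
    ∃ τ : D.SteinbergCover K →* E, ∀ x, ρ (τ x) = (sysCover hD hA).π x := by
  let f : Fin D.nroots × K → E := fun x => Z x.1 x.2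
  have l1 : ∀ r t, FreeGroup.lift f (D.stX r t) = Z r t := by
    intro r t
    unfold ChevalleyDatum.stX
    by_cases h : r < D.nroots
    · rw [dif_pos h, FreeGroup.lift_apply_of]
    · rw [dif_neg h, map_one, hge r h]
  have l2 : ∀ w : List (ℕ × K), FreeGroup.lift f (D.stWord w) = WW Z w := by
    intro w
    unfold ChevalleyDatum.stWord WW
    rw [map_list_prod, List.map_map]
    congr 1
    apply List.map_congr_left
    intro p _
    exact l1 p.1 p.2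
  have l3 : ∀ g ∈ D.steinbergRelsAB K, FreeGroup.lift f g = 1 := by
    rintro g (⟨r, t₁, t₂, _, rfl⟩ | ⟨r, s, t, u, hr, hs, h1, h2, rfl⟩)
    · simp only [map_mul, map_inv, l1, hadd, mul_inv_cancel]
    · simp only [map_mul, map_inv, l1, l2]
      rw [hcomm r s t u hr hs h1 h2, mul_inv_cancel]
  refine ⟨PresentedGroup.toGroup (f := f) l3, fun x => ?_⟩
  have : ρ.comp (PresentedGroup.toGroup (f := f) l3) = (sysCover hD hA).π := by
    apply PresentedGroup.ext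
    rintro ⟨⟨r, hr⟩, t⟩
    have e1 : (PresentedGroup.of (⟨r, hr⟩, t) : D.SteinbergCover K) = (sysCover hD hA).X r t := by
      rw [sysCover_X]
      simp [ChevalleyDatum.scGen, ChevalleyDatum.stX, hr, PresentedGroup.of]
    rw [MonoidHom.comp_apply, PresentedGroup.toGroup.of, e1, (sysCover hD hA).hπ]
    exact hρ r t
  exact DFunLike.congr_fun this x

section E

variable (hD : D ∈ [chevG2, chevB2, chevD4, chevF4, chevE6, chevE7, chevE8]) {hA : AddFact D K}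
  (T : SLTab D) {E : Type*} [Group E] (ρ : E →* GL D.Idx K) (cen : ρ.ker ≤ Subgroup.center E)
  (lift : ∀ g ∈ D.group K, ∃ e, ρ e = g)
include hD T cen lift

/-- lifts of commuting root elements commute -/
theorem lifts_comm {a b : ℕ} (h : Cm D a b) {y z : E} {t u : K} (hy : ρ y = hA.X a t)
    (hz : ρ z = hA.X b u) : y * z = z * y := by
  obtain ⟨g, d, N, hdec, hag, had⟩ := T.wit a b h
  obtain ⟨eg, heg⟩ := lift _ (hA.X_mem_group g ((N : K) * u))
  obtain ⟨ed, hed⟩ := lift _ (hA.X_mem_group d 1)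
  have hNN : (N : K) * (N : K) = 1 := by rcases hdec.2.2.2.2.2.1 with rfl | rfl <;> simp
  have hk : ρ z = ρ (eg * ed * eg⁻¹ * ed⁻¹) := by
    rw [hz, map_mul, map_mul, map_mul, map_inv, map_inv, heg, hed, dec_G hD hA hdec, ← mul_assoc, hNN,
      one_mul, mul_one]
  have c1 : y * (eg * ed * eg⁻¹ * ed⁻¹) * y⁻¹ = eg * ed * eg⁻¹ * ed⁻¹ := by
    have : y * (eg * ed * eg⁻¹ * ed⁻¹) * y⁻¹ =
        (y * eg * y⁻¹) * (y * ed * y⁻¹) * (y * eg * y⁻¹)⁻¹ * (y * ed * y⁻¹)⁻¹ := by group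
    rw [this]
    exact comm_lift ρ cen (by rw [map_mul, map_mul, map_inv, hy, heg, cm_G hD hA hag, mul_inv_cancel_right])
      (by rw [map_mul, map_mul, map_inv, hy, hed, cm_G hD hA had, mul_inv_cancel_right])
  have c3 := conj_lift ρ cen hk y
  have c4 : (eg * ed * eg⁻¹ * ed⁻¹) * y * (eg * ed * eg⁻¹ * ed⁻¹)⁻¹ = y := by
    rw [mul_inv_eq_iff_eq_mul] at c1 ⊢
    exact c1.symm
  rw [c4, mul_inv_eq_iff_eq_mul] at c3
  exact c3.symm

/-- the associativity of the lifted commutators -/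
theorem link_id {a b a' b' c : ℕ} (h : Link D a b a' b' c) :
    ∃ N₁ N₂ : K, N₂ * N₂ = 1 ∧ ∀ (t s r : K) (x y x' y' : E), ρ x = hA.X a t → ρ y = hA.X b (N₂ * s * r) →
      ρ x' = hA.X a' (N₁ * t * s) → ρ y' = hA.X b' r → x * y * x⁻¹ * y⁻¹ = x' * y' * x'⁻¹ * y'⁻¹ := by
  obtain ⟨κ, N₁, N₂, N₃, d1, d2, d3, c1, c2, c3⟩ := h
  refine ⟨N₁, N₂, by rcases d2.2.2.2.2.2.1 with rfl | rfl <;> simp, fun t s r x y x' y' hx hy hx' hy' => ?_⟩
  obtain ⟨v, hv⟩ := lift _ (hA.X_mem_group κ s)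
  have hp : ρ (x * v * x⁻¹ * v⁻¹) = hA.X a' ((N₁ : K) * t * s) := by
    rw [map_mul, map_mul, map_mul, map_inv, map_inv, hx, hv, dec_G hD hA d1]
  have hq : ρ (v * y' * v⁻¹ * y'⁻¹) = hA.X b ((N₂ : K) * s * r) := by
    rw [map_mul, map_mul, map_mul, map_inv, map_inv, hv, hy', dec_G hD hA d2]
  rw [comm_lift ρ cen (x := x) (x' := x) (y := y) (y' := v * y' * v⁻¹ * y'⁻¹) rfl (by rw [hy, hq]),
    comm_lift ρ cen (x := x') (x' := x * v * x⁻¹ * v⁻¹) (y := y') (y' := y') (by rw [hx', hp]) rfl]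
  apply hall_id rfl rfl
  · exact lifts_comm hD T ρ cen lift c1 hx hy'
  · exact lifts_comm hD T ρ cen lift c2 hp hq
  · refine lifts_comm hD T ρ cen lift c3 hq (t := _) (u := (N₃ : K) * ((N₁ : K) * t * s) * r) ?_
    rw [map_mul, map_mul, map_mul, map_inv, map_inv, hp, hy', dec_G hD hA d3]

end E

end Cfsg.Agent.Lib.Helper23.StP
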