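import Cfsg.Agent.Lib.Helper23.StM1

/-!
# The cover of a Chevalley group of type `E₆`, `E₇`, `E₈` lifts to every central extension
-/

set_option autoImplicit false

namespace Cfsg.Agent.Lib.Helper23.StP

open Cfsg.Lie Matrix Cfsg.Agent.Lib.Helper23 Cfsg.Agent.Lib.Helper22 Cfsg.Agent.Lib.Helper45

variable {D : ChevalleyDatum} {K : Type*} [Field K]

theorem exists_lift_sl (hD : D ∈ [chevG2, chevB2, chevD4, chevF4, chevE6, chevE7, chevE8]) (hA : AddFact D K)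
    (T : SLTab D) {E : Type*} [Group E] (ρ : E →* GL D.Idx K) (cen : ρ.ker ≤ Subgroup.center E)
    (lift : ∀ g ∈ D.group K, ∃ e, ρ e = g) :
    ∃ τ : D.SteinbergCover K →* E, ∀ x, ρ (τ x) = (sysCover hD hA).π x := by
  classical
  obtain ⟨f, hf⟩ := exists_fun_lt (α := ℕ × ℕ × ℤ) (n := D.nroots)
    (P := fun c x => Dec D x.1 x.2.1 c x.2.2 ∧ (∃ a' b', Link D x.1 x.2.1 a' b' c) ∧
      ∀ a b N, Dec D a b c N → (a = x.1 ∧ b = x.2.1) ∨ (a = x.2.1 ∧ b = x.1) ∨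
        Link D a b x.1 x.2.1 c ∨ Link D a b x.2.1 x.1 c)
    (fun c hc => by obtain ⟨a₀, b₀, N₀, h⟩ := T.link c hc; exact ⟨(a₀, b₀, N₀), h⟩)
  choose xL hxL using fun (p : ℕ × K) => lift _ (hA.X_mem_group p.1 p.2)
  let Z : ℕ → K → E := fun c t => if c < D.nroots then
    xL ((f c).1, 1) * xL ((f c).2.1, ((f c).2.2 : K) * t) * (xL ((f c).1, 1))⁻¹ *
      (xL ((f c).2.1, ((f c).2.2 : K) * t))⁻¹ else 1
  have hZ : ∀ c, c < D.nroots → ∀ t, Z c t = xL ((f c).1, 1) * xL ((f c).2.1, ((f c).2.2 : K) * t) *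
      (xL ((f c).1, 1))⁻¹ * (xL ((f c).2.1, ((f c).2.2 : K) * t))⁻¹ := by
    intro c hc t
    simp only [Z, if_pos hc]
  have hge : ∀ r, ¬ r < D.nroots → ∀ t, Z r t = 1 := by
    intro r hr t
    simp only [Z, if_neg hr]
  have hNN : ∀ c, c < D.nroots → ((f c).2.2 : K) * ((f c).2.2 : K) = 1 := by
    intro c hc
    rcases (hf c hc).1.2.2.2.2.2.1 with h | h <;> simp [h]
  have Zeq : ∀ c, c < D.nroots → ∀ (x y : E) (s : K), ρ x = hA.X (f c).1 1 → ρ y = hA.X (f c).2.1 s →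
      x * y * x⁻¹ * y⁻¹ = Z c (((f c).2.2 : K) * s) := by
    intro c hc x y s hx hy
    rw [hZ c hc, ← mul_assoc, hNN c hc, one_mul]
    exact comm_lift ρ cen (by rw [hx, hxL]) (by rw [hy, hxL])
  have hρ : ∀ r t, ρ (Z r t) = hA.X r t := by
    intro r t
    by_cases hr : r < D.nroots
    · rw [hZ r hr, map_mul, map_mul, map_mul, map_inv, map_inv, hxL, hxL, dec_G hD hA (hf r hr).1, mul_one,
        ← mul_assoc, hNN r hr, one_mul]
    · rw [hge r hr, map_one]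
      exact (Units.ext (x_of_ge hr t)).symm
  have cbc : ∀ c, c < D.nroots → Cm D (f c).2.1 c := by
    intro c hc
    obtain ⟨a', b', κ, N₁, N₂, N₃, -, -, -, -, -, c3⟩ := (hf c hc).2.1
    exact c3
  have hadd : ∀ r t u, Z r (t + u) = Z r t * Z r u := by
    intro r t u
    by_cases hr : r < D.nroots
    · have e1 := Zeq r hr (xL ((f r).1, 1)) (xL ((f r).2.1, ((f r).2.2 : K) * t) * xL ((f r).2.1, ((f r).2.2 : K) * u))
        (((f r).2.2 : K) * t + ((f r).2.2 : K) * u) (hxL _) (by rw [map_mul, hxL, hxL, hA.X_add])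
      have e2 : ((f r).2.2 : K) * (((f r).2.2 : K) * t + ((f r).2.2 : K) * u) = t + u := by
        rw [mul_add, ← mul_assoc, ← mul_assoc, hNN r hr, one_mul, one_mul]
      rw [e2] at e1
      rw [← e1]
      set x := xL ((f r).1, 1) with hx
      set y := xL ((f r).2.1, ((f r).2.2 : K) * t) with hy
      set y' := xL ((f r).2.1, ((f r).2.2 : K) * u) with hy'
      have e3 : x * (y * y') * x⁻¹ * (y * y')⁻¹ = (x * y * x⁻¹ * y⁻¹) * (y * (x * y' * x⁻¹ * y'⁻¹) * y⁻¹) := by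
        group
      have e4 : Z r t = x * y * x⁻¹ * y⁻¹ := hZ r hr t
      have e5 : Z r u = x * y' * x⁻¹ * y'⁻¹ := hZ r hr u
      rw [e3, ← e4, ← e5, lifts_comm hD T ρ cen lift (cbc r hr) (hxL _) (hρ r u), mul_inv_cancel_right]
    · rw [hge r hr, hge r hr, hge r hr, one_mul]
  have Zinv : ∀ r t, (Z r t)⁻¹ = Z r (-t) := fun r t => (StP.X_neg Z hadd r t).symm
  have star0 : ∀ c, c < D.nroots → ∀ (t u : K) (x y : E), ρ x = hA.X (f c).1 t → ρ y = hA.X (f c).2.1 u →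
      ∃ z, x * y * x⁻¹ * y⁻¹ = Z c z := by
    intro c hc t u x y hx hy
    obtain ⟨a', b', hl⟩ := (hf c hc).2.1
    obtain ⟨N₁, N₂, hN₂, H⟩ := link_id (hA := hA) hD T ρ cen lift hl
    have h1 := H t 1 (N₂ * u) x y (xL (a', N₁ * t * 1)) (xL (b', N₂ * u)) hx
      (by rw [hy, mul_one, ← mul_assoc, hN₂, one_mul]) (hxL _) (hxL _)
    have h2 := H 1 t (N₂ * u) (xL ((f c).1, 1)) (xL ((f c).2.1, N₂ * t * (N₂ * u))) (xL (a', N₁ * t * 1))
      (xL (b', N₂ * u)) (hxL _) (hxL _) (by rw [hxL]; congr 1; ring) (hxL _)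
    exact ⟨_, by rw [h1, ← h2]; exact Zeq c hc _ _ _ (hxL _) (hxL _)⟩
  have swap : ∀ (x y : E), x * y * x⁻¹ * y⁻¹ = (y * x * y⁻¹ * x⁻¹)⁻¹ := by intro x y; group
  have star : ∀ a b c N, Dec D a b c N → ∀ (t u : K) (x y : E), ρ x = hA.X a t → ρ y = hA.X b u →
      ∃ z, x * y * x⁻¹ * y⁻¹ = Z c z := by
    intro a b c N hdec t u x y hx hy
    have hc := hdec.2.2.1
    rcases (hf c hc).2.2 a b N hdec with ⟨rfl, rfl⟩ | ⟨rfl, rfl⟩ | hl | hl
    · exact star0 c hc t u x y hx hy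
    · obtain ⟨z, hz⟩ := star0 c hc u t y x hy hx
      exact ⟨-z, by rw [swap, hz, Zinv]⟩
    · obtain ⟨N₁, N₂, hN₂, H⟩ := link_id (hA := hA) hD T ρ cen lift hl
      have h1 := H t 1 (N₂ * u) x y (xL ((f c).1, N₁ * t * 1)) (xL ((f c).2.1, N₂ * u)) hx
        (by rw [hy, mul_one, ← mul_assoc, hN₂, one_mul]) (hxL _) (hxL _)
      rw [h1]
      exact star0 c hc _ _ _ _ (hxL _) (hxL _)
    · obtain ⟨N₁, N₂, hN₂, H⟩ := link_id (hA := hA) hD T ρ cen lift hl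
      have h1 := H t 1 (N₂ * u) x y (xL ((f c).2.1, N₁ * t * 1)) (xL ((f c).1, N₂ * u)) hx
        (by rw [hy, mul_one, ← mul_assoc, hN₂, one_mul]) (hxL _) (hxL _)
      obtain ⟨z, hz⟩ := star0 c hc _ _ _ _ (hxL ((f c).1, N₂ * u)) (hxL ((f c).2.1, N₁ * t * 1))
      exact ⟨-z, by rw [h1, swap, hz, Zinv]⟩
  refine lift_of_Z hD hA ρ Z hge hρ hadd ?_
  intro r s t u hr hs h1 h2
  rcases T.one r hr s hs h1 h2 with h0 | ⟨c, N, hdec⟩
  · simp only [ChevalleyDatum.commWord, h0, List.map_nil, WW_nil]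
    have := lifts_comm hD T ρ cen lift (a := r) (b := s) ⟨hr, hs, Or.inr ⟨h1, h2, h0⟩⟩ (hρ r t) (hρ s u)
    rw [mul_assoc, mul_assoc, ← this]
    group
  · obtain ⟨z, hz⟩ := star r s c N hdec (-t) (-u) (Z r t)⁻¹ (Z s u)⁻¹
      (by rw [map_inv, hρ, hA.X_inv]) (by rw [map_inv, hρ, hA.X_inv])
    have e1 : (Z s u)⁻¹ * (Z r t)⁻¹ * Z s u * Z r t = Z c (-z) := by
      rw [← Zinv, ← hz]; group
    have e2 := congrArg ρ e1
    simp only [map_mul, map_inv, hρ] at e2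
    rw [comm_G hD hA hr hs h1 h2] at e2
    have h0 := hdec.2.2.2.2.2.2
    simp only [ChevalleyDatum.commWord, h0, List.map_cons, List.map_nil, WW_cons, WW_nil, mul_one] at e2 ⊢
    rw [e1, X_inj hD hA hdec.2.2.1 e2]

end Cfsg.Agent.Lib.Helper23.StP
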