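import Cfsg.Agent.Lib.Helper23.StM1

/-!
# Central extensions without `p`-torsion in the kernel: lifting by elements of order `p`
-/

set_option autoImplicit false

namespace Cfsg.Agent.Lib.Helper23.StP

open Cfsg.Lie Matrix Cfsg.Agent.Lib.Helper23 Cfsg.Agent.Lib.Helper22 Cfsg.Agent.Lib.Helper45

variable {D : ChevalleyDatum} {K : Type*} [Field K]

omit [Field K] in
theorem Cl_nil {Γ : Type*} [Group Γ] (X : ℕ → K → Γ) {g : Γ} (hg : g ∈ Cl X []) : g = 1 := by
  have : Cl X [] = ⊥ := by
    unfold Cl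
    rw [Subgroup.closure_eq_bot_iff]
    rintro x ⟨c, hc, _⟩
    simp at hc
  rw [this] at hg
  exact Subgroup.mem_bot.1 hg

theorem exists_lift_p (hD : D ∈ [chevG2, chevB2, chevD4, chevF4, chevE6, chevE7, chevE8]) (hA : AddFact D K)
    (T : StTab D) (hP : TermsPos D) (p : ℕ) {E : Type*} [Group E] (ρ : E →* GL D.Idx K)
    (cen : ρ.ker ≤ Subgroup.center E) (lift : ∀ g ∈ D.group K, ∃ e, ρ e = g)
    (H1 : ∀ z, ρ z = 1 → z ^ p = 1 → z = 1) (H2 : ∀ r t, ∃ e, ρ e = hA.X r t ∧ e ^ p = 1) :
    ∃ τ : D.SteinbergCover K →* E, ∀ x, ρ (τ x) = (sysCover hD hA).π x := by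
  classical
  have bb := bundle_of_mem K hD
  choose Z₀ hZ₀ using fun (q : ℕ × K) => H2 q.1 q.2
  let Z : ℕ → K → E := fun r t => if r < D.nroots then Z₀ (r, t) else 1
  have hge : ∀ r, ¬ r < D.nroots → ∀ t, Z r t = 1 := by
    intro r hr t
    simp only [Z, if_neg hr]
  have hρ : ∀ r t, ρ (Z r t) = hA.X r t := by
    intro r t
    by_cases hr : r < D.nroots
    · simp only [Z, if_pos hr]; exact (hZ₀ (r, t)).1
    · rw [hge r hr, map_one]
      exact (Units.ext (x_of_ge hr t)).symm
  have hpow : ∀ r t, Z r t ^ p = 1 := by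
    intro r t
    by_cases hr : r < D.nroots
    · simp only [Z, if_pos hr]; exact (hZ₀ (r, t)).2
    · rw [hge r hr, one_pow]
  have H1' : ∀ (k : ℕ) (z : E), ρ z = 1 → z ^ (p ^ k) = 1 → z = 1 := by
    intro k
    induction k with
    | zero => intro z _ h; simpa using h
    | succ k ih =>
      intro z hz h
      apply ih z hz
      apply H1 _ (by rw [map_pow, hz, one_pow])
      rw [← pow_mul, ← pow_succ]; exact h
  have uniqP : ∀ e e' : E, ρ e = ρ e' → (∃ k, e ^ (p ^ k) = 1) → (∃ k, e' ^ (p ^ k) = 1) → e = e' := by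
    rintro e e' he ⟨k₁, h₁⟩ ⟨k₂, h₂⟩
    have hz : ρ (e'⁻¹ * e) = 1 := by rw [map_mul, map_inv, he, inv_mul_cancel]
    have hc : Commute e' (e'⁻¹ * e) :=
      (Subgroup.mem_center_iff.1 (cen (MonoidHom.mem_ker.2 hz)) e')
    have e1 : e = e' * (e'⁻¹ * e) := by group
    have g1 : e ^ (p ^ (k₁ + k₂)) = 1 := by rw [pow_add, pow_mul, h₁, one_pow]
    have g2 : e' ^ (p ^ (k₁ + k₂)) = 1 := by rw [pow_add, mul_comm, pow_mul, h₂, one_pow]
    have g3 : (e'⁻¹ * e) ^ (p ^ (k₁ + k₂)) = 1 := by
      have := hc.mul_pow (p ^ (k₁ + k₂))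
      rw [← e1, g1, g2, one_mul] at this
      exact this.symm
    have := H1' _ _ hz g3
    rw [e1, this, mul_one]
  have isP1 : ∀ r t, ∃ k, Z r t ^ (p ^ k) = 1 := fun r t => ⟨1, by rw [pow_one]; exact hpow r t⟩
  have conjP : ∀ (g e : E), (∃ k, e ^ (p ^ k) = 1) → ∃ k, (g * e * g⁻¹) ^ (p ^ k) = 1 := by
    rintro g e ⟨k, hk⟩
    exact ⟨k, by rw [conj_pow, hk, mul_one, mul_inv_cancel]⟩
  have hcommZ : ∀ r t u, Z r t * Z r u = Z r u * Z r t := by
    intro r t u
    have := uniqP (Z r t * Z r u * (Z r t)⁻¹) (Z r u)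
      (by rw [map_mul, map_mul, map_inv, hρ, hρ, ← hA.X_add, add_comm, hA.X_add, mul_inv_cancel_right])
      (conjP _ _ (isP1 r u)) (isP1 r u)
    rwa [mul_inv_eq_iff_eq_mul] at this
  have hadd : ∀ r t u, Z r (t + u) = Z r t * Z r u := by
    intro r t u
    apply uniqP _ _ (by rw [map_mul, hρ, hρ, hρ, hA.X_add]) (isP1 r _)
    exact ⟨1, by rw [pow_one, (show Commute (Z r t) (Z r u) from hcommZ r t u).mul_pow, hpow, hpow, one_mul]⟩
  have natN : ∀ (l : List ℕ), (∀ i ∈ l, i < D.rank) → ∀ e : E, ρ e = hA.nword l → ∀ r, r < D.nroots →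
      ∃ d : K, ∀ t, e * Z r t * e⁻¹ = Z (wact D l r) (d * t) := by
    intro l hl e he r hr
    obtain ⟨d, -, h1⟩ := la_nword hD hA hl r hr
    exact ⟨d, fun t => uniqP _ _ (by rw [map_mul, map_mul, map_inv, hρ, hρ, he, h1])
      (conjP _ _ (isP1 r t)) (isP1 _ _)⟩
  -- the positive part consists of `p`-elements
  have allP : ∀ (L pre : List ℕ), D.posRoots = pre ++ L → ∀ g ∈ Cl Z L, ∃ k, g ^ (p ^ k) = 1 := by
    intro L
    induction L with
    | nil => intro pre _ g hg; exact ⟨0, by rw [Cl_nil Z hg, one_pow]⟩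
    | cons a L' ih =>
      intro pre hpre g hg
      have ihL := ih (pre ++ [a]) (by rw [hpre]; simp)
      have hs := posRoots_sorted D
      rw [hpre, List.pairwise_append] at hs
      obtain ⟨-, hs2, hs3⟩ := hs
      have hs2' := List.pairwise_cons.1 hs2
      have hmemP : ∀ c, c ∈ a :: L' → D.IsPosRoot c := fun c hc =>
        (mem_posRoots D c).1 (by rw [hpre]; exact List.mem_append_right _ hc)
      have ha := hmemP a (by simp)
      have hup : ∀ c, D.IsPosRoot c → a < c → c ∈ L' := by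
        intro c hc hac
        have := (mem_posRoots D c).2 hc
        rw [hpre] at this
        rcases List.mem_append.1 this with h | h
        · exact absurd (hs3 c h a (by simp)) (by omega)
        · rcases List.mem_cons.1 h with h | h
          · omega
          · exact h
      have norm : ∀ t, ∀ b ∈ L', ∀ u, Z a t * Z b u * (Z a t)⁻¹ ∈ Cl Z L' := by
        intro t b hb u
        have hbp := hmemP b (by simp [hb])
        have hab := hs2'.1 b hb
        have h2 : b ≠ D.neg a := fun e => bb.hR.not_neg_of_pos hbp (e ▸ bb.hR.neg_of_pos ha)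
        have y' : Z b u * WW Z (D.commWord K a b (-t) u) ∈ Cl Z L' := by
          refine mul_mem (X_mem_Cl _ hb u) (WW_mem_Cl _ fun q hq => ?_)
          obtain ⟨c, hc, e⟩ := StSys.mem_commWord hq
          obtain ⟨h1, h2, -⟩ := T.pos a b ha hbp (ne_of_lt hab) c hc
          rw [e]; exact hup _ h1 h2
        have := uniqP (Z a t * Z b u * (Z a t)⁻¹) (Z b u * WW Z (D.commWord K a b (-t) u))
          (by
            rw [map_mul, map_mul, map_inv, map_mul, hρ, hρ, map_WW,
              CExt.conj_eq_G hD ha.1 hbp.1 (ne_of_gt hab) h2]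
            congr 2
            funext r t
            exact (hρ r t).symm)
          (conjP _ _ (isP1 b u)) (ihL _ y')
        rw [this]; exact y'
      obtain ⟨t, v, hv, rfl⟩ := split_head Z hadd norm hg
      have hxj : ∀ (j : ℕ), ∀ m ∈ Cl Z L', (Z a t) ^ j * m * ((Z a t) ^ j)⁻¹ ∈ Cl Z L' := by
        intro j
        induction j with
        | zero => intro m hm; simpa using hm
        | succ j ihj =>
          intro m hm
          have : (Z a t) ^ (j + 1) * m * ((Z a t) ^ (j + 1))⁻¹ =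
              Z a t * ((Z a t) ^ j * m * ((Z a t) ^ j)⁻¹) * (Z a t)⁻¹ := by
            rw [pow_succ']; group
          rw [this]
          exact conj_mem_Cl Z (norm t) (ihj m hm)
      have hk : ∀ k : ℕ, ∃ m ∈ Cl Z L', (Z a t * v) ^ k = m * (Z a t) ^ k := by
        intro k
        induction k with
        | zero => exact ⟨1, one_mem _, by simp⟩
        | succ k ihk =>
          obtain ⟨m, hm, e⟩ := ihk
          refine ⟨m * ((Z a t) ^ (k + 1) * v * ((Z a t) ^ (k + 1))⁻¹), mul_mem hm (hxj _ v hv), ?_⟩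
          rw [pow_succ, e, pow_succ]; group
      obtain ⟨m, hm, e⟩ := hk p
      rw [hpow, mul_one] at e
      obtain ⟨k, hk'⟩ := ihL m hm
      exact ⟨k + 1, by rw [pow_succ', pow_mul, e, hk']⟩
  have allPos := allP D.posRoots [] rfl
  refine lift_of_Z hD hA ρ Z hge hρ hadd ?_
  have conj_rel : ∀ a b, a < D.nroots → b < D.nroots → b ≠ a → b ≠ D.neg a → ∀ t u : K,
      Z a t * Z b u * (Z a t)⁻¹ = Z b u * WW Z (D.commWord K a b (-t) u) := by
    intro a b ha hb h1 h2 t u
    obtain ⟨l, hl, pa, pb⟩ := exists_pos_word hD ha hb h2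
    have pc := hP l hl a ha b hb h1 h2 pa pb
    obtain ⟨e, he⟩ := lift (hA.nword l) (hA.mono_le_group (hA.nword_mem_mono bb.hR hl))
    set L := a :: b :: (D.commTerms a b).map (·.1) with hL
    have hmem : ∀ c ∈ D.commTerms a b, c.1 ∈ L := fun c hc => by
      rw [hL]; exact List.mem_cons_of_mem _ (List.mem_cons_of_mem _ (List.mem_map_of_mem hc))
    have y1 : Z a t * Z b u * (Z a t)⁻¹ ∈ Cl Z L :=
      mul_mem (mul_mem (X_mem_Cl _ (by rw [hL]; simp) t) (X_mem_Cl _ (by rw [hL]; simp) u))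
        (inv_mem (X_mem_Cl _ (by rw [hL]; simp) t))
    have y2 : Z b u * WW Z (D.commWord K a b (-t) u) ∈ Cl Z L := by
      refine mul_mem (X_mem_Cl _ (by rw [hL]; simp) u) (WW_mem_Cl _ fun q hq => ?_)
      obtain ⟨c, hc, e⟩ := StSys.mem_commWord hq
      rw [e]; exact hmem c hc
    have key : ∀ g ∈ Cl Z L, e * g * e⁻¹ ∈ Cl Z D.posRoots := by
      intro g hg
      induction hg using Subgroup.closure_induction with
      | mem x hx =>
        obtain ⟨c, hcL, s, rfl⟩ := hx
        by_cases hcr : c < D.nroots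
        · obtain ⟨d, hd⟩ := natN l hl e he c hcr
          rw [hd]
          apply X_mem_Cl
          rw [mem_posRoots]
          rw [hL] at hcL
          rcases List.mem_cons.1 hcL with h | h
          · rw [h]; exact pa
          · rcases List.mem_cons.1 h with h | h
            · rw [h]; exact pb
            · obtain ⟨c', hc', rfl⟩ := List.mem_map.1 h
              exact pc c' hc'
        · rw [hge c hcr, mul_one, mul_inv_cancel]; exact one_mem _
      | one => rw [mul_one, mul_inv_cancel]; exact one_mem _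
      | mul x y _ _ ihx ihy =>
        have : e * (x * y) * e⁻¹ = (e * x * e⁻¹) * (e * y * e⁻¹) := by group
        rw [this]; exact mul_mem ihx ihy
      | inv x _ ih =>
        have : e * x⁻¹ * e⁻¹ = (e * x * e⁻¹)⁻¹ := by group
        rw [this]; exact inv_mem ih
    have := uniqP _ _ (by
      simp only [map_mul, map_inv, hρ, map_WW]
      rw [CExt.conj_eq_G hD ha hb h1 h2]) (allPos _ (key _ y1)) (allPos _ (key _ y2))
    exact mul_left_cancel (mul_right_cancel this)
  intro r s t u hr hs h1 h2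
  have := conj_rel r s hr hs h1 h2 (-t) u
  rw [StP.X_neg Z hadd, neg_neg, inv_inv] at this
  rw [mul_assoc, mul_assoc, ← mul_assoc (Z r t)⁻¹, this, inv_mul_cancel_left]

end Cfsg.Agent.Lib.Helper23.StP
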