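import Cfsg.Agent.Lib.Helper23.StP1
import Cfsg.Agent.Lib.Helper23.ChevAll2

/-!
# Projective representations in the natural characteristic lift to the cover
-/

set_option autoImplicit false

namespace Cfsg.Agent.Lib.Helper23.StP

open Cfsg.Lie Matrix Cfsg.Agent.Lib.Helper23 Cfsg.Agent.Lib.Helper22 Cfsg.Agent.Lib.Helper45

section scalars

variable {L : Type*} [Field L] {p : ℕ} [Fact p.Prime] [CharP L p]

theorem units_pow_p_eq_one {a : Lˣ} (h : a ^ p = 1) : a = 1 := by
  apply Units.ext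
  apply frobenius_inj L p
  rw [frobenius_def, frobenius_def, Units.val_one, one_pow, ← Units.val_pow_eq_pow_val, h, Units.val_one]

theorem exists_pth_root {a : Lˣ} {n : ℕ} (hn : 0 < n) (h : a ^ n = 1) : ∃ μ : Lˣ, μ ^ p = a := by
  have hp : p.Prime := Fact.out
  have hcop : p.Coprime (orderOf a) := by
    rw [Nat.Prime.coprime_iff_not_dvd hp]
    rintro ⟨k, hk⟩
    have h1 : (a ^ k) ^ p = 1 := by rw [← pow_mul, mul_comm, ← hk, pow_orderOf_eq_one]
    have h2 := orderOf_dvd_of_pow_eq_one (units_pow_p_eq_one h1)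
    have h3 : 0 < orderOf a := orderOf_pos_iff.2 (isOfFinOrder_iff_pow_eq_one.2 ⟨n, hn, h⟩)
    rw [hk] at h2 h3
    have hk0 : 0 < k := Nat.pos_of_mul_pos_left h3 |> fun _ => by
      rcases Nat.eq_zero_or_pos k with h | h
      · simp [h] at h3
      · exact h
    have := Nat.le_of_dvd hk0 h2
    have hp2 := hp.two_le
    nlinarith
  obtain ⟨m, hm⟩ := exists_pow_eq_self_of_coprime hcop
  exact ⟨a ^ m, by rw [← pow_mul, mul_comm, pow_mul, hm]⟩

theorem center_pow_p_eq_one {n : ℕ} {c : GL (Fin n) L} (hc : c ∈ Subgroup.center (GL (Fin n) L))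
    (h : c ^ p = 1) : c = 1 := by
  rw [Matrix.GeneralLinearGroup.center_eq_range_scalar] at hc
  obtain ⟨a, rfl⟩ := hc
  rcases Nat.eq_zero_or_pos n with rfl | hn
  · exact Subsingleton.elim _ _
  · rw [← map_pow] at h
    have : a ^ p = 1 := by
      have h1 := congrArg (fun g : GL (Fin n) L => (g : Matrix (Fin n) (Fin n) L) ⟨0, hn⟩ ⟨0, hn⟩) h
      simp only [Matrix.GeneralLinearGroup.coe_scalar, Matrix.scalar_apply, Matrix.diagonal_apply_eq,
        Units.val_one, Matrix.one_apply_eq] at h1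
      exact Units.ext h1
    rw [units_pow_p_eq_one this, map_one]

end scalars

variable {D : ChevalleyDatum} {K : Type*} [Field K]

theorem X_pow_nat (hA : AddFact D K) (r : ℕ) (t : K) (k : ℕ) : hA.X r t ^ k = hA.X r ((k : K) * t) := by
  induction k with
  | zero => simp
  | succ k ih => rw [pow_succ, ih, ← hA.X_add]; congr 1; push_cast; ring

theorem proj_lift (hD : D ∈ [chevG2, chevB2, chevD4, chevF4, chevE6, chevE7, chevE8]) (hA : AddFact D K)
    (hP : TermsPos D) (hK : D = chevG2 ∨ D = chevB2 → ∃ x : K, x ≠ 0 ∧ x ≠ 1) {p : ℕ} [Fact p.Prime]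
    [CharP K p] {L : Type*} [Field L] [CharP L p] {n : ℕ}
    (φ : ↥(D.group K) →* GL (Fin n) L ⧸ Subgroup.center (GL (Fin n) L)) :
    ∃ ψ : D.SteinbergCover K →* GL (Fin n) L, ∀ x,
      QuotientGroup.mk' (Subgroup.center (GL (Fin n) L)) (ψ x) = φ ((sysCover hD hA).θ x) := by
  have T := stTab_of_mem hD
  set q := QuotientGroup.mk' (Subgroup.center (GL (Fin n) L)) with hq
  have hqs : Function.Surjective q := QuotientGroup.mk'_surjective _
  have hqk : ∀ M, q M = 1 → M ∈ Subgroup.center (GL (Fin n) L) := by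
    intro M hM
    rw [hq, ← MonoidHom.mem_ker, QuotientGroup.ker_mk'] at hM
    exact hM
  have hqc : ∀ M, M ∈ Subgroup.center (GL (Fin n) L) → q M = 1 := by
    intro M hM
    rw [hq, ← MonoidHom.mem_ker, QuotientGroup.ker_mk']
    exact hM
  let P : Subgroup (GL (Fin n) L × ↥(D.group K)) :=
    MonoidHom.eqLocus (q.comp (MonoidHom.fst _ _)) (φ.comp (MonoidHom.snd _ _))
  have hPm : ∀ z : ↥P, q z.1.1 = φ z.1.2 := fun z => z.2
  let ρ : ↥P →* GL D.Idx K := (D.group K).subtype.comp ((MonoidHom.snd _ _).comp P.subtype)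
  have hρ1 : ∀ z : ↥P, ρ z = 1 → z.1.2 = 1 ∧ z.1.1 ∈ Subgroup.center (GL (Fin n) L) := by
    intro z hz
    have h1 : z.1.2 = 1 := Subtype.ext hz
    exact ⟨h1, hqk _ (by rw [hPm z, h1, map_one])⟩
  have cen : ρ.ker ≤ Subgroup.center ↥P := by
    intro z hz
    obtain ⟨h1, h2⟩ := hρ1 z hz
    rw [Subgroup.mem_center_iff]
    intro g
    apply Subtype.ext
    apply Prod.ext
    · exact Subgroup.mem_center_iff.1 h2 g.1.1
    · show g.1.2 * z.1.2 = z.1.2 * g.1.2
      rw [h1, mul_one, one_mul]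
  have lift : ∀ g ∈ D.group K, ∃ e, ρ e = g := by
    intro g hg
    obtain ⟨M, hM⟩ := hqs (φ ⟨g, hg⟩)
    exact ⟨⟨(M, ⟨g, hg⟩), hM⟩, rfl⟩
  have H1 : ∀ z, ρ z = 1 → z ^ p = 1 → z = 1 := by
    intro z hz hzp
    obtain ⟨h1, h2⟩ := hρ1 z hz
    have h3 : z.1.1 ^ p = 1 := congrArg (fun w : ↥P => w.1.1) hzp
    apply Subtype.ext
    apply Prod.ext
    · exact center_pow_p_eq_one h2 h3
    · exact h1
  -- lifts of determinant one
  have hdet : ∀ g : ↥(D.group K), ∃ M : GL (Fin n) L, q M = φ g ∧ Matrix.GeneralLinearGroup.det M = 1 := by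
    intro g
    have hg : g ∈ commutator ↥(D.group K) := by rw [perfect_of_mem' K hD hK]; trivial
    rw [commutator_eq_closure] at hg
    induction hg using Subgroup.closure_induction with
    | mem x hx =>
      obtain ⟨g₁, g₂, rfl⟩ := hx
      obtain ⟨M₁, h₁⟩ := hqs (φ g₁)
      obtain ⟨M₂, h₂⟩ := hqs (φ g₂)
      refine ⟨M₁ * M₂ * M₁⁻¹ * M₂⁻¹, by
        rw [commutatorElement_def]; simp only [map_mul, map_inv, h₁, h₂], ?_⟩
      simp only [map_mul, map_inv]
      rw [mul_comm (Matrix.GeneralLinearGroup.det M₁), mul_inv_cancel_right, mul_inv_cancel]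
    | one => exact ⟨1, by rw [map_one, map_one], map_one _⟩
    | mul x y _ _ ihx ihy =>
      obtain ⟨M₁, h₁, d₁⟩ := ihx
      obtain ⟨M₂, h₂, d₂⟩ := ihy
      exact ⟨M₁ * M₂, by rw [map_mul, map_mul, h₁, h₂], by rw [map_mul, d₁, d₂, one_mul]⟩
    | inv x _ ih =>
      obtain ⟨M, h, d⟩ := ih
      exact ⟨M⁻¹, by rw [map_inv, map_inv, h], by rw [map_inv, d, inv_one]⟩
  have H2 : ∀ r t, ∃ e, ρ e = hA.X r t ∧ e ^ p = 1 := by
    intro r t
    have hxp : (⟨hA.X r t, hA.X_mem_group r t⟩ : ↥(D.group K)) ^ p = 1 := by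
      apply Subtype.ext
      show hA.X r t ^ p = 1
      rw [X_pow_nat, CharP.cast_eq_zero, zero_mul, hA.X_zero]
    obtain ⟨M, hM, hd⟩ := hdet ⟨hA.X r t, hA.X_mem_group r t⟩
    have hMp : M ^ p ∈ Subgroup.center (GL (Fin n) L) := hqk _ (by rw [map_pow, hM, ← map_pow, hxp, map_one])
    rcases Nat.eq_zero_or_pos n with rfl | hn
    · refine ⟨⟨(M, ⟨hA.X r t, hA.X_mem_group r t⟩), hM⟩, rfl, ?_⟩
      apply Subtype.ext
      apply Prod.ext
      · exact Subsingleton.elim _ _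
      · exact hxp
    · have hMp' := hMp
      rw [Matrix.GeneralLinearGroup.center_eq_range_scalar] at hMp'
      obtain ⟨a, ha⟩ := hMp'
      have han : a ^ n = 1 := by
        have := Matrix.GeneralLinearGroup.det_scalar (n := Fin n) a
        rw [ha, map_pow, hd, one_pow, Fintype.card_fin] at this
        exact this.symm
      obtain ⟨μ, hμ⟩ := exists_pth_root (p := p) hn han
      have hsc : Matrix.GeneralLinearGroup.scalar (Fin n) μ ∈ Subgroup.center (GL (Fin n) L) := by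
        rw [Matrix.GeneralLinearGroup.center_eq_range_scalar]; exact ⟨μ, rfl⟩
      refine ⟨⟨((Matrix.GeneralLinearGroup.scalar (Fin n) μ)⁻¹ * M, ⟨hA.X r t, hA.X_mem_group r t⟩), ?_⟩, rfl, ?_⟩
      · show q ((Matrix.GeneralLinearGroup.scalar (Fin n) μ)⁻¹ * M) = φ _
        rw [map_mul, map_inv, hqc _ hsc, inv_one, one_mul, hM]
        rfl
      · apply Subtype.ext
        apply Prod.ext
        · show ((Matrix.GeneralLinearGroup.scalar (Fin n) μ)⁻¹ * M) ^ p = 1
          have hcm : Commute (Matrix.GeneralLinearGroup.scalar (Fin n) μ)⁻¹ M :=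
            (Subgroup.mem_center_iff.1 (inv_mem hsc) M).symm
          rw [hcm.mul_pow, inv_pow, ← map_pow, hμ, ha, inv_mul_cancel]
        · exact hxp
  obtain ⟨τ, hτ⟩ := exists_lift_p hD hA T hP p ρ cen lift H1 H2
  refine ⟨((MonoidHom.fst _ _).comp P.subtype).comp τ, fun x => ?_⟩
  show q (τ x).1.1 = _
  rw [hPm (τ x)]
  congr 1
  apply Subtype.ext
  exact hτ x

end Cfsg.Agent.Lib.Helper23.StP
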