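import Cfsg.Agent.Lib.Helper23.StG

/-!
# Groups with Steinberg's relations (R1), (R2) over a Chevalley group: the unipotent parts
-/

set_option autoImplicit false

namespace Cfsg.Agent.Lib.Helper23.StP

open Cfsg.Lie Matrix Cfsg.Agent.Lib.Helper23 Cfsg.Agent.Lib.Helper22 Cfsg.Agent.Lib.Helper45

/-- table facts on the commutator formula -/
structure StTab (D : ChevalleyDatum) : Prop where
  pos : ∀ a b, D.IsPosRoot a → D.IsPosRoot b → a ≠ b → ∀ c ∈ D.commTerms a b,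
    D.IsPosRoot c.1 ∧ a < c.1 ∧ b < c.1
  neg : ∀ a b, D.IsNegRoot a → D.IsNegRoot b → a ≠ b → ∀ c ∈ D.commTerms a b,
    D.IsNegRoot c.1 ∧ c.1 < a ∧ c.1 < b
  nsPos : ∀ i < D.rank, ∀ s, D.IsPosRoot s → s ≠ D.simple i → ∀ c ∈ D.commTerms (D.neg (D.simple i)) s,
    D.IsPosRoot c.1 ∧ c.1 ≠ D.simple i
  sNeg : ∀ i < D.rank, ∀ s, D.IsNegRoot s → s ≠ D.neg (D.simple i) → ∀ c ∈ D.commTerms (D.simple i) s,
    D.IsNegRoot c.1 ∧ c.1 ≠ D.neg (D.simple i)
  a3 : ∀ i < D.rank, ∃ (a b j : ℕ) (C C' : ℤ) (T1 T2 T1' T2' : List (ℕ × ℤ × ℕ × ℕ)),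
    a < D.nroots ∧ b < D.nroots ∧ b ≠ a ∧ b ≠ D.neg a ∧ a ≠ D.simple i ∧ a ≠ D.neg (D.simple i) ∧
    b ≠ D.simple i ∧ b ≠ D.neg (D.simple i) ∧ (C = 1 ∨ C = -1) ∧
    D.commTerms a b = T1 ++ (D.simple i, C, 1, j) :: T2 ∧
    D.commTerms (D.reflectRoot i a) (D.reflectRoot i b) = T1' ++ (D.neg (D.simple i), C', 1, j) :: T2' ∧
    T1'.map (fun c => (c.1, c.2.2)) = T1.map (fun c => (D.reflectRoot i c.1, c.2.2)) ∧
    T2'.map (fun c => (c.1, c.2.2)) = T2.map (fun c => (D.reflectRoot i c.1, c.2.2)) ∧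
    (∀ c ∈ T1 ++ T2, D.IsPosRoot c.1 ∧ c.1 ≠ D.simple i) ∧
    ((D.commTerms a b).map (·.1)).Nodup

/-- a group generated by elements satisfying (R1), (R2), over the Chevalley group -/
structure StSys (D : ChevalleyDatum) (K : Type*) [Field K] (hA : AddFact D K) (Γ : Type*) [Group Γ] where
  X : ℕ → K → Γ
  add : ∀ r t u, X r (t + u) = X r t * X r u
  comm : ∀ r s t u, r < D.nroots → s < D.nroots → s ≠ r → s ≠ D.neg r →
    (X s u)⁻¹ * (X r t)⁻¹ * X s u * X r t = WW X (D.commWord K r s t u)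
  gen : Subgroup.closure {g | ∃ r t, r < D.nroots ∧ g = X r t} = ⊤
  π : Γ →* GL D.Idx K
  hπ : ∀ r t, π (X r t) = hA.X r t

theorem wL_fst {K : Type*} (L : List ℕ) (f : ℕ → K) : (wL L f).map Prod.fst = L := by
  simp [wL, List.map_map, Function.comp_def]

theorem mem_negRoots (D : ChevalleyDatum) (a : ℕ) : a ∈ D.negRoots ↔ D.IsNegRoot a := by
  unfold ChevalleyDatum.negRoots
  rw [List.mem_filter, List.mem_range, decide_eq_true_eq]
  exact ⟨fun h => h.2, fun h => ⟨h.1, h⟩⟩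

theorem posRoots_sorted (D : ChevalleyDatum) : D.posRoots.Pairwise (· < ·) :=
  List.Pairwise.filter _ List.pairwise_lt_range

theorem negRoots_sorted (D : ChevalleyDatum) : D.negRoots.reverse.Pairwise (· > ·) := by
  rw [List.pairwise_reverse]
  exact List.Pairwise.filter _ List.pairwise_lt_range

/-- a list without one element -/
def del (L : List ℕ) (q : ℕ) : List ℕ := L.filter fun c => decide (c ≠ q)

theorem mem_del {L : List ℕ} {q c : ℕ} : c ∈ del L q ↔ c ∈ L ∧ c ≠ q := by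
  simp [del, List.mem_filter]

namespace StSys

variable {D : ChevalleyDatum} {K : Type*} [Field K] {hA : AddFact D K} {Γ : Type*} [Group Γ]
variable (S : StSys D K hA Γ)

theorem X_zero (r : ℕ) : S.X r 0 = 1 := StP.X_zero S.X S.add r

theorem X_neg (r : ℕ) (t : K) : S.X r (-t) = (S.X r t)⁻¹ := StP.X_neg S.X S.add r t

theorem pi_WW (w : List (ℕ × K)) : S.π (WW S.X w) = WW hA.X w := by
  rw [map_WW]
  congr 1
  funext r t
  exact S.hπ r t

theorem conj_eq {r s : ℕ} (hr : r < D.nroots) (hs : s < D.nroots) (h1 : s ≠ r) (h2 : s ≠ D.neg r) (t u : K) :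
    S.X r t * S.X s u * (S.X r t)⁻¹ = S.X s u * WW S.X (D.commWord K r s (-t) u) := by
  rw [← S.comm r s (-t) u hr hs h1 h2, S.X_neg]; group

theorem mem_commWord {r s : ℕ} {t u : K} {p : ℕ × K} (hp : p ∈ D.commWord K r s t u) :
    ∃ c ∈ D.commTerms r s, p.1 = c.1 := by
  unfold ChevalleyDatum.commWord at hp
  obtain ⟨c, hc, rfl⟩ := List.mem_map.1 hp
  exact ⟨c, hc, rfl⟩

/-- conjugation into a subgroup `Cl L` -/
theorem conj_mem {r s : ℕ} (hr : r < D.nroots) (hs : s < D.nroots) (h1 : s ≠ r) (h2 : s ≠ D.neg r)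
    {L : List ℕ} (hsL : s ∈ L) (hL : ∀ c ∈ D.commTerms r s, c.1 ∈ L) (t u : K) :
    S.X r t * S.X s u * (S.X r t)⁻¹ ∈ Cl S.X L := by
  rw [S.conj_eq hr hs h1 h2]
  refine mul_mem (X_mem_Cl _ hsL u) (WW_mem_Cl _ fun p hp => ?_)
  obtain ⟨c, hc, e⟩ := mem_commWord hp
  rw [e]; exact hL c hc

variable (hD : D ∈ [chevG2, chevB2, chevD4, chevF4, chevE6, chevE7, chevE8]) (T : StTab D)
include hD T

theorem good_pos : Good S.X D.posRoots := by
  have b := bundle_of_mem K hD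
  apply good_of_sorted S.X (· < ·) (fun x => lt_irrefl x) (fun x y h => lt_asymm h) (posRoots_sorted D)
  intro a ha c hc hne t u
  rw [mem_posRoots] at ha hc
  refine ⟨_, fun p hp => ?_, S.conj_eq ha.1 hc.1 (Ne.symm hne)
    (fun e => b.hR.not_neg_of_pos hc (e ▸ b.hR.neg_of_pos ha)) t u⟩
  obtain ⟨d, hd, e⟩ := mem_commWord hp
  obtain ⟨h1, h2, -⟩ := T.pos a c ha hc hne d hd
  rw [e, mem_posRoots]
  exact ⟨h1, h2⟩

theorem good_neg : Good S.X D.negRoots.reverse := by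
  have b := bundle_of_mem K hD
  apply good_of_sorted S.X (· > ·) (fun x => lt_irrefl x) (fun x y h => lt_asymm h) (negRoots_sorted D)
  intro a ha c hc hne t u
  rw [List.mem_reverse, mem_negRoots] at ha hc
  refine ⟨_, fun p hp => ?_, S.conj_eq ha.1 hc.1 (Ne.symm hne)
    (fun e => b.hR.not_neg_of_pos (b.hR.pos_of_neg ha) (e ▸ hc)) t u⟩
  obtain ⟨d, hd, e⟩ := mem_commWord hp
  obtain ⟨h1, h2, -⟩ := T.neg a c ha hc hne d hd
  rw [e, List.mem_reverse, mem_negRoots]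
  exact ⟨h1, h2⟩

/-- `π` is injective on the positive unipotent part -/
theorem inj_pos {g g' : Γ} (hg : g ∈ Cl S.X D.posRoots) (hg' : g' ∈ Cl S.X D.posRoots)
    (h : S.π g = S.π g') : g = g' := by
  obtain ⟨f, rfl⟩ := exists_prod S.X S.add (S.good_pos hD T) (posRoots_nodup D) hg
  obtain ⟨f', rfl⟩ := exists_prod S.X S.add (S.good_pos hD T) (posRoots_nodup D) hg'
  rw [S.pi_WW, S.pi_WW] at h
  rw [uniq_words hD hA (l := []) (by simp) (by rw [wL_fst, wL_fst]) (by rw [wL_fst]; exact posRoots_nodup D)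
    (by rw [wL_fst]; exact fun c hc => ((mem_posRoots D c).1 hc).1)
    (by rw [wL_fst]; exact fun c hc => (mem_posRoots D c).1 hc) h]

theorem inj_neg {g g' : Γ} (hg : g ∈ Cl S.X D.negRoots.reverse) (hg' : g' ∈ Cl S.X D.negRoots.reverse)
    (h : S.π g = S.π g') : g = g' := by
  have b := bundle_of_mem K hD
  have hnd : D.negRoots.reverse.Nodup := List.nodup_reverse.2 (List.nodup_range.filter _)
  obtain ⟨f, rfl⟩ := exists_prod S.X S.add (S.good_neg hD T) hnd hg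
  obtain ⟨f', rfl⟩ := exists_prod S.X S.add (S.good_neg hD T) hnd hg'
  rw [S.pi_WW, S.pi_WW] at h
  obtain ⟨l, hl, hopp⟩ := b.hL
  rw [uniq_words hD hA hl (by rw [wL_fst, wL_fst]) (by rw [wL_fst]; exact hnd)
    (by rw [wL_fst]; exact fun c hc => ((mem_negRoots D c).1 (List.mem_reverse.1 hc)).1)
    (by
      rw [wL_fst]
      intro c hc
      have hc' := (mem_negRoots D c).1 (List.mem_reverse.1 hc)
      have h1 := hopp _ (b.hR.neg_lt hc'.1) (b.hR.pos_of_neg hc')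
      rw [b.hR.wact_neg hl hc'.1] at h1
      have h2 := b.hR.pos_of_neg h1
      rwa [b.hR.neg_neg (b.hR.wact_lt hl hc'.1)] at h2) h]

end StSys

end Cfsg.Agent.Lib.Helper23.StP
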