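import Cfsg.Agent.Lib.Helper23.StSys

/-!
# Groups with Steinberg's relations: the action of the rank one subgroups on the root elements
-/

set_option autoImplicit false

namespace Cfsg.Agent.Lib.Helper23.StP

open Cfsg.Lie Matrix Cfsg.Agent.Lib.Helper23 Cfsg.Agent.Lib.Helper22 Cfsg.Agent.Lib.Helper45

theorem conj_WW' {K Γ : Type*} [Field K] [Group Γ] {X : ℕ → K → Γ} {m : Γ} {σ : ℕ → ℕ} {γ : ℕ → K}
    {w : List (ℕ × K)} (h : ∀ p ∈ w, ∀ t, m * X p.1 t * m⁻¹ = X (σ p.1) (γ p.1 * t)) :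
    m * WW X w * m⁻¹ = WW X (w.map fun q => (σ q.1, γ q.1 * q.2)) := by
  induction w with
  | nil => simp
  | cons p w ih =>
    rw [List.map_cons, WW_cons, WW_cons, ← ih fun q hq => h q (by simp [hq]), ← h p (by simp)]
    group

namespace StSys

variable {D : ChevalleyDatum} {K : Type*} [Field K] {hA : AddFact D K} {Γ : Type*} [Group Γ]
variable (S : StSys D K hA Γ)

/-- `n̄_r(t)` -/
def nB (r : ℕ) (t : K) : Γ := S.X r t * S.X (D.neg r) (-t⁻¹) * S.X r t

/-- the rank one subgroup of a fundamental root -/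
def Lp (i : ℕ) : Subgroup Γ :=
  Subgroup.closure {g | ∃ t, g = S.X (D.simple i) t ∨ g = S.X (D.neg (D.simple i)) t}

theorem X_mem_Lp (i : ℕ) (t : K) : S.X (D.simple i) t ∈ S.Lp i := Subgroup.subset_closure ⟨t, Or.inl rfl⟩

theorem Xn_mem_Lp (i : ℕ) (t : K) : S.X (D.neg (D.simple i)) t ∈ S.Lp i :=
  Subgroup.subset_closure ⟨t, Or.inr rfl⟩

theorem nB_mem_Lp (i : ℕ) (t : K) : S.nB (D.simple i) t ∈ S.Lp i :=
  mul_mem (mul_mem (S.X_mem_Lp i t) (S.Xn_mem_Lp i _)) (S.X_mem_Lp i t)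

theorem nB_inv (r : ℕ) (t : K) : (S.nB r t)⁻¹ = S.nB r (-t) := by
  simp only [nB, inv_neg, neg_neg, S.X_neg]; group

theorem pi_nB (r : ℕ) (t : K) : S.π (S.nB r t) = hA.nG r t := by
  simp only [nB, map_mul, S.hπ, AddFact.nG]

theorem norm_of {r : ℕ} {L : List ℕ}
    (h : ∀ t, ∀ c ∈ L, ∀ u, S.X r t * S.X c u * (S.X r t)⁻¹ ∈ Cl S.X L) (t : K) :
    S.X r t ∈ Subgroup.normalizer (Cl S.X L : Set Γ) := by
  apply mem_normalizer_closure_of
  · rintro x ⟨c, hc, u, rfl⟩
    exact h t c hc u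
  · rintro x ⟨c, hc, u, rfl⟩
    have := h (-t) c hc u
    rwa [S.X_neg, inv_inv] at this

variable (hD : D ∈ [chevG2, chevB2, chevD4, chevF4, chevE6, chevE7, chevE8]) (T : StTab D)
include hD T

theorem Lp_le_norm_pos {i : ℕ} (hi : i < D.rank) :
    S.Lp i ≤ Subgroup.normalizer (Cl S.X (del D.posRoots (D.simple i)) : Set Γ) := by
  have b := bundle_of_mem K hD
  have hp := b.hR.simple_pos hi
  rw [Lp, Subgroup.closure_le]
  rintro g ⟨t, rfl | rfl⟩
  · apply S.norm_of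
    intro t c hc u
    obtain ⟨h1, h2⟩ := mem_del.1 hc
    rw [mem_posRoots] at h1
    refine S.conj_mem hp.1 h1.1 h2 (fun e => b.hR.not_neg_of_pos h1 (e ▸ b.hR.neg_of_pos hp)) hc
      (fun d hd => ?_) t u
    obtain ⟨g1, g2, -⟩ := T.pos _ _ hp h1 (Ne.symm h2) d hd
    exact mem_del.2 ⟨(mem_posRoots D _).2 g1, by omega⟩
  · apply S.norm_of
    intro t c hc u
    obtain ⟨h1, h2⟩ := mem_del.1 hc
    rw [mem_posRoots] at h1
    refine S.conj_mem (b.hR.neg_lt hp.1) h1.1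
      (fun e => b.hR.not_neg_of_pos h1 (e ▸ b.hR.neg_of_pos hp))
      (by rw [b.hR.neg_neg hp.1]; exact h2) hc (fun d hd => ?_) t u
    obtain ⟨g1, g2⟩ := T.nsPos i hi c h1 h2 d hd
    exact mem_del.2 ⟨(mem_posRoots D _).2 g1, g2⟩

theorem Lp_le_norm_neg {i : ℕ} (hi : i < D.rank) :
    S.Lp i ≤ Subgroup.normalizer (Cl S.X (del D.negRoots.reverse (D.neg (D.simple i))) : Set Γ) := by
  have b := bundle_of_mem K hD
  have hp := b.hR.simple_pos hi
  have hn := b.hR.neg_of_pos hp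
  rw [Lp, Subgroup.closure_le]
  rintro g ⟨t, rfl | rfl⟩
  · apply S.norm_of
    intro t c hc u
    obtain ⟨h1, h2⟩ := mem_del.1 hc
    rw [List.mem_reverse, mem_negRoots] at h1
    refine S.conj_mem hp.1 h1.1 (fun e => b.hR.not_neg_of_pos hp (e ▸ h1)) h2 hc (fun d hd => ?_) t u
    obtain ⟨g1, g2⟩ := T.sNeg i hi c h1 h2 d hd
    exact mem_del.2 ⟨List.mem_reverse.2 ((mem_negRoots D _).2 g1), g2⟩
  · apply S.norm_of
    intro t c hc u
    obtain ⟨h1, h2⟩ := mem_del.1 hc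
    rw [List.mem_reverse, mem_negRoots] at h1
    refine S.conj_mem hn.1 h1.1 h2
      (by rw [b.hR.neg_neg hp.1]; exact fun e => b.hR.not_neg_of_pos hp (e ▸ h1)) hc (fun d hd => ?_) t u
    obtain ⟨g1, g2, -⟩ := T.neg _ _ hn h1 (Ne.symm h2) d hd
    exact mem_del.2 ⟨List.mem_reverse.2 ((mem_negRoots D _).2 g1), by omega⟩

/-- lifting the action on a root element different from `±p` -/
theorem lift_off {i : ℕ} (hi : i < D.rank) {g : Γ} (hg : g ∈ S.Lp i) {s : ℕ} (hs : s < D.nroots)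
    (h1 : s ≠ D.simple i) (h2 : s ≠ D.neg (D.simple i)) {u u' : K}
    (h : S.π g * hA.X s u * (S.π g)⁻¹ = hA.X (D.reflectRoot i s) u') :
    g * S.X s u * g⁻¹ = S.X (D.reflectRoot i s) u' := by
  have b := bundle_of_mem K hD
  have hπ : S.π (g * S.X s u * g⁻¹) = S.π (S.X (D.reflectRoot i s) u') := by
    rw [map_mul, map_mul, map_inv, S.hπ, S.hπ, h]
  rcases b.hR.pos_or_neg hs with hp | hn
  · refine S.inj_pos hD T ?_ (X_mem_Cl _ ((mem_posRoots D _).2 (b.hR.refl_pos hi hp h1)) _) hπ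
    have h3 : S.X s u ∈ Cl S.X (del D.posRoots (D.simple i)) :=
      X_mem_Cl _ (mem_del.2 ⟨(mem_posRoots D _).2 hp, h1⟩) _
    exact Cl_mono _ (fun c hc => (mem_del.1 hc).1)
      ((Subgroup.mem_normalizer_iff.1 (S.Lp_le_norm_pos hD T hi hg) _).1 h3)
  · refine S.inj_neg hD T ?_ (X_mem_Cl _ (List.mem_reverse.2
      ((mem_negRoots D _).2 (b.hR.refl_neg_root hi hn h2))) _) hπ
    have h3 : S.X s u ∈ Cl S.X (del D.negRoots.reverse (D.neg (D.simple i))) :=
      X_mem_Cl _ (mem_del.2 ⟨List.mem_reverse.2 ((mem_negRoots D _).2 hn), h2⟩) _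
    exact Cl_mono _ (fun c hc => (mem_del.1 hc).1)
      ((Subgroup.mem_normalizer_iff.1 (S.Lp_le_norm_neg hD T hi hg) _).1 h3)

/-- lifting the action on `X_p` -/
theorem lift_self {i : ℕ} (hi : i < D.rank) {g : Γ} (hg : g ∈ S.Lp i) {γ : ℕ → K}
    (hγ : ∀ r < D.nroots, ∀ t, S.π g * hA.X r t * (S.π g)⁻¹ = hA.X (D.reflectRoot i r) (γ r * t)) (v : K) :
    g * S.X (D.simple i) v * g⁻¹ = S.X (D.neg (D.simple i)) (γ (D.simple i) * v) := by
  have b := bundle_of_mem K hD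
  have hp := b.hR.simple_pos hi
  obtain ⟨a, c, j, C, C', T1, T2, T1', T2', ha, hc, hca, hcna, hap, hanp, hcp, hcnp, hC, hT, hT', hm1, hm2,
    hpos, hnd⟩ := T.a3 i hi
  set σ := D.reflectRoot i with hσ
  set p := D.simple i with hpdef
  have off : ∀ r < D.nroots, r ≠ p → r ≠ D.neg p → ∀ t, g * S.X r t * g⁻¹ = S.X (σ r) (γ r * t) :=
    fun r hr h1 h2 t => S.lift_off hD T hi hg hr h1 h2 (hγ r hr t)
  have hCC : (C : K) * (C : K) = 1 := by rcases hC with rfl | rfl <;> simp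
  set t : K := -((C : K) * v) with ht
  -- the two words
  set Fw : (ℕ × ℤ × ℕ × ℕ) → ℕ × K := fun d => (d.1, (d.2.1 : K) * (-t) ^ d.2.2.1 * (1 : K) ^ d.2.2.2) with hFw
  set Fw' : (ℕ × ℤ × ℕ × ℕ) → ℕ × K :=
    fun d => (d.1, (d.2.1 : K) * (-(γ a * t)) ^ d.2.2.1 * (γ c * 1) ^ d.2.2.2) with hFw'
  have w1 : D.commWord K a c t 1 = T1.map Fw ++ (p, v) :: T2.map Fw := by
    unfold ChevalleyDatum.commWord
    rw [hT, List.map_append, List.map_cons]
    congr 2
    simp only [ht, neg_neg, pow_one, one_pow, mul_one]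
    rw [← mul_assoc, hCC, one_mul]
  have w2 : D.commWord K (σ a) (σ c) (γ a * t) (γ c * 1) =
      T1'.map Fw' ++ Fw' (D.neg p, C', 1, j) :: T2'.map Fw' := by
    unfold ChevalleyDatum.commWord
    rw [hT', List.map_append, List.map_cons]
  set v' : K := (Fw' (D.neg p, C', 1, j)).2 with hv'
  have w2' : Fw' (D.neg p, C', 1, j) = (D.neg p, v') := rfl
  rw [w2'] at w2
  have hσinj : ∀ x < D.nroots, ∀ y < D.nroots, σ x = σ y → x = y := by
    intro x hx y hy e
    have h1 : σ (σ x) = x := b.hR.refl_refl hi hx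
    have h2 : σ (σ y) = y := b.hR.refl_refl hi hy
    rw [← h1, ← h2, e]
  -- conjugating the commutator relation
  have r1 := S.comm a c t 1 ha hc hca hcna
  have r2 := S.comm (σ a) (σ c) (γ a * t) (γ c * 1) (b.hR.refl_lt hi ha) (b.hR.refl_lt hi hc)
    (fun e => hca (hσinj _ hc _ ha e))
    (fun e => hcna (hσinj _ hc _ (b.hR.neg_lt ha) (by rw [e, hσ, b.hR.refl_neg hi ha])))
  have hT1 : ∀ q ∈ T1.map Fw, ∀ t, g * S.X q.1 t * g⁻¹ = S.X (σ q.1) (γ q.1 * t) := by
    intro q hq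
    obtain ⟨d, hd, rfl⟩ := List.mem_map.1 hq
    obtain ⟨g1, g2⟩ := hpos d (by simp [hd])
    exact off d.1 g1.1 g2 (fun e => b.hR.not_neg_of_pos g1 (e ▸ b.hR.neg_of_pos hp))
  have hT2 : ∀ q ∈ T2.map Fw, ∀ t, g * S.X q.1 t * g⁻¹ = S.X (σ q.1) (γ q.1 * t) := by
    intro q hq
    obtain ⟨d, hd, rfl⟩ := List.mem_map.1 hq
    obtain ⟨g1, g2⟩ := hpos d (by simp [hd])
    exact off d.1 g1.1 g2 (fun e => b.hR.not_neg_of_pos g1 (e ▸ b.hR.neg_of_pos hp))
  set E := g * S.X p v * g⁻¹ with hE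
  set u1 := (T1.map Fw).map fun q => (σ q.1, γ q.1 * q.2) with hu1
  set u2 := (T2.map Fw).map fun q => (σ q.1, γ q.1 * q.2) with hu2
  have I : WW S.X u1 * E * WW S.X u2 = WW S.X (T1'.map Fw') * S.X (D.neg p) v' * WW S.X (T2'.map Fw') := by
    have e1 : g * WW S.X (D.commWord K a c t 1) * g⁻¹ = WW S.X u1 * E * WW S.X u2 := by
      rw [w1, WW_append, WW_cons, hu1, hu2, ← conj_WW' hT1, ← conj_WW' hT2, hE]; group
    have e2 : g * WW S.X (D.commWord K a c t 1) * g⁻¹ =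
        WW S.X (D.commWord K (σ a) (σ c) (γ a * t) (γ c * 1)) := by
      rw [← r1, ← r2, ← off a ha hap hanp, ← off c hc hcp hcnp]; group
    rw [← e1, e2, w2, WW_append, WW_cons, mul_assoc]
  -- the image in the Chevalley group
  have hπE : S.π E = hA.X (D.neg p) (γ p * v) := by
    rw [hE, map_mul, map_mul, map_inv, S.hπ, hγ p hp.1, hσ, hpdef, RootFacts.refl_simple]
  have J : WW hA.X (u1 ++ (D.neg p, γ p * v) :: u2) = WW hA.X (T1'.map Fw' ++ (D.neg p, v') :: T2'.map Fw') := by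
    have := congrArg S.π I
    simp only [map_mul, S.pi_WW, S.hπ, hπE] at this
    rw [WW_append, WW_cons, WW_append, WW_cons, ← mul_assoc, ← mul_assoc]
    exact this
  have f1 : u1.map Prod.fst = T1.map fun d => σ d.1 := by
    rw [hu1, List.map_map, List.map_map]; rfl
  have f2 : u2.map Prod.fst = T2.map fun d => σ d.1 := by
    rw [hu2, List.map_map, List.map_map]; rfl
  have f1' : (T1'.map Fw').map Prod.fst = T1.map fun d => σ d.1 := by
    have := congrArg (List.map Prod.fst) hm1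
    rw [List.map_map, List.map_map] at this
    rw [List.map_map]; exact this
  have f2' : (T2'.map Fw').map Prod.fst = T2.map fun d => σ d.1 := by
    have := congrArg (List.map Prod.fst) hm2
    rw [List.map_map, List.map_map] at this
    rw [List.map_map]; exact this
  have hfst : (u1 ++ (D.neg p, γ p * v) :: u2).map Prod.fst =
      ((D.commTerms a c).map (·.1)).map σ := by
    rw [hT, List.map_append, List.map_cons, f1, f2, List.map_append, List.map_cons, List.map_append,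
      List.map_cons, List.map_map, List.map_map, hσ, hpdef, RootFacts.refl_simple]
    rfl
  have hlt : ∀ d ∈ (D.commTerms a c).map (·.1), D.IsPosRoot d := by
    intro d hd
    rw [hT, List.map_append, List.map_cons, List.mem_append, List.mem_cons] at hd
    rcases hd with hd | rfl | hd
    · obtain ⟨e, he, rfl⟩ := List.mem_map.1 hd
      exact (hpos e (by simp [he])).1
    · exact hp
    · obtain ⟨e, he, rfl⟩ := List.mem_map.1 hd
      exact (hpos e (by simp [he])).1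
  have key := uniq_words hD hA (l := [i]) (by simpa using hi)
    (w := u1 ++ (D.neg p, γ p * v) :: u2) (w' := T1'.map Fw' ++ (D.neg p, v') :: T2'.map Fw')
    (by rw [List.map_append, List.map_cons, f1, f2, List.map_append, List.map_cons, f1', f2'])
    (by
      rw [hfst]
      exact List.Nodup.map_on (fun x hx y hy e => hσinj x (hlt x hx).1 y (hlt y hy).1 e) hnd)
    (by
      rw [hfst]
      intro d hd
      obtain ⟨e, he, rfl⟩ := List.mem_map.1 hd
      exact b.hR.refl_lt hi (hlt e he).1)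
    (by
      rw [hfst]
      intro d hd
      obtain ⟨e, he, rfl⟩ := List.mem_map.1 hd
      show D.IsPosRoot (D.reflectRoot i (D.reflectRoot i e))
      rw [b.hR.refl_refl hi (hlt e he).1]
      exact hlt e he) J
  have hlen : u1.length = (T1'.map Fw').length := by
    have := congrArg List.length (f1.trans f1'.symm)
    simpa using this
  obtain ⟨k1, k2⟩ := List.append_inj key hlen
  rw [List.cons.injEq] at k2
  obtain ⟨k2, k3⟩ := k2
  have k4 : γ p * v = v' := (Prod.mk.injEq _ _ _ _ ▸ k2).2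
  rw [k1, k3, ← k4] at I
  exact mul_left_cancel (mul_right_cancel I)

/-- lifting the whole action -/
theorem la_lift {i : ℕ} (hi : i < D.rank) {g : Γ} (hg : g ∈ S.Lp i)
    (h : LA D.nroots hA.X (S.π g) (D.reflectRoot i)) : LA D.nroots S.X g (D.reflectRoot i) := by
  have b := bundle_of_mem K hD
  have hp := b.hR.simple_pos hi
  obtain ⟨γ, hγ0, hγ⟩ := h.exists_fun
  have h' : LA D.nroots hA.X (S.π g⁻¹) (D.reflectRoot i) := by
    rw [map_inv]
    exact h.inv (fun r hr => b.hR.refl_lt hi hr) (fun r hr => b.hR.refl_refl hi hr)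
  obtain ⟨γ', hγ0', hγ'⟩ := h'.exists_fun
  intro r hr
  by_cases h1 : r = D.simple i
  · subst h1
    refine ⟨γ (D.simple i), hγ0 _, fun t => ?_⟩
    rw [RootFacts.refl_simple]
    exact S.lift_self hD T hi hg hγ t
  by_cases h2 : r = D.neg (D.simple i)
  · subst h2
    refine ⟨(γ' (D.simple i))⁻¹, inv_ne_zero (hγ0' _), fun t => ?_⟩
    have := S.lift_self hD T hi (inv_mem hg) hγ' ((γ' (D.simple i))⁻¹ * t)
    rw [mul_inv_cancel_left₀ (hγ0' _), inv_inv] at this
    rw [b.hR.refl_neg_simple hi, ← this]; group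
  · exact ⟨γ r, hγ0 r, fun t => S.lift_off hD T hi hg hr h1 h2 (hγ r hr t)⟩

theorem la_nB {i : ℕ} (hi : i < D.rank) {t : K} (ht : t ≠ 0) :
    LA D.nroots S.X (S.nB (D.simple i) t) (D.reflectRoot i) := by
  apply S.la_lift hD T hi (S.nB_mem_Lp i t)
  rw [S.pi_nB]
  exact la_nG hD hA hi ht

end StSys

end Cfsg.Agent.Lib.Helper23.StP
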