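import Cfsg.Agent.Lib.Helper23.StSys2
import Cfsg.Agent.S1040

/-!
# Groups with Steinberg's relations: the Bruhat decomposition and the kernel
-/

set_option autoImplicit false

namespace Cfsg.Agent.Lib.Helper23.StP

open Cfsg.Lie Matrix Cfsg.Agent.Lib.Helper23 Cfsg.Agent.Lib.Helper22 Cfsg.Agent.Lib.Helper45

namespace StSys

variable {D : ChevalleyDatum} {K : Type*} [Field K] {hA : AddFact D K} {Γ : Type*} [Group Γ]
variable (S : StSys D K hA Γ)

/-- product of the `n̄_{p_i}(t)` along a word -/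
def nW (l : List (ℕ × K)) : Γ := (l.map fun q => S.nB (D.simple q.1) q.2).prod

/-- valid words -/
def VW (D : ChevalleyDatum) {K : Type*} [Field K] (l : List (ℕ × K)) : Prop := ∀ q ∈ l, q.1 < D.rank ∧ q.2 ≠ 0

@[simp] theorem nW_nil : S.nW [] = 1 := rfl

theorem nW_cons (q : ℕ × K) (l : List (ℕ × K)) : S.nW (q :: l) = S.nB (D.simple q.1) q.2 * S.nW l := by
  simp [nW]

theorem nW_append (l l' : List (ℕ × K)) : S.nW (l ++ l') = S.nW l * S.nW l' := by
  simp [nW]

theorem VW.cons {q : ℕ × K} {l : List (ℕ × K)} (h1 : q.1 < D.rank) (h2 : q.2 ≠ 0) (h : VW D l) :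
    VW D (q :: l) := by
  intro x hx
  rcases List.mem_cons.1 hx with rfl | hx
  · exact ⟨h1, h2⟩
  · exact h x hx

theorem VW.fst {l : List (ℕ × K)} (h : VW D l) : ∀ i ∈ l.map Prod.fst, i < D.rank := by
  intro i hi
  obtain ⟨q, hq, rfl⟩ := List.mem_map.1 hi
  exact (h q hq).1

theorem nW_inv (l : List (ℕ × K)) : (S.nW l)⁻¹ = S.nW (l.reverse.map fun q => (q.1, -q.2)) := by
  induction l with
  | nil => simp
  | cons q l ih =>
    rw [nW_cons, _root_.mul_inv_rev, ih, List.reverse_cons, List.map_append, nW_append, S.nB_inv]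
    simp [nW]

theorem VW.inv {l : List (ℕ × K)} (h : VW D l) : VW D (l.reverse.map fun q => (q.1, -q.2)) := by
  intro x hx
  obtain ⟨q, hq, rfl⟩ := List.mem_map.1 hx
  exact ⟨(h q (List.mem_reverse.1 hq)).1, neg_ne_zero.2 (h q (List.mem_reverse.1 hq)).2⟩

theorem X_neg_eq (r : ℕ) {y : K} (hy : y ≠ 0) :
    S.X (D.neg r) y = S.X r y⁻¹ * S.nB r (-y⁻¹) * S.X r y⁻¹ := by
  have e : -(-y⁻¹)⁻¹ = y := by rw [inv_neg, inv_inv, neg_neg]
  simp only [nB, e, S.X_neg]; group

theorem pi_mem_pos {u : Γ} (hu : u ∈ Cl S.X D.posRoots) : S.π u ∈ D.posUnipotent K := by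
  induction hu using Subgroup.closure_induction with
  | mem x hx =>
    obtain ⟨c, hc, t, rfl⟩ := hx
    rw [S.hπ]
    exact hA.X_mem_pos ((mem_posRoots D c).1 hc) t
  | one => rw [map_one]; exact one_mem _
  | mul x y _ _ ihx ihy => rw [map_mul]; exact mul_mem ihx ihy
  | inv x _ ih => rw [map_inv]; exact inv_mem ih

/-- the big cell decomposition -/
def Big (g : Γ) : Prop :=
  ∃ u ∈ Cl S.X D.posRoots, ∃ l, VW D l ∧ ∃ u' ∈ Cl S.X D.posRoots, g = u * S.nW l * u'

theorem big_one : S.Big 1 := ⟨1, one_mem _, [], by intro q hq; simp at hq, 1, one_mem _, by simp⟩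

theorem big_U_mul {u₀ g : Γ} (h₀ : u₀ ∈ Cl S.X D.posRoots) (hg : S.Big g) : S.Big (u₀ * g) := by
  obtain ⟨u, hu, l, hl, u', hu', rfl⟩ := hg
  exact ⟨u₀ * u, mul_mem h₀ hu, l, hl, u', hu', by group⟩

variable (hD : D ∈ [chevG2, chevB2, chevD4, chevF4, chevE6, chevE7, chevE8]) (T : StTab D)
include hD T

theorem la_nW {l : List (ℕ × K)} (hl : VW D l) : LA D.nroots S.X (S.nW l) (wact D (l.map Prod.fst)) := by
  have b := bundle_of_mem K hD
  induction l with
  | nil => intro r _; exact ⟨1, one_ne_zero, fun t => by simp⟩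
  | cons q l ih =>
    have hl' : VW D l := fun x hx => hl x (by simp [hx])
    rw [nW_cons]
    exact (S.la_nB hD T (hl q (by simp)).1 (hl q (by simp)).2).mul (ih hl')
      (fun r hr => b.hR.wact_lt hl'.fst hr)

theorem la_nW_inv {l : List (ℕ × K)} (hl : VW D l) :
    LA D.nroots S.X (S.nW l)⁻¹ (wact D (l.map Prod.fst).reverse) := by
  have b := bundle_of_mem K hD
  have hr : ∀ i ∈ (l.map Prod.fst).reverse, i < D.rank := fun i hi => hl.fst i (List.mem_reverse.1 hi)
  refine (S.la_nW hD T hl).inv (fun r h => b.hR.wact_lt hr h) (fun r h => ?_)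
  have := b.hR.wact_reverse hr h
  rwa [List.reverse_reverse] at this

theorem split_U {i : ℕ} (hi : i < D.rank) {u : Γ} (hu : u ∈ Cl S.X D.posRoots) :
    ∃ v ∈ Cl S.X (del D.posRoots (D.simple i)), ∃ a, u = v * S.X (D.simple i) a := by
  have b := bundle_of_mem K hD
  have hp := b.hR.simple_pos hi
  have h1 : u⁻¹ ∈ Cl S.X (D.simple i :: del D.posRoots (D.simple i)) := by
    refine Cl_mono _ (fun c hc => ?_) (inv_mem hu)
    by_cases h : c = D.simple i
    · simp [h]
    · exact List.mem_cons_of_mem _ (mem_del.2 ⟨hc, h⟩)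
  obtain ⟨t, v, hv, e⟩ := split_head S.X S.add (fun t c hc w =>
    (Subgroup.mem_normalizer_iff.1 (S.Lp_le_norm_pos hD T hi (S.X_mem_Lp i t)) _).1 (X_mem_Cl _ hc w)) h1
  refine ⟨v⁻¹, inv_mem hv, -t, ?_⟩
  rw [S.X_neg, ← _root_.mul_inv_rev, ← e, inv_inv]

theorem big_nB_mul {i : ℕ} (hi : i < D.rank) {t : K} (ht : t ≠ 0) {g : Γ} (hg : S.Big g) :
    S.Big (S.nB (D.simple i) t * g) := by
  have b := bundle_of_mem K hD
  have hp := b.hR.simple_pos hi
  obtain ⟨u, hu, l, hl, u', hu', rfl⟩ := hg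
  obtain ⟨v, hv, a, rfl⟩ := S.split_U hD T hi hu
  set m := S.nB (D.simple i) t with hm
  have hmv : m * v * m⁻¹ ∈ Cl S.X D.posRoots :=
    Cl_mono _ (fun c hc => (mem_del.1 hc).1)
      ((Subgroup.mem_normalizer_iff.1 (S.Lp_le_norm_pos hD T hi (S.nB_mem_Lp i t)) _).1 hv)
  have hl1 : VW D ((i, t) :: l) := VW.cons hi ht hl
  have hrev : ∀ j ∈ (l.map Prod.fst).reverse, j < D.rank := fun j hj => hl.fst j (List.mem_reverse.1 hj)
  obtain ⟨c, hc, e⟩ := S.la_nW_inv hD T hl _ hp.1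
  rw [inv_inv] at e
  rcases b.hR.pos_or_neg (b.hR.wact_lt hrev hp.1) with hpos | hneg
  · refine ⟨m * v * m⁻¹, hmv, (i, t) :: l, hl1, S.X _ (c * a) * u',
      mul_mem (X_mem_Cl _ ((mem_posRoots D _).2 hpos) _) hu', ?_⟩
    rw [← e a, nW_cons, hm]; group
  · by_cases ha : a = 0
    · refine ⟨m * v * m⁻¹, hmv, (i, t) :: l, hl1, u', hu', ?_⟩
      rw [ha, S.X_zero, nW_cons, hm]; group
    · obtain ⟨c₁, hc₁, e₁⟩ := S.la_nB hD T hi ht _ hp.1
      rw [RootFacts.refl_simple] at e₁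
      set y := c₁ * a with hy
      have hy0 : y ≠ 0 := mul_ne_zero hc₁ ha
      obtain ⟨c₂, hc₂, e₂⟩ := S.la_nW_inv hD T hl1 _ hp.1
      rw [inv_inv] at e₂
      have hroot : wact D (((i, t) :: l).map Prod.fst).reverse (D.simple i) =
          D.neg (wact D (l.map Prod.fst).reverse (D.simple i)) := by
        rw [List.map_cons, List.reverse_cons, wact_append]
        show wact D _ (D.reflectRoot i (D.simple i)) = _
        rw [RootFacts.refl_simple, b.hR.wact_neg hrev hp.1]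
      rw [hroot] at e₂
      refine ⟨m * v * m⁻¹ * S.X (D.simple i) y⁻¹,
        mul_mem hmv (X_mem_Cl _ ((mem_posRoots D _).2 hp) _), (i, -y⁻¹) :: (i, t) :: l,
        VW.cons hi (neg_ne_zero.2 (inv_ne_zero hy0)) hl1, S.X _ (c₂ * y⁻¹) * u',
        mul_mem (X_mem_Cl _ ((mem_posRoots D _).2 (b.hR.pos_of_neg hneg)) _) hu', ?_⟩
      rw [← e₂ y⁻¹, nW_cons _ (i, -y⁻¹)]
      have e3 : m * (v * S.X (D.simple i) a * S.nW l * u') =
          (m * v * m⁻¹) * (m * S.X (D.simple i) a * m⁻¹) * S.nW ((i, t) :: l) * u' := by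
        rw [nW_cons, hm]; group
      rw [e3, e₁ a, S.X_neg_eq _ hy0]
      group

theorem big_nW_mul {l : List (ℕ × K)} (hl : VW D l) {g : Γ} (hg : S.Big g) : S.Big (S.nW l * g) := by
  induction l with
  | nil => simpa using hg
  | cons q l ih =>
    rw [nW_cons, mul_assoc]
    exact S.big_nB_mul hD T (hl q (by simp)).1 (hl q (by simp)).2 (ih fun x hx => hl x (by simp [hx]))

theorem big_X_mul {r : ℕ} (hr : r < D.nroots) (t : K) {g : Γ} (hg : S.Big g) : S.Big (S.X r t * g) := by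
  have b := bundle_of_mem K hD
  obtain ⟨w, j, hw, hj, rfl⟩ := b.hR.exists_word r hr
  set l : List (ℕ × K) := w.map fun i => (i, 1) with hl
  have hV : VW D l := by
    intro q hq
    obtain ⟨i, hi, rfl⟩ := List.mem_map.1 hq
    exact ⟨hw i hi, one_ne_zero⟩
  have hfst : l.map Prod.fst = w := by rw [hl, List.map_map]; simp [Function.comp_def]
  obtain ⟨c, hc, e⟩ := S.la_nW hD T hV _ (b.hR.simple_lt hj)
  rw [hfst] at e
  have e1 : S.X (wact D w (D.simple j)) t * g =
      S.nW l * (S.X (D.simple j) (c⁻¹ * t) * ((S.nW l)⁻¹ * g)) := by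
    have := e (c⁻¹ * t)
    rw [mul_inv_cancel_left₀ hc] at this
    rw [← this]; group
  rw [e1]
  apply S.big_nW_mul hD T hV
  apply S.big_U_mul (X_mem_Cl _ ((mem_posRoots D _).2 (b.hR.simple_pos hj)) _)
  rw [S.nW_inv]
  exact S.big_nW_mul hD T hV.inv hg

theorem big_all (g : Γ) : S.Big g := by
  have hg : g ∈ Subgroup.closure {g | ∃ r t, r < D.nroots ∧ g = S.X r t} := by rw [S.gen]; trivial
  induction hg using Subgroup.closure_induction_left with
  | one => exact S.big_one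
  | mul_left x hx y _ hy =>
    obtain ⟨r, t, hr, rfl⟩ := hx
    exact S.big_X_mul hD T hr t hy
  | inv_mul_cancel x hx y _ hy =>
    obtain ⟨r, t, hr, rfl⟩ := hx
    rw [← S.X_neg]
    exact S.big_X_mul hD T hr _ hy

theorem pi_nW_mem {l : List (ℕ × K)} (hl : VW D l) : S.π (S.nW l) ∈ D.monomialSubgroup K := by
  have b := bundle_of_mem K hD
  induction l with
  | nil => simp
  | cons q l ih =>
    rw [nW_cons, map_mul, S.pi_nB]
    exact mul_mem (hA.nG_mem_mono (b.hR.simple_lt (hl q (by simp)).1) (hl q (by simp)).2)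
      (ih fun x hx => hl x (by simp [hx]))

/-- an element of the kernel permuting the root elements linearly is central -/
theorem central_of_la {m : Γ} {σ : ℕ → ℕ} (hσ : ∀ r < D.nroots, σ r < D.nroots) (h : LA D.nroots S.X m σ)
    (hm : S.π m = 1) : m ∈ Subgroup.center Γ := by
  have b := bundle_of_mem K hD
  have hcomm : ∀ r < D.nroots, ∀ t, m * S.X r t * m⁻¹ = S.X r t := by
    intro r hr t
    obtain ⟨c, hc, e⟩ := h r hr
    have e1 : ∀ t, hA.X r t = hA.X (σ r) (c * t) := by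
      intro t
      have := congrArg S.π (e t)
      rwa [map_mul, map_mul, map_inv, hm, S.hπ, S.hπ, one_mul, inv_one, mul_one] at this
    have e2 : r = σ r := X_eq_X hD hA hr (hσ r hr) one_ne_zero (e1 1)
    have e3 : c = 1 := by
      have h1 := e1 1
      rw [← e2, mul_one] at h1
      have h2 : hA.X r (c - 1) = 1 := by
        rw [sub_eq_add_neg, hA.X_add, ← hA.X_inv, ← h1, mul_inv_cancel]
      exact sub_eq_zero.1 (hA.X_eq_one b.hTri hr h2)
    rw [e t, ← e2, e3, one_mul]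
  have hle : (⊤ : Subgroup Γ) ≤ Subgroup.centralizer {m} := by
    rw [← S.gen, Subgroup.closure_le]
    rintro x ⟨r, t, hr, rfl⟩
    rw [SetLike.mem_coe, Subgroup.mem_centralizer_singleton_iff]
    have := hcomm r hr t
    rw [mul_inv_eq_iff_eq_mul] at this
    exact this.symm
  rw [Subgroup.mem_center_iff]
  intro g
  have := hle (Subgroup.mem_top g)
  rw [Subgroup.mem_centralizer_singleton_iff] at this
  exact this

/-- the kernel consists of elements `n̄(l)` -/
theorem ker_eq_nW {z : Γ} (hz : S.π z = 1) : ∃ l, VW D l ∧ z = S.nW l ∧ z ∈ Subgroup.center Γ := by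
  have b := bundle_of_mem K hD
  obtain ⟨u, hu, l, hl, u', hu', rfl⟩ := S.big_all hD T z
  have h1 : S.π (S.nW l) = (S.π u)⁻¹ * (S.π u')⁻¹ := by
    rw [map_mul, map_mul] at hz
    calc S.π (S.nW l) = (S.π u)⁻¹ * (S.π u * S.π (S.nW l) * S.π u') * (S.π u')⁻¹ := by group
      _ = _ := by rw [hz, mul_one]
  have h2a : S.π (S.nW l) ∈ D.posUnipotent K := by
    rw [h1]
    exact mul_mem (inv_mem (S.pi_mem_pos hu)) (inv_mem (S.pi_mem_pos hu'))
  have h2 : S.π (S.nW l) ∈ D.posUnipotent K ⊓ D.monomialSubgroup K := ⟨h2a, S.pi_nW_mem hD T hl⟩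
  rw [(Cfsg.Agent.S1040.result D hD).1, Subgroup.mem_bot] at h2
  have h3 : u * u' = 1 := by
    apply S.inj_pos hD T (mul_mem hu hu') (one_mem _)
    rw [map_mul, map_one]
    rw [map_mul, map_mul, h2, mul_one] at hz
    exact hz
  have hc := S.central_of_la hD T (fun r hr => b.hR.wact_lt hl.fst hr) (S.la_nW hD T hl) h2
  have e : u * S.nW l * u' = S.nW l := by
    rw [(Subgroup.mem_center_iff.1 hc u), mul_assoc, h3, mul_one]
  rw [e]
  exact ⟨l, hl, rfl, hc⟩

theorem ker_le_center : S.π.ker ≤ Subgroup.center Γ := by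
  intro z hz
  obtain ⟨_, _, _, h⟩ := S.ker_eq_nW hD T (MonoidHom.mem_ker.1 hz)
  exact h

end StSys

end Cfsg.Agent.Lib.Helper23.StP
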