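import Cfsg.Agent.Lib.Helper23.StSys3
import Cfsg.Agent.Lib.Helper85.St2Lift

/-!
# Groups with Steinberg's relations: the rank one relations for every root
-/

set_option autoImplicit false

namespace Cfsg.Agent.Lib.Helper23.StP

open Cfsg.Lie Matrix Cfsg.Agent.Lib.Helper23 Cfsg.Agent.Lib.Helper22 Cfsg.Agent.Lib.Helper45
open Cfsg.Agent.Lib.Helper85

variable {D : ChevalleyDatum} {K : Type*} [Field K]

theorem X_inj (hD : D ∈ [chevG2, chevB2, chevD4, chevF4, chevE6, chevE7, chevE8]) (hA : AddFact D K)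
    {r : ℕ} (hr : r < D.nroots) {a c : K} (h : hA.X r a = hA.X r c) : a = c := by
  have b := bundle_of_mem K hD
  have h2 : hA.X r (a - c) = 1 := by
    rw [sub_eq_add_neg, hA.X_add, ← hA.X_inv, h, mul_inv_cancel]
  exact sub_eq_zero.1 (hA.X_eq_one b.hTri hr h2)

namespace StSys

variable {hA : AddFact D K} {Γ : Type*} [Group Γ] (S : StSys D K hA Γ)

variable (hD : D ∈ [chevG2, chevB2, chevD4, chevF4, chevE6, chevE7, chevE8])
include hD

/-- the constants of a linear action are those of the image -/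
theorem la_eq {g : Γ} {τ : ℕ → ℕ} (h : LA D.nroots S.X g τ) (hτ : ∀ r < D.nroots, τ r < D.nroots)
    {r r' : ℕ} (hr : r < D.nroots) (hr' : r' < D.nroots) {c' : K}
    (hG : ∀ u, S.π g * hA.X r u * (S.π g)⁻¹ = hA.X r' (c' * u)) (u : K) :
    g * S.X r u * g⁻¹ = S.X r' (c' * u) := by
  obtain ⟨c, hc, e⟩ := h r hr
  have e1 : ∀ u, hA.X (τ r) (c * u) = hA.X r' (c' * u) := by
    intro u
    rw [← hG u, ← S.hπ, ← S.hπ, ← e u, map_mul, map_mul, map_inv]
  have e2 : τ r = r' := X_eq_X hD hA (hτ r hr) hr' (mul_ne_zero hc one_ne_zero) (e1 1)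
  have e3 : c * u = c' * u := by
    have := e1 u
    rw [e2] at this
    exact X_inj hD hA hr' this
  rw [e u, e2, e3]

theorem pi_nW_one (w : List ℕ) : S.π (S.nW (w.map fun i => (i, (1 : K)))) = hA.nword w := by
  induction w with
  | nil => simp [AddFact.nword]
  | cons i w ih =>
    rw [List.map_cons, nW_cons, map_mul, ih, S.pi_nB, AddFact.nword_cons]
    rfl

variable (T : StTab D)
include T

/-- `n̄_r(t)` acts linearly on the root elements, for every root `r` -/
theorem la_nB_root {r : ℕ} (hr : r < D.nroots) {t : K} (ht : t ≠ 0) :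
    ∃ τ : ℕ → ℕ, (∀ s < D.nroots, τ s < D.nroots) ∧ LA D.nroots S.X (S.nB r t) τ := by
  have b := bundle_of_mem K hD
  obtain ⟨w, j, hw, hj, rfl⟩ := b.hR.exists_word r hr
  have hp := b.hR.simple_lt hj
  set l : List (ℕ × K) := w.map fun i => (i, 1) with hl
  have hV : VW D l := by
    intro q hq
    obtain ⟨i, hi, rfl⟩ := List.mem_map.1 hq
    exact ⟨hw i hi, one_ne_zero⟩
  have hfst : l.map Prod.fst = w := by rw [hl, List.map_map]; simp [Function.comp_def]
  have hwr : ∀ i ∈ w.reverse, i < D.rank := fun i hi => hw i (List.mem_reverse.1 hi)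
  have L1 := S.la_nW hD T hV
  have L2 := S.la_nW_inv hD T hV
  rw [hfst] at L1 L2
  set m := S.nW l with hm
  set g' := m⁻¹ * S.nB (wact D w (D.simple j)) t * m with hg'
  have hgL : g' ∈ S.Lp j := by
    obtain ⟨c, _, e⟩ := L2 _ hr
    obtain ⟨c', _, e'⟩ := L2 _ (b.hR.neg_lt hr)
    rw [inv_inv, b.hR.wact_reverse hw hp] at e
    rw [inv_inv, b.hR.wact_neg hwr hr, b.hR.wact_reverse hw hp] at e'
    have : g' = (m⁻¹ * S.X (wact D w (D.simple j)) t * m) *
        (m⁻¹ * S.X (D.neg (wact D w (D.simple j))) (-t⁻¹) * m) *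
        (m⁻¹ * S.X (wact D w (D.simple j)) t * m) := by
      rw [hg', nB]; group
    rw [this, e, e']
    exact mul_mem (mul_mem (S.X_mem_Lp j _) (S.Xn_mem_Lp j _)) (S.X_mem_Lp j _)
  have hπg : ∃ t', t' ≠ 0 ∧ S.π g' = hA.nG (D.simple j) t' := by
    obtain ⟨ε, hε, c1⟩ := hA.nword_conj_nG b.hR b.hN hw hp
    have hεε : ε * ε = 1 := by rcases hε with rfl | rfl <;> simp
    have hε0 : ε ≠ 0 := by rcases hε with rfl | rfl <;> simp
    refine ⟨ε * t, mul_ne_zero hε0 ht, ?_⟩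
    have := c1 (ε * t)
    rw [← mul_assoc, hεε, one_mul] at this
    rw [hg', map_mul, map_mul, map_inv, S.pi_nB, ← this, hm, hl, S.pi_nW_one hD]
    group
  obtain ⟨t', ht', e⟩ := hπg
  have L3 : LA D.nroots S.X g' (D.reflectRoot j) := by
    apply S.la_lift hD T hj hgL
    rw [e]
    exact la_nG hD hA hj ht'
  have e2 : S.nB (wact D w (D.simple j)) t = m * (g' * m⁻¹) := by rw [hg']; group
  rw [e2]
  refine ⟨_, ?_, L1.mul (L3.mul L2 (fun s hs => b.hR.wact_lt hwr hs))
    (fun s hs => b.hR.refl_lt hj (b.hR.wact_lt hwr hs))⟩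
  intro s hs
  exact b.hR.wact_lt hw (b.hR.refl_lt hj (b.hR.wact_lt hwr hs))

/-- the rank one relation for every root -/
theorem rel_root {r : ℕ} (hr : r < D.nroots) {t : K} (ht : t ≠ 0) (u : K) :
    S.nB r t * S.X r u * (S.nB r t)⁻¹ = S.X (D.neg r) (-(t⁻¹ ^ 2 * u)) := by
  have b := bundle_of_mem K hD
  obtain ⟨τ, hτ, h⟩ := S.la_nB_root hD T hr ht
  have := S.la_eq hD h hτ hr (b.hR.neg_lt hr) (c' := -(t⁻¹ ^ 2)) (fun u => by
    rw [S.pi_nB, StP.rel_root hD hA hr ht]
    congr 1; ring) u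
  rw [this]
  congr 1; ring

/-- the rank one datum of a root -/
def st2 {r : ℕ} (hr : r < D.nroots) : St2 K Γ where
  x := S.X r
  y := S.X (D.neg r)
  x_add t u := (S.add _ t u).symm
  y_add t u := (S.add _ t u).symm
  rel t u ht := S.rel_root hD T hr ht u

/-- `h̄_r(t)` -/
def hB (S : StSys D K hA Γ) (r : ℕ) (t : K) : Γ := S.nB r t * S.nB r (-1)

omit hD T in
theorem WW_hWord (r : ℕ) (t : K) : WW S.X (D.hWord r t) = S.hB r t := by
  simp [WW, ChevalleyDatum.hWord, ChevalleyDatum.nWord, hB, nB, mul_assoc]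

/-- over a finite field the relations (R3) hold -/
theorem hB_mul_of_finite [Finite K] {r : ℕ} (hr : r < D.nroots) {t u : K} (ht : t ≠ 0) (hu : u ≠ 0) :
    S.hB r t * S.hB r u = S.hB r (t * u) := by
  obtain ⟨φ, h1, h2⟩ := (S.st2 hD T hr).exists_hom
  have key : ∀ v, S.hB r v = φ ((SL2.stdSt2 K).h v) := by
    intro v
    have h1' : ∀ t, φ (SL2.up t) = S.X r t := h1
    have h2' : ∀ t, φ (SL2.lo t) = S.X (D.neg r) t := h2
    simp only [St2.h, St2.w, SL2.stdSt2, map_mul, h1', h2', hB, nB]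
  rw [key, key, key, ← map_mul, St2.std_hmul K t u ht hu]

end StSys

end Cfsg.Agent.Lib.Helper23.StP
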