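import Cfsg.Agent.Lib.Helper23.StSys4
import Cfsg.Agent.Lib.Helper23.AutStd

/-!
# Groups with Steinberg's relations: the kernel lies in `H̄`
-/

set_option autoImplicit false

namespace Cfsg.Agent.Lib.Helper23.StP

open Cfsg.Lie Matrix Cfsg.Agent.Lib.Helper23 Cfsg.Agent.Lib.Helper22 Cfsg.Agent.Lib.Helper45

/-- linear action with inverse constants on opposite roots -/
def LAP {K Γ : Type*} [Field K] [Group Γ] (n : ℕ) (ng : ℕ → ℕ) (X : ℕ → K → Γ) (g : Γ) (σ : ℕ → ℕ) : Prop :=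
  ∀ r < n, ∃ c : K, c ≠ 0 ∧ (∀ t, g * X r t * g⁻¹ = X (σ r) (c * t)) ∧
    ∀ t, g * X (ng r) t * g⁻¹ = X (ng (σ r)) (c⁻¹ * t)

theorem LAP.mul {K Γ : Type*} [Field K] [Group Γ] {n : ℕ} {ng : ℕ → ℕ} {X : ℕ → K → Γ} {g g' : Γ}
    {σ σ' : ℕ → ℕ} (h : LAP n ng X g σ) (h' : LAP n ng X g' σ') (hlt : ∀ r < n, σ' r < n) :
    LAP n ng X (g * g') (σ ∘ σ') := by
  intro r hr
  obtain ⟨c', hc', e1', e2'⟩ := h' r hr
  obtain ⟨c, hc, e1, e2⟩ := h _ (hlt r hr)
  refine ⟨c * c', mul_ne_zero hc hc', fun t => ?_, fun t => ?_⟩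
  · have : g * g' * X r t * (g * g')⁻¹ = g * (g' * X r t * g'⁻¹) * g⁻¹ := by group
    rw [this, e1', e1, mul_assoc]; rfl
  · have : g * g' * X (ng r) t * (g * g')⁻¹ = g * (g' * X (ng r) t * g'⁻¹) * g⁻¹ := by group
    rw [this, e2', e2, _root_.mul_inv, mul_assoc]; rfl

/-- the first crossing -/
theorem exists_cross {D : ChevalleyDatum} (hR : RootFacts D) : ∀ (v : List ℕ), (∀ i ∈ v, i < D.rank) →
    ∀ p, D.IsPosRoot p → D.IsNegRoot (wact D v.reverse p) →
    ∃ v1 j v2, v = v1 ++ j :: v2 ∧ wact D v1.reverse p = D.simple j := by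
  intro v
  induction v with
  | nil => intro _ p hp hn; exact absurd hn (hR.not_neg_of_pos hp)
  | cons j v ih =>
    intro hv p hp hn
    by_cases h : p = D.simple j
    · exact ⟨[], j, v, rfl, h⟩
    · rw [List.reverse_cons, wact_append] at hn
      obtain ⟨v1, j', v2, e1, e2⟩ := ih (fun i hi => hv i (by simp [hi])) _
        (hR.refl_pos (hv j (by simp)) hp h) hn
      refine ⟨j :: v1, j', v2, by rw [e1]; rfl, ?_⟩
      rw [List.reverse_cons, wact_append]
      exact e2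

variable {D : ChevalleyDatum} {K : Type*} [Field K]

theorem lap_diag (hD : D ∈ [chevG2, chevB2, chevD4, chevF4, chevE6, chevE7, chevE8]) (hA : AddFact D K)
    {h : GL D.Idx K} (hh : h ∈ D.diagonalSubgroup K) : LAP D.nroots D.neg hA.X h id := by
  have b := bundle_of_mem K hD
  obtain ⟨χ, hχ⟩ := hA.diag_isTor b.hT hh
  intro r hr
  refine ⟨χ r, hχ.1 r, fun t => hχ.2.2 r hr t, fun t => ?_⟩
  have e : χ (D.neg r) = (χ r)⁻¹ := by
    rcases b.hR.pos_or_neg hr with hp | hn
    · exact b.isTor_neg hh hχ hp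
    · have := b.isTor_neg hh hχ (b.hR.pos_of_neg hn)
      rw [b.hR.neg_neg hr] at this
      rw [this, inv_inv]
  rw [hχ.2.2 _ (b.hR.neg_lt hr), e]; rfl

theorem lap_nG (hD : D ∈ [chevG2, chevB2, chevD4, chevF4, chevE6, chevE7, chevE8]) (hA : AddFact D K)
    {i : ℕ} (hi : i < D.rank) {c : K} (hc : c ≠ 0) :
    LAP D.nroots D.neg hA.X (hA.nG (D.simple i) c) (D.reflectRoot i) := by
  have b := bundle_of_mem K hD
  rw [AddFact.nG_eq_hG_mul]
  have h1 : LAP D.nroots D.neg hA.X (hA.nG (D.simple i) 1) (D.reflectRoot i) := by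
    obtain ⟨ε, e1, e2, e3⟩ := hA.nn_conj b.hR b.hN hi
    intro r hr
    refine ⟨ε r, by rcases e1 r hr with h | h <;> simp [h], fun t => e3 r hr t, fun t => ?_⟩
    have h3 : hA.nG (D.simple i) 1 * hA.X (D.neg r) t * (hA.nG (D.simple i) 1)⁻¹ = _ :=
      e3 _ (b.hR.neg_lt hr) t
    rw [h3, e2 r hr, b.hR.refl_neg hi hr]
    congr 2
    rcases e1 r hr with h | h <;> simp [h, inv_neg]
  exact (lap_diag hD hA (hA.hG_mem_diag (b.hR.simple_lt hi) hc)).mul h1 (fun r hr => b.hR.refl_lt hi hr)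

namespace StSys

variable {hA : AddFact D K} {Γ : Type*} [Group Γ] (S : StSys D K hA Γ)

theorem nB_mul_nB (r : ℕ) (t t' : K) : S.nB r t * S.nB r t' = S.hB r t * (S.hB r (-t'))⁻¹ := by
  have e1 : S.nB r (-1) = (S.nB r 1)⁻¹ := by rw [S.nB_inv]
  have e2 : S.nB r (-t') = (S.nB r t')⁻¹ := by rw [S.nB_inv]
  simp only [hB, e1, e2]; group

theorem pi_hB (r : ℕ) (t : K) : S.π (S.hB r t) = hA.hG r t := by
  simp only [hB, map_mul, S.pi_nB, AddFact.hG]

/-- conjugating `n̄_r(t)` -/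
theorem conj_nB {g : Γ} {σ : ℕ → ℕ} (h : LAP D.nroots D.neg S.X g σ) {r : ℕ} (hr : r < D.nroots) :
    ∃ c : K, c ≠ 0 ∧ ∀ t, g * S.nB r t * g⁻¹ = S.nB (σ r) (c * t) := by
  obtain ⟨c, hc, e1, e2⟩ := h r hr
  refine ⟨c, hc, fun t => ?_⟩
  have : g * S.nB r t * g⁻¹ = (g * S.X r t * g⁻¹) * (g * S.X (D.neg r) (-t⁻¹) * g⁻¹) * (g * S.X r t * g⁻¹) := by
    rw [nB]; group
  rw [this, e1, e2, nB]
  congr 3
  rw [_root_.mul_inv]; ring

/-- the subgroup `H̄` -/
def Hb : Subgroup Γ := Subgroup.closure {h | ∃ (i : ℕ) (t : K), i < D.rank ∧ t ≠ 0 ∧ h = S.hB (D.simple i) t}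

theorem hB_mem_Hb {i : ℕ} (hi : i < D.rank) {t : K} (ht : t ≠ 0) : S.hB (D.simple i) t ∈ S.Hb :=
  Subgroup.subset_closure ⟨i, t, hi, ht, rfl⟩

variable (hD : D ∈ [chevG2, chevB2, chevD4, chevF4, chevE6, chevE7, chevE8])
include hD

theorem pi_Hb {h : Γ} (hh : h ∈ S.Hb) : S.π h ∈ D.diagonalSubgroup K := by
  have b := bundle_of_mem K hD
  induction hh using Subgroup.closure_induction with
  | mem x hx =>
    obtain ⟨i, t, hi, ht, rfl⟩ := hx
    rw [S.pi_hB]
    exact hA.hG_mem_diag (b.hR.simple_lt hi) ht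
  | one => rw [map_one]; exact one_mem _
  | mul x y _ _ ihx ihy => rw [map_mul]; exact mul_mem ihx ihy
  | inv x _ ih => rw [map_inv]; exact inv_mem ih

variable (T : StTab D)
include T

theorem lap_nB {i : ℕ} (hi : i < D.rank) {t : K} (ht : t ≠ 0) :
    LAP D.nroots D.neg S.X (S.nB (D.simple i) t) (D.reflectRoot i) := by
  have b := bundle_of_mem K hD
  have L := S.la_nB hD T hi ht
  intro r hr
  obtain ⟨c, hc, e1, e2⟩ := lap_nG hD hA hi ht r hr
  have hτ : ∀ r < D.nroots, D.reflectRoot i r < D.nroots := fun r hr => b.hR.refl_lt hi hr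
  refine ⟨c, hc, S.la_eq hD L hτ hr (hτ r hr) (by rw [S.pi_nB]; exact e1),
    S.la_eq hD L hτ (b.hR.neg_lt hr) (b.hR.neg_lt (hτ r hr)) (by rw [S.pi_nB]; exact e2)⟩

theorem lap_nW {l : List (ℕ × K)} (hl : VW D l) :
    LAP D.nroots D.neg S.X (S.nW l) (wact D (l.map Prod.fst)) := by
  have b := bundle_of_mem K hD
  induction l with
  | nil => intro r _; exact ⟨1, one_ne_zero, fun t => by simp, fun t => by simp⟩
  | cons q l ih =>
    have hl' : VW D l := fun x hx => hl x (by simp [hx])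
    rw [nW_cons]
    exact (S.lap_nB hD T (hl q (by simp)).1 (hl q (by simp)).2).mul (ih hl')
      (fun r hr => b.hR.wact_lt hl'.fst hr)

/-- a word whose image is diagonal lies in `H̄` -/
theorem nW_mem_Hb : ∀ (k : ℕ) (l : List (ℕ × K)), l.length = k → VW D l →
    S.π (S.nW l) ∈ D.diagonalSubgroup K → S.nW l ∈ S.Hb := by
  have b := bundle_of_mem K hD
  intro k
  induction k using Nat.strong_induction_on with
  | _ k ih =>
    intro l hk hl hπ
    cases l with
    | nil => exact one_mem _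
    | cons q l' =>
      obtain ⟨i, t⟩ := q
      have hi : i < D.rank := (hl (i, t) (by simp)).1
      have ht : t ≠ 0 := (hl (i, t) (by simp)).2
      have hl' : VW D l' := fun x hx => hl x (by simp [hx])
      have hp := b.hR.simple_pos hi
      set v := l'.map Prod.fst with hv
      have hvr : ∀ j ∈ v, j < D.rank := hl'.fst
      have hvrr : ∀ j ∈ v.reverse, j < D.rank := fun j hj => hvr j (List.mem_reverse.1 hj)
      -- the whole word acts trivially on the roots
      have hid : ∀ r < D.nroots, wact D (i :: v) r = r := by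
        intro r hr
        obtain ⟨c, hc, e⟩ := S.la_nW hD T hl r hr
        obtain ⟨c', hc', e'⟩ := la_diag hD hA hπ r hr
        have e1 := congrArg S.π (e 1)
        rw [map_mul, map_mul, map_inv, S.hπ, S.hπ, e' 1] at e1
        exact (X_eq_X hD hA hr (b.hR.wact_lt hl.fst hr) (mul_ne_zero hc' one_ne_zero) e1).symm
      have hneg : D.IsNegRoot (wact D v.reverse (D.simple i)) := by
        have h1 := hid _ (b.hR.neg_lt hp.1)
        rw [wact_cons] at h1
        have h2 : wact D v (D.neg (D.simple i)) = D.simple i := by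
          have := congrArg (D.reflectRoot i) h1
          rwa [b.hR.refl_refl hi (b.hR.wact_lt hvr (b.hR.neg_lt hp.1)), b.hR.refl_neg_simple hi] at this
        have h3 := b.hR.wact_reverse hvr (b.hR.neg_lt hp.1)
        rw [h2] at h3
        rw [h3]
        exact b.hR.neg_of_pos hp
      obtain ⟨v1, j, v2, e1, e2⟩ := exists_cross b.hR v hvr _ hp hneg
      -- split the word
      obtain ⟨l1, q2, l2, rfl, f1, f2, f3⟩ : ∃ l1 q2 l2, l' = l1 ++ q2 :: l2 ∧ l1.map Prod.fst = v1 ∧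
          q2.1 = j ∧ l2.map Prod.fst = v2 := by
        rw [hv] at e1
        obtain ⟨l1, l2', h1, h2, h3⟩ := List.map_eq_append_iff.1 e1
        obtain ⟨q2, l2, h4, h5, h6⟩ := List.map_eq_cons_iff.1 h3
        exact ⟨l1, q2, l2, by rw [h1, h4], h2, h5, h6⟩
      obtain ⟨j', u⟩ := q2
      simp only at f2
      subst f2
      have hl1 : VW D l1 := fun x hx => hl' x (by simp [hx])
      have hl2 : VW D l2 := fun x hx => hl' x (by simp [hx])
      have hj : j' < D.rank := (hl' (j', u) (by simp)).1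
      have hu : u ≠ 0 := (hl' (j', u) (by simp)).2
      have hroot : wact D (l1.map Prod.fst) (D.simple j') = D.simple i := by
        rw [f1, ← e2]
        have hv1 : ∀ x ∈ v1.reverse, x < D.rank := by
          intro x hx
          rw [← f1] at hx
          exact hl1.fst x (List.mem_reverse.1 hx)
        have := b.hR.wact_reverse hv1 hp.1
        rwa [List.reverse_reverse] at this
      obtain ⟨c, hc, e⟩ := S.conj_nB (S.lap_nW hD T hl1) (b.hR.simple_lt hj)
      rw [hroot] at e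
      have key : S.nW ((i, t) :: (l1 ++ (j', u) :: l2)) =
          (S.hB (D.simple i) t * (S.hB (D.simple i) (-(c * u)))⁻¹) * S.nW (l1 ++ l2) := by
        rw [← S.nB_mul_nB, ← e u, nW_cons, nW_append, nW_cons, nW_append]; group
      have hη : S.hB (D.simple i) t * (S.hB (D.simple i) (-(c * u)))⁻¹ ∈ S.Hb :=
        mul_mem (S.hB_mem_Hb hi ht) (inv_mem (S.hB_mem_Hb hi (neg_ne_zero.2 (mul_ne_zero hc hu))))
      rw [key]
      refine mul_mem hη (ih (l1 ++ l2).length ?_ _ rfl ?_ ?_)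
      · rw [← hk]; simp only [List.length_cons, List.length_append]; omega
      · intro x hx
        rcases List.mem_append.1 hx with h | h
        · exact hl1 x h
        · exact hl2 x h
      · rw [key, map_mul] at hπ
        have := mul_mem (inv_mem (S.pi_Hb hD hη)) hπ
        rwa [inv_mul_cancel_left] at this

theorem ker_le_Hb : S.π.ker ≤ S.Hb := by
  intro z hz
  obtain ⟨l, hl, rfl, -⟩ := S.ker_eq_nW hD T (MonoidHom.mem_ker.1 hz)
  apply S.nW_mem_Hb hD T _ l rfl hl
  rw [MonoidHom.mem_ker.1 hz]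
  exact one_mem _

end StSys

end Cfsg.Agent.Lib.Helper23.StP
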