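import Cfsg.Agent.Lib.Helper23.StSys5
import Cfsg.Agent.Lib.Helper23.StMain

/-!
# Groups with Steinberg's relations (R1), (R2), (R3): the structure of `H̄`
-/

set_option autoImplicit false

namespace Cfsg.Agent.Lib.Helper23.StP

open Cfsg.Lie Matrix Cfsg.Agent.Lib.Helper23 Cfsg.Agent.Lib.Helper22 Cfsg.Agent.Lib.Helper45

theorem LAP.congr {K Γ : Type*} [Field K] [Group Γ] {n : ℕ} {ng : ℕ → ℕ} {X : ℕ → K → Γ} {g : Γ}
    {σ σ' : ℕ → ℕ} (h : LAP n ng X g σ) (e : ∀ r < n, σ r = σ' r) : LAP n ng X g σ' := by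
  intro r hr
  obtain ⟨c, hc, e1, e2⟩ := h r hr
  exact ⟨c, hc, by rw [← e r hr]; exact e1, by rw [← e r hr]; exact e2⟩

theorem LAP.one {K Γ : Type*} [Field K] [Group Γ] {n : ℕ} {ng : ℕ → ℕ} {X : ℕ → K → Γ} :
    LAP n ng X (1 : Γ) id := fun _ _ => ⟨1, one_ne_zero, fun t => by simp, fun t => by simp⟩

theorem LAP.inv_id {K Γ : Type*} [Field K] [Group Γ] {n : ℕ} {ng : ℕ → ℕ} {X : ℕ → K → Γ} {g : Γ}
    (h : LAP n ng X g id) : LAP n ng X g⁻¹ id := by
  intro r hr
  obtain ⟨c, hc, e1, e2⟩ := h r hr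
  refine ⟨c⁻¹, inv_ne_zero hc, fun t => ?_, fun t => ?_⟩
  · have := e1 (c⁻¹ * t)
    rw [mul_inv_cancel_left₀ hc] at this
    simp only [id] at this ⊢
    rw [← this]; group
  · have := e2 (c * t)
    rw [inv_mul_cancel_left₀ hc] at this
    simp only [id] at this ⊢
    rw [← this, inv_inv]; group

variable {D : ChevalleyDatum} {K : Type*} [Field K]

namespace StSys

variable {hA : AddFact D K} {Γ : Type*} [Group Γ] (S : StSys D K hA Γ)

/-- the relations (R3) -/
def R3 : Prop := ∀ r < D.nroots, ∀ t u : K, t ≠ 0 → u ≠ 0 → S.hB r t * S.hB r u = S.hB r (t * u)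

theorem hB_one (r : ℕ) : S.hB r 1 = 1 := by
  rw [hB, ← S.nB_inv, mul_inv_cancel]

variable {S}

theorem R3.hB_inv (h3 : S.R3) {r : ℕ} (hr : r < D.nroots) {t : K} (ht : t ≠ 0) :
    (S.hB r t)⁻¹ = S.hB r t⁻¹ := by
  rw [inv_eq_iff_mul_eq_one, h3 r hr _ _ ht (inv_ne_zero ht), mul_inv_cancel₀ ht, S.hB_one]

/-- conjugating `h̄_r(t)` -/
theorem R3.conj_hB (h3 : S.R3) {g : Γ} {σ : ℕ → ℕ} (h : LAP D.nroots D.neg S.X g σ) {r : ℕ}
    (hr : r < D.nroots) (hσ : σ r < D.nroots) {t : K} (ht : t ≠ 0) :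
    g * S.hB r t * g⁻¹ = S.hB (σ r) t := by
  obtain ⟨c, hc, e⟩ := S.conj_nB h hr
  have : g * S.hB r t * g⁻¹ = (g * S.nB r t * g⁻¹) * (g * S.nB r (-1) * g⁻¹) := by
    rw [hB]; group
  rw [this, e, e, S.nB_mul_nB, mul_neg, mul_one, neg_neg, h3.hB_inv hσ hc,
    h3 _ hσ _ _ (mul_ne_zero hc ht) (inv_ne_zero hc)]
  congr 1
  field_simp

variable (S)
variable (hD : D ∈ [chevG2, chevB2, chevD4, chevF4, chevE6, chevE7, chevE8]) (T : StTab D)
include hD T

theorem lap_hB {i : ℕ} (hi : i < D.rank) {t : K} (ht : t ≠ 0) :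
    LAP D.nroots D.neg S.X (S.hB (D.simple i) t) id := by
  have b := bundle_of_mem K hD
  rw [hB]
  refine ((S.lap_nB hD T hi ht).mul (S.lap_nB hD T hi (neg_ne_zero.2 one_ne_zero))
    (fun r hr => b.hR.refl_lt hi hr)).congr (fun r hr => ?_)
  exact b.hR.refl_refl hi hr

theorem lap_Hb {h : Γ} (hh : h ∈ S.Hb) : LAP D.nroots D.neg S.X h id := by
  induction hh using Subgroup.closure_induction with
  | mem x hx =>
    obtain ⟨i, t, hi, ht, rfl⟩ := hx
    exact S.lap_hB hD T hi ht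
  | one => exact LAP.one
  | mul x y _ _ ihx ihy => exact ihx.mul ihy (fun r hr => hr)
  | inv x _ ih => exact ih.inv_id

variable {S}

theorem R3.comm_Hb (h3 : S.R3) {h : Γ} (hh : h ∈ S.Hb) {r : ℕ} (hr : r < D.nroots) {t : K} (ht : t ≠ 0) :
    h * S.hB r t = S.hB r t * h := by
  have := h3.conj_hB (S.lap_Hb hD T hh) hr hr ht
  rwa [mul_inv_eq_iff_eq_mul] at this

variable (S)

omit hD T in
/-- partial products of the `h̄_i(c_i)` -/
def hW (n : ℕ) (c : ℕ → K) : Γ := ((List.range n).map fun i => S.hB (D.simple i) (c i)).prod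

omit hD T in
theorem hW_zero (c : ℕ → K) : S.hW 0 c = 1 := rfl

omit hD T in
theorem hW_succ (n : ℕ) (c : ℕ → K) : S.hW (n + 1) c = S.hW n c * S.hB (D.simple n) (c n) := by
  simp [hW, List.range_succ]

omit hD T in
theorem hW_mem {n : ℕ} (hn : n ≤ D.rank) {c : ℕ → K} (hc : ∀ i < D.rank, c i ≠ 0) : S.hW n c ∈ S.Hb := by
  induction n with
  | zero => exact one_mem _
  | succ n ih =>
    rw [hW_succ]
    exact mul_mem (ih (by omega)) (S.hB_mem_Hb (by omega) (hc n (by omega)))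

omit hD T in
theorem hW_congr {n : ℕ} {c c' : ℕ → K} (h : ∀ i < n, c i = c' i) : S.hW n c = S.hW n c' := by
  induction n with
  | zero => rfl
  | succ n ih => rw [hW_succ, hW_succ, ih (fun i hi => h i (by omega)), h n (by omega)]

omit hD T in
theorem hW_one (n : ℕ) : S.hW n (fun _ => 1) = 1 := by
  induction n with
  | zero => rfl
  | succ n ih => rw [hW_succ, ih, S.hB_one, one_mul]

omit hD T in
theorem hW_update (n i : ℕ) (t : K) :
    S.hW n (Function.update (fun _ => 1) i t) = if i < n then S.hB (D.simple i) t else 1 := by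
  induction n with
  | zero => rfl
  | succ n ih =>
    rw [hW_succ, ih]
    by_cases h : i < n
    · rw [if_pos h, if_pos (by omega), Function.update_of_ne (by omega), S.hB_one, mul_one]
    · rw [if_neg h]
      by_cases h' : i = n
      · subst h'
        rw [if_pos (by omega), Function.update_self, one_mul]
      · rw [if_neg (by omega), Function.update_of_ne (fun e => h' e.symm), S.hB_one, one_mul]

variable {S}

theorem R3.hW_mul (h3 : S.R3) {n : ℕ} (hn : n ≤ D.rank) {c c' : ℕ → K} (hc : ∀ i < D.rank, c i ≠ 0)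
    (hc' : ∀ i < D.rank, c' i ≠ 0) : S.hW n c * S.hW n c' = S.hW n (fun i => c i * c' i) := by
  have b := bundle_of_mem K hD
  induction n with
  | zero => simp [hW_zero]
  | succ n ih =>
    rw [hW_succ, hW_succ, hW_succ, ← ih (by omega),
      ← h3 _ (b.hR.simple_lt (by omega : n < D.rank)) _ _ (hc n (by omega)) (hc' n (by omega))]
    have := h3.comm_Hb hD T (S.hW_mem (by omega : n ≤ D.rank) hc') (b.hR.simple_lt (by omega : n < D.rank))
      (hc n (by omega))
    calc S.hW n c * S.hB (D.simple n) (c n) * (S.hW n c' * S.hB (D.simple n) (c' n))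
        = S.hW n c * (S.hB (D.simple n) (c n) * S.hW n c') * S.hB (D.simple n) (c' n) := by group
      _ = S.hW n c * (S.hW n c' * S.hB (D.simple n) (c n)) * S.hB (D.simple n) (c' n) := by rw [this]
      _ = _ := by group

/-- every element of `H̄` is a product of `h̄_i(c_i)` -/
theorem R3.exists_hW (h3 : S.R3) {h : Γ} (hh : h ∈ S.Hb) :
    ∃ c : ℕ → K, (∀ i < D.rank, c i ≠ 0) ∧ h = S.hW D.rank c := by
  induction hh using Subgroup.closure_induction with
  | mem x hx =>
    obtain ⟨i, t, hi, ht, rfl⟩ := hx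
    refine ⟨Function.update (fun _ => 1) i t, fun j _ => ?_, by rw [S.hW_update, if_pos hi]⟩
    by_cases h : j = i
    · subst h; rwa [Function.update_self]
    · rw [Function.update_of_ne h]; exact one_ne_zero
  | one => exact ⟨fun _ => 1, fun _ _ => one_ne_zero, (S.hW_one _).symm⟩
  | mul x y _ _ ihx ihy =>
    obtain ⟨c, hc, rfl⟩ := ihx
    obtain ⟨c', hc', rfl⟩ := ihy
    exact ⟨fun i => c i * c' i, fun i hi => mul_ne_zero (hc i hi) (hc' i hi), h3.hW_mul hD T le_rfl hc hc'⟩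
  | inv x _ ih =>
    obtain ⟨c, hc, rfl⟩ := ih
    refine ⟨fun i => (c i)⁻¹, fun i hi => inv_ne_zero (hc i hi), ?_⟩
    rw [inv_eq_iff_mul_eq_one, h3.hW_mul hD T le_rfl hc (fun i hi => inv_ne_zero (hc i hi)), ← S.hW_one D.rank]
    exact S.hW_congr (fun i hi => mul_inv_cancel₀ (hc i hi))

variable (S)

omit T in
/-- the action of the image of `hW` on root elements -/
theorem pi_hW_conj {n : ℕ} (hn : n ≤ D.rank) {c : ℕ → K} (hc : ∀ i < D.rank, c i ≠ 0) {s : ℕ}
    (hs : s < D.nroots) (u : K) :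
    S.π (S.hW n c) * hA.X s u * (S.π (S.hW n c))⁻¹ =
      hA.X s (((List.range n).map fun i => c i ^ D.cartan i s).prod * u) := by
  induction n generalizing u with
  | zero => simp [hW_zero]
  | succ n ih =>
    rw [hW_succ, map_mul, S.pi_hB]
    have : S.π (S.hW n c) * hA.hG (D.simple n) (c n) * hA.X s u *
        (S.π (S.hW n c) * hA.hG (D.simple n) (c n))⁻¹ =
        S.π (S.hW n c) * (hA.hG (D.simple n) (c n) * hA.X s u * (hA.hG (D.simple n) (c n))⁻¹) *
          (S.π (S.hW n c))⁻¹ := by group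
    rw [this, hG_conj hD hA (by omega) hs (hc n (by omega)), ih (by omega)]
    congr 1
    simp [List.range_succ, mul_assoc]

omit T in
theorem char_of_pi_hW {c : ℕ → K} (hc : ∀ i < D.rank, c i ≠ 0) (h : S.π (S.hW D.rank c) = 1) :
    ∀ s < D.nroots, ((List.range D.rank).map fun i => c i ^ D.cartan i s).prod = 1 := by
  intro s hs
  have := S.pi_hW_conj hD le_rfl hc hs 1
  rw [h, one_mul, inv_one, mul_one, mul_one] at this
  exact (X_inj hD hA hs this).symm

/-- the centre consists of the `hW c` with trivial characters -/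
theorem R3.center_eq (h3 : S.R3) {z : Γ} (hz : z ∈ Subgroup.center Γ) :
    ∃ c : ℕ → K, (∀ i < D.rank, c i ≠ 0) ∧ z = S.hW D.rank c ∧
      ∀ s < D.nroots, ((List.range D.rank).map fun i => c i ^ D.cartan i s).prod = 1 := by
  have hk := S.center_le_ker hD hz
  obtain ⟨c, hc, rfl⟩ := h3.exists_hW hD T (S.ker_le_Hb hD T hk)
  exact ⟨c, hc, rfl, S.char_of_pi_hW hD hc (MonoidHom.mem_ker.1 hk)⟩

end StSys

end Cfsg.Agent.Lib.Helper23.StP
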