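import Cfsg.Agent.Lib.Helper23.StLat

/-!
# Central extensions of a Chevalley group: canonical lifts of the root elements
-/

set_option autoImplicit false

namespace Cfsg.Agent.Lib.Helper23.StP

open Cfsg.Lie Matrix Cfsg.Agent.Lib.Helper23 Cfsg.Agent.Lib.Helper22 Cfsg.Agent.Lib.Helper45

section general

variable {E G : Type*} [Group E] [Group G] (ρ : E →* G) (cen : ρ.ker ≤ Subgroup.center E)
include cen

theorem conj_lift {x x' : E} (hx : ρ x = ρ x') (y : E) : x * y * x⁻¹ = x' * y * x'⁻¹ := by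
  have hz : x'⁻¹ * x ∈ Subgroup.center E :=
    cen (by rw [MonoidHom.mem_ker, map_mul, map_inv, hx, inv_mul_cancel])
  have h := Subgroup.mem_center_iff.1 hz y
  calc x * y * x⁻¹ = x' * ((x'⁻¹ * x) * y) * x⁻¹ := by group
    _ = x' * (y * (x'⁻¹ * x)) * x⁻¹ := by rw [h]
    _ = x' * y * x'⁻¹ := by group

theorem comm_lift {x x' y y' : E} (hx : ρ x = ρ x') (hy : ρ y = ρ y') :
    x * y * x⁻¹ * y⁻¹ = x' * y' * x'⁻¹ * y'⁻¹ := by
  rw [conj_lift ρ cen hx y]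
  have := conj_lift ρ cen hy x'⁻¹
  calc x' * y * x'⁻¹ * y⁻¹ = x' * (y * x'⁻¹ * y⁻¹) := by group
    _ = x' * (y' * x'⁻¹ * y'⁻¹) := by rw [this]
    _ = _ := by group

/-- commutators with central values are multiplicative on the left -/
theorem comm_mul_left {x y z : E} (h : ρ (y * z * y⁻¹ * z⁻¹) = 1) :
    (x * y) * z * (x * y)⁻¹ * z⁻¹ = (x * z * x⁻¹ * z⁻¹) * (y * z * y⁻¹ * z⁻¹) := by
  have hz := Subgroup.mem_center_iff.1 (cen (MonoidHom.mem_ker.2 h))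
  calc (x * y) * z * (x * y)⁻¹ * z⁻¹ = x * (y * z * y⁻¹ * z⁻¹) * (z * x⁻¹ * z⁻¹) := by group
    _ = (y * z * y⁻¹ * z⁻¹) * x * (z * x⁻¹ * z⁻¹) := by rw [hz x]
    _ = (y * z * y⁻¹ * z⁻¹) * (x * z * x⁻¹ * z⁻¹) := by group
    _ = _ := (hz _).symm

theorem comm_mul_right {x y z : E} (h : ρ (x * z * x⁻¹ * z⁻¹) = 1) :
    x * (y * z) * x⁻¹ * (y * z)⁻¹ = (x * y * x⁻¹ * y⁻¹) * (x * z * x⁻¹ * z⁻¹) := by
  have hz := Subgroup.mem_center_iff.1 (cen (MonoidHom.mem_ker.2 h))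
  calc x * (y * z) * x⁻¹ * (y * z)⁻¹ = (x * y * x⁻¹) * ((x * z * x⁻¹ * z⁻¹) * y⁻¹) := by group
    _ = (x * y * x⁻¹) * (y⁻¹ * (x * z * x⁻¹ * z⁻¹)) := by rw [hz y⁻¹]
    _ = _ := by group

end general

/-- a biadditive map invariant under simultaneous scaling is trivial -/
theorem bilin_trivial {K A : Type*} [Field K] [Group A] (F : K → K → A)
    (F1 : ∀ t t' u, F (t + t') u = F t u * F t' u) (F2 : ∀ t u u', F t (u + u') = F t u * F t u')
    (F3 : ∀ v t u, v ≠ 0 → F (v * t) (v * u) = F t u) {v : K} (h0 : v ≠ 0) (h1 : 1 - v ≠ 0)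
    (h2 : v - v ^ 2 - 1 ≠ 0) : ∀ t u, F t u = 1 := by
  have z : ∀ u, F 0 u = 1 := fun u => by
    have := F1 0 0 u
    rw [add_zero] at this
    exact mul_eq_left.1 this.symm
  have hvv : v - v ^ 2 ≠ 0 := by
    have : v - v ^ 2 = v * (1 - v) := by ring
    rw [this]; exact mul_ne_zero h0 h1
  have key : ∀ t u, F ((v - v ^ 2) * t) u = F t u := by
    intro t u
    have e1 : F ((v - v ^ 2) * t) u = F t ((v - v ^ 2)⁻¹ * u) := by
      have := F3 (v - v ^ 2)⁻¹ ((v - v ^ 2) * t) u (inv_ne_zero hvv)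
      rw [inv_mul_cancel_left₀ hvv] at this
      exact this.symm
    have e2 : (v - v ^ 2)⁻¹ * u = v⁻¹ * u + (1 - v)⁻¹ * u := by
      have : v - v ^ 2 = v * (1 - v) := by ring
      rw [this]
      field_simp
      ring
    have e3 : F t (v⁻¹ * u) = F (v * t) u := by
      have := F3 v t (v⁻¹ * u) h0
      rw [mul_inv_cancel_left₀ h0] at this
      exact this.symm
    have e4 : F t ((1 - v)⁻¹ * u) = F ((1 - v) * t) u := by
      have := F3 (1 - v) t ((1 - v)⁻¹ * u) h1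
      rw [mul_inv_cancel_left₀ h1] at this
      exact this.symm
    rw [e1, e2, F2, e3, e4, ← F1]
    congr 1
    ring
  have k2 : ∀ t u, F ((v - v ^ 2 - 1) * t) u = 1 := by
    intro t u
    have : (v - v ^ 2 - 1) * t = (v - v ^ 2) * t + (-t) := by ring
    rw [this, F1, key, ← F1, add_neg_cancel, z]
  intro t u
  have := k2 ((v - v ^ 2 - 1)⁻¹ * t) u
  rwa [mul_inv_cancel_left₀ h2] at this

/-- a biadditive map invariant under scaling of one variable is trivial -/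
theorem bilin_trivial' {K A : Type*} [Field K] [Group A] (F : K → K → A)
    (F2 : ∀ t u u', F t (u + u') = F t u * F t u') {w : K} (hw : w - 1 ≠ 0)
    (F3 : ∀ t u, F t (w * u) = F t u) : ∀ t u, F t u = 1 := by
  have z : ∀ t, F t 0 = 1 := fun t => by
    have := F2 t 0 0
    rw [add_zero] at this
    exact mul_eq_left.1 this.symm
  have k2 : ∀ t u, F t ((w - 1) * u) = 1 := by
    intro t u
    have : (w - 1) * u = w * u + (-u) := by ring
    rw [this, F2, F3, ← F2, add_neg_cancel, z]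
  intro t u
  have := k2 t ((w - 1)⁻¹ * u)
  rwa [mul_inv_cancel_left₀ hw] at this

/-- a central extension of the Chevalley group -/
structure CExt (D : ChevalleyDatum) (K : Type*) [Field K] (hA : AddFact D K) (E : Type*) [Group E] where
  ρ : E →* GL D.Idx K
  cen : ρ.ker ≤ Subgroup.center E
  lift : ∀ g ∈ D.group K, ∃ e, ρ e = g
  a : K
  ha : a ≠ 0
  ha2 : a ^ 2 - 1 ≠ 0

namespace CExt

variable {D : ChevalleyDatum} {K : Type*} [Field K] {hA : AddFact D K} {E : Type*} [Group E]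
variable (C : CExt D K hA E)

noncomputable def xL (r : ℕ) (t : K) : E := Classical.choose (C.lift _ (hA.X_mem_group r t))

theorem rho_xL (r : ℕ) (t : K) : C.ρ (C.xL r t) = hA.X r t :=
  Classical.choose_spec (C.lift _ (hA.X_mem_group r t))

noncomputable def hL (r : ℕ) : E := Classical.choose (C.lift _ (hA.hG_mem_group r C.a))

theorem rho_hL (r : ℕ) : C.ρ (C.hL r) = hA.hG r C.a :=
  Classical.choose_spec (C.lift _ (hA.hG_mem_group r C.a))

/-- the canonical lifts of the root elements -/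
noncomputable def Z (r : ℕ) (t : K) : E :=
  if r < D.nroots then C.hL r * C.xL r ((C.a ^ 2 - 1)⁻¹ * t) * (C.hL r)⁻¹ * (C.xL r ((C.a ^ 2 - 1)⁻¹ * t))⁻¹
  else 1

theorem Z_of_ge {r : ℕ} (hr : ¬ r < D.nroots) (t : K) : C.Z r t = 1 := by rw [Z, if_neg hr]

theorem Z_eq {r : ℕ} (hr : r < D.nroots) {h x : E} {s : K} (hh : C.ρ h = hA.hG r C.a)
    (hx : C.ρ x = hA.X r s) : h * x * h⁻¹ * x⁻¹ = C.Z r ((C.a ^ 2 - 1) * s) := by
  rw [Z, if_pos hr, inv_mul_cancel_left₀ C.ha2]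
  exact comm_lift C.ρ C.cen (by rw [hh, rho_hL]) (by rw [hx, rho_xL])

/-- naturality of the canonical lifts -/
theorem conj_Z {e : E} {r r' : ℕ} (hr : r < D.nroots) (hr' : r' < D.nroots) {d : K}
    (h1 : ∀ t, C.ρ e * hA.X r t * (C.ρ e)⁻¹ = hA.X r' (d * t))
    (h2 : C.ρ e * hA.hG r C.a * (C.ρ e)⁻¹ = hA.hG r' C.a) (t : K) :
    e * C.Z r t * e⁻¹ = C.Z r' (d * t) := by
  have e1 : e * C.Z r t * e⁻¹ = (e * C.hL r * e⁻¹) * (e * C.xL r ((C.a ^ 2 - 1)⁻¹ * t) * e⁻¹) *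
      (e * C.hL r * e⁻¹)⁻¹ * (e * C.xL r ((C.a ^ 2 - 1)⁻¹ * t) * e⁻¹)⁻¹ := by
    rw [Z, if_pos hr]; group
  rw [e1, C.Z_eq hr' (s := d * ((C.a ^ 2 - 1)⁻¹ * t))
    (by rw [map_mul, map_mul, map_inv, rho_hL, h2]) (by rw [map_mul, map_mul, map_inv, rho_xL, h1])]
  congr 1
  have := C.ha2
  field_simp

variable (hD : D ∈ [chevG2, chevB2, chevD4, chevF4, chevE6, chevE7, chevE8])
include hD

theorem rho_Z (r : ℕ) (t : K) : C.ρ (C.Z r t) = hA.X r t := by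
  by_cases hr : r < D.nroots
  · rw [Z, if_pos hr, map_mul, map_mul, map_mul, map_inv, map_inv, rho_hL, rho_xL]
    have := (st2Root hD hA hr).h_conj_x C.ha ((C.a ^ 2 - 1)⁻¹ * t)
    have e : hA.hG r C.a * hA.X r ((C.a ^ 2 - 1)⁻¹ * t) * (hA.hG r C.a)⁻¹ =
      hA.X r (C.a ^ 2 * ((C.a ^ 2 - 1)⁻¹ * t)) := this
    rw [e, hA.X_inv, ← hA.X_add]
    congr 1
    have := C.ha2
    field_simp
    ring
  · rw [C.Z_of_ge hr, map_one]
    exact (Units.ext (x_of_ge hr t)).symm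

/-- conjugation by lifts of diagonal elements -/
theorem conj_Z_diag {e : E} (he : C.ρ e ∈ D.diagonalSubgroup K) {r : ℕ} (hr : r < D.nroots) {d : K}
    (h1 : ∀ t, C.ρ e * hA.X r t * (C.ρ e)⁻¹ = hA.X r (d * t)) (t : K) :
    e * C.Z r t * e⁻¹ = C.Z r (d * t) := by
  have b := bundle_of_mem K hD
  apply C.conj_Z hr hr h1
  rw [hA.diag_comm b.hT he (hA.hG_mem_diag hr C.ha), mul_inv_cancel_right]

/-- the lifts in one root subgroup commute -/
def ZComm : Prop := ∀ r t u, C.Z r t * C.Z r u = C.Z r u * C.Z r t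

theorem conj_hL {r : ℕ} (hr : r < D.nroots) (t : K) :
    C.hL r * C.Z r t * (C.hL r)⁻¹ = C.Z r (C.a ^ 2 * t) := by
  apply C.conj_Z_diag hD (by rw [rho_hL]; exact hA.hG_mem_diag hr C.ha) hr
  intro t
  rw [rho_hL]
  exact (st2Root hD hA hr).h_conj_x C.ha t

theorem Z_add (hc : C.ZComm) (r : ℕ) (t u : K) : C.Z r (t + u) = C.Z r t * C.Z r u := by
  by_cases hr : r < D.nroots
  · have key : ∀ t u, C.Z r ((C.a ^ 2 - 1) * (t + u)) = C.Z r ((C.a ^ 2 - 1) * t) * C.Z r ((C.a ^ 2 - 1) * u) := by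
      intro t u
      rw [← C.Z_eq hr (C.rho_hL r) (x := C.Z r t * C.Z r u) (by rw [map_mul, C.rho_Z hD, C.rho_Z hD, hA.X_add]),
        ← C.Z_eq hr (C.rho_hL r) (C.rho_Z hD r t), ← C.Z_eq hr (C.rho_hL r) (C.rho_Z hD r u)]
      have e : C.hL r * (C.Z r t * C.Z r u) * (C.hL r)⁻¹ * (C.Z r t * C.Z r u)⁻¹ =
          (C.hL r * C.Z r t * (C.hL r)⁻¹) * ((C.hL r * C.Z r u * (C.hL r)⁻¹) * (C.Z r u)⁻¹) * (C.Z r t)⁻¹ := by
        group
      rw [e, C.conj_hL hD hr, C.conj_hL hD hr]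
      have c1 : (C.Z r (C.a ^ 2 * u) * (C.Z r u)⁻¹) * (C.Z r t)⁻¹ =
          (C.Z r t)⁻¹ * (C.Z r (C.a ^ 2 * u) * (C.Z r u)⁻¹) := by
        have h1 := hc r t (C.a ^ 2 * u)
        have h2 := hc r t u
        have h1' : C.Z r (C.a ^ 2 * u) * (C.Z r t)⁻¹ = (C.Z r t)⁻¹ * C.Z r (C.a ^ 2 * u) := by
          rw [eq_inv_mul_iff_mul_eq, ← mul_assoc, h1, mul_inv_cancel_right]
        have h2' : (C.Z r u)⁻¹ * (C.Z r t)⁻¹ = (C.Z r t)⁻¹ * (C.Z r u)⁻¹ := by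
          rw [← _root_.mul_inv_rev, ← _root_.mul_inv_rev, h2]
        rw [mul_assoc, h2', ← mul_assoc, h1', mul_assoc]
      rw [mul_assoc, c1]
      group
    have := key ((C.a ^ 2 - 1)⁻¹ * t) ((C.a ^ 2 - 1)⁻¹ * u)
    rwa [← mul_add, mul_inv_cancel_left₀ C.ha2, mul_inv_cancel_left₀ C.ha2, mul_inv_cancel_left₀ C.ha2] at this
  · rw [C.Z_of_ge hr, C.Z_of_ge hr, C.Z_of_ge hr, one_mul]

end CExt

end Cfsg.Agent.Lib.Helper23.StP
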