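import Cfsg.Agent.Lib.Helper23.StU1

/-!
# Central extensions of a Chevalley group: the relations (R1) and the positive part
-/

set_option autoImplicit false

namespace Cfsg.Agent.Lib.Helper23.StP

open Cfsg.Lie Matrix Cfsg.Agent.Lib.Helper23 Cfsg.Agent.Lib.Helper22 Cfsg.Agent.Lib.Helper45

/-- `Good` from membership -/
theorem good_of_sorted' {K Γ : Type*} [Field K] [Group Γ] (X : ℕ → K → Γ) (R : ℕ → ℕ → Prop)
    (hirr : ∀ x, ¬ R x x) (hasym : ∀ x y, R x y → ¬ R y x) {L : List ℕ} (hs : L.Pairwise R)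
    (h : ∀ a ∈ L, ∀ b ∈ L, R a b → ∀ t u, ∀ L' : List ℕ, (∀ c ∈ L, R a c → c ∈ L') →
      X a t * X b u * (X a t)⁻¹ ∈ Cl X L') : Good X L := by
  induction L with
  | nil => trivial
  | cons a L ih =>
    have hs' := List.pairwise_cons.1 hs
    refine ⟨fun t b hb u => ?_, ih hs'.2 fun a' ha' b' hb' hR t u L' hL' => ?_⟩
    · refine h a (by simp) b (by simp [hb]) (hs'.1 b hb) t u L fun c hc hRc => ?_
      rcases List.mem_cons.1 hc with h3 | h3
      · exact absurd (h3 ▸ hRc) (hirr a)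
      · exact h3
    · refine h a' (by simp [ha']) b' (by simp [hb']) hR t u L' fun c hc hRc => ?_
      rcases List.mem_cons.1 hc with h3 | h3
      · exact absurd (h3 ▸ hRc) (hasym _ _ (hs'.1 a' ha'))
      · exact hL' c h3 hRc

variable {D : ChevalleyDatum} {K : Type*} [Field K]

/-- every scalar is the value of the character of a root -/
def PrimG (hA : AddFact D K) : Prop := ∀ r < D.nroots, ∀ v : K, v ≠ 0 →
  ∃ h ∈ D.diagonalSubgroup K, ∀ t, h * hA.X r t * h⁻¹ = hA.X r (v * t)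

/-- the characters of two independent roots can be separated -/
def SepG (hA : AddFact D K) : Prop := ∀ a < D.nroots, ∀ b < D.nroots, b ≠ a → b ≠ D.neg a →
  ∃ h ∈ D.diagonalSubgroup K, ∃ w : K, w - 1 ≠ 0 ∧ (∀ t, h * hA.X a t * h⁻¹ = hA.X a t) ∧
    ∀ t, h * hA.X b t * h⁻¹ = hA.X b (w * t)

theorem zpow_list (v : K) (hv : v ≠ 0) (m k : ℕ → ℤ) (l : List ℕ) :
    (l.map fun i => (v ^ m i) ^ k i).prod = v ^ (l.map fun i => m i * k i).sum := by
  induction l with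
  | nil => simp
  | cons i l ih => rw [List.map_cons, List.prod_cons, ih, List.map_cons, List.sum_cons, zpow_add₀ hv, _root_.zpow_mul]

theorem exists_diag (hD : D ∈ [chevG2, chevB2, chevD4, chevF4, chevE6, chevE7, chevE8]) (hA : AddFact D K)
    (m : ℕ → ℤ) {v : K} (hv : v ≠ 0) : ∃ h ∈ D.diagonalSubgroup K, ∀ s < D.nroots, ∀ t,
      h * hA.X s t * h⁻¹ = hA.X s (v ^ ((List.range D.rank).map fun i => m i * D.cartan i s).sum * t) := by
  let S := sysGroup hD hA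
  have hc : ∀ i < D.rank, (fun i => v ^ m i) i ≠ 0 := fun i _ => zpow_ne_zero _ hv
  refine ⟨S.π (S.hW D.rank fun i => v ^ m i), S.pi_Hb hD (S.hW_mem le_rfl hc), fun s hs t => ?_⟩
  rw [S.pi_hW_conj hD le_rfl hc hs, zpow_list v hv]

namespace CExt

variable {hA : AddFact D K} {E : Type*} [Group E] (C : CExt D K hA E)
variable (hD : D ∈ [chevG2, chevB2, chevD4, chevF4, chevE6, chevE7, chevE8])
include hD

omit hD in
theorem central_of_rho {z : E} (h : C.ρ z = 1) (e : E) : e * z * e⁻¹ = z := by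
  rw [Subgroup.mem_center_iff.1 (C.cen (MonoidHom.mem_ker.2 h)) e, mul_inv_cancel_right]

theorem zcomm_of_prim (hP : PrimG hA) {v : K} (h0 : v ≠ 0) (h1 : 1 - v ≠ 0) (h2 : v - v ^ 2 - 1 ≠ 0) :
    C.ZComm := by
  intro r t u
  by_cases hr : r < D.nroots
  · have hρ : ∀ t u, C.ρ (C.Z r t * C.Z r u * (C.Z r t)⁻¹ * (C.Z r u)⁻¹) = 1 := by
      intro t u
      rw [map_mul, map_mul, map_mul, map_inv, map_inv, C.rho_Z hD, C.rho_Z hD, ← hA.X_add, add_comm,
        hA.X_add]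
      group
    have := bilin_trivial (fun t u => C.Z r t * C.Z r u * (C.Z r t)⁻¹ * (C.Z r u)⁻¹)
      (fun t t' u => by
        show C.Z r (t + t') * C.Z r u * (C.Z r (t + t'))⁻¹ * (C.Z r u)⁻¹ = _
        rw [comm_lift C.ρ C.cen (x' := C.Z r t * C.Z r t') (y' := C.Z r u)
          (by rw [map_mul, C.rho_Z hD, C.rho_Z hD, C.rho_Z hD, hA.X_add]) rfl]
        exact comm_mul_left C.ρ C.cen (hρ t' u))
      (fun t u u' => by
        show C.Z r t * C.Z r (u + u') * (C.Z r t)⁻¹ * (C.Z r (u + u'))⁻¹ = _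
        rw [comm_lift C.ρ C.cen (x' := C.Z r t) (y' := C.Z r u * C.Z r u') rfl
          (by rw [map_mul, C.rho_Z hD, C.rho_Z hD, C.rho_Z hD, hA.X_add])]
        exact comm_mul_right C.ρ C.cen (hρ t u'))
      (fun v t u hv => by
        obtain ⟨h, hh, e⟩ := hP r hr v hv
        obtain ⟨g, rfl⟩ := C.lift h (hA.diag_le_group hh)
        show C.Z r (v * t) * C.Z r (v * u) * (C.Z r (v * t))⁻¹ * (C.Z r (v * u))⁻¹ = _
        rw [← C.conj_Z_diag hD hh hr e, ← C.conj_Z_diag hD hh hr e, ← C.central_of_rho (hρ t u) g]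
        group) h0 h1 h2 t u
    have h3 : C.Z r t * C.Z r u * (C.Z r t)⁻¹ * (C.Z r u)⁻¹ = 1 := this
    rwa [mul_inv_eq_one, mul_inv_eq_iff_eq_mul] at h3
  · rw [C.Z_of_ge hr, C.Z_of_ge hr]

theorem Z_neg (hc : C.ZComm) (r : ℕ) (t : K) : C.Z r (-t) = (C.Z r t)⁻¹ :=
  StP.X_neg C.Z (C.Z_add hD hc) r t

theorem rho_WW (w : List (ℕ × K)) : C.ρ (WW C.Z w) = WW hA.X w := by
  rw [map_WW]
  congr 1
  funext r t
  exact C.rho_Z hD r t

omit C in
theorem conj_eq_G {r s : ℕ} (hr : r < D.nroots) (hs : s < D.nroots) (h1 : s ≠ r) (h2 : s ≠ D.neg r) (t u : K) :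
    hA.X r t * hA.X s u * (hA.X r t)⁻¹ = hA.X s u * WW hA.X (D.commWord K r s (-t) u) := by
  rw [← comm_G hD hA hr hs h1 h2, ← hA.X_inv]; group

/-- lifts of diagonal elements normalise the subgroups `Cl` -/
theorem diag_conj_mem {e : E} (he : C.ρ e ∈ D.diagonalSubgroup K) {L : List ℕ} {g : E} (hg : g ∈ Cl C.Z L) :
    e * g * e⁻¹ ∈ Cl C.Z L := by
  apply conj_mem_Cl C.Z _ hg
  intro b hb u
  by_cases hbr : b < D.nroots
  · obtain ⟨c, -, e1⟩ := la_diag hD hA he b hbr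
    rw [C.conj_Z_diag hD he hbr e1]
    exact X_mem_Cl _ hb _
  · rw [C.Z_of_ge hbr, mul_one, mul_inv_cancel]
    exact one_mem _

/-- Steinberg's trick: conjugates are commutators with a lift of a diagonal element -/
theorem conj_eq_comm (hc : C.ZComm) {a b : ℕ} (ha : a < D.nroots) (hb : b < D.nroots) (h1 : b ≠ a)
    (h2 : b ≠ D.neg a) {e : E} (he : C.ρ e ∈ D.diagonalSubgroup K) {w : K} (hw : w - 1 ≠ 0)
    (ea : ∀ t, C.ρ e * hA.X a t * (C.ρ e)⁻¹ = hA.X a t)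
    (eb : ∀ t, C.ρ e * hA.X b t * (C.ρ e)⁻¹ = hA.X b (w * t)) (t u : K) :
    C.Z a t * C.Z b u * (C.Z a t)⁻¹ =
      e * (C.Z b ((w - 1)⁻¹ * u) * WW C.Z (D.commWord K a b (-t) ((w - 1)⁻¹ * u))) * e⁻¹ *
        (C.Z b ((w - 1)⁻¹ * u) * WW C.Z (D.commWord K a b (-t) ((w - 1)⁻¹ * u)))⁻¹ := by
  set s := (w - 1)⁻¹ * u with hs
  rw [← comm_lift C.ρ C.cen (x := e) (y := C.Z a t * C.Z b s * (C.Z a t)⁻¹) rfl
    (by rw [map_mul, map_mul, map_inv, map_mul, C.rho_Z hD, C.rho_Z hD, C.rho_WW hD,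
      conj_eq_G hD ha hb h1 h2])]
  have e1 : e * C.Z a t * e⁻¹ = C.Z a t := by
    have := C.conj_Z_diag hD he ha (d := 1) (by intro t; rw [one_mul]; exact ea t) t
    rwa [one_mul] at this
  have e2 := C.conj_Z_diag hD he hb eb s
  have e3 : e * (C.Z a t * C.Z b s * (C.Z a t)⁻¹) * e⁻¹ * (C.Z a t * C.Z b s * (C.Z a t)⁻¹)⁻¹ =
      (e * C.Z a t * e⁻¹) * (e * C.Z b s * e⁻¹) * (e * C.Z a t * e⁻¹)⁻¹ *
        (C.Z a t * (C.Z b s)⁻¹ * (C.Z a t)⁻¹) := by group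
  have e4 : C.Z b u = C.Z b (w * s) * (C.Z b s)⁻¹ := by
    rw [← C.Z_neg hD hc, ← C.Z_add hD hc]
    congr 1
    rw [hs]
    field_simp
    ring
  rw [e3, e1, e2, e4]
  group

theorem conj_mem_Cl_of_sep (hc : C.ZComm) (hS : SepG hA) {a b : ℕ} (ha : a < D.nroots) (hb : b < D.nroots)
    (h1 : b ≠ a) (h2 : b ≠ D.neg a) {L : List ℕ} (hbL : b ∈ L) (hL : ∀ c ∈ D.commTerms a b, c.1 ∈ L)
    (t u : K) : C.Z a t * C.Z b u * (C.Z a t)⁻¹ ∈ Cl C.Z L := by
  obtain ⟨h, hh, w, hw, ea, eb⟩ := hS a ha b hb h1 h2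
  obtain ⟨e, rfl⟩ := C.lift h (hA.diag_le_group hh)
  rw [C.conj_eq_comm hD hc ha hb h1 h2 hh hw ea eb]
  have hv : ∀ s, C.Z b s * WW C.Z (D.commWord K a b (-t) s) ∈ Cl C.Z L := by
    intro s
    refine mul_mem (X_mem_Cl _ hbL s) (WW_mem_Cl _ fun p hp => ?_)
    obtain ⟨c, hc, e⟩ := StSys.mem_commWord hp
    rw [e]; exact hL c hc
  exact mul_mem (C.diag_conj_mem hD hh (hv _)) (inv_mem (hv _))

variable (T : StTab D)
include T

theorem good_pos (hc : C.ZComm) (hS : SepG hA) : Good C.Z D.posRoots := by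
  have b := bundle_of_mem K hD
  apply good_of_sorted' C.Z (· < ·) (fun x => lt_irrefl x) (fun x y h => lt_asymm h) (posRoots_sorted D)
  intro a ha c hc' hlt t u L' hL'
  rw [mem_posRoots] at ha hc'
  refine C.conj_mem_Cl_of_sep hD hc hS ha.1 hc'.1 (ne_of_gt hlt)
    (fun e => b.hR.not_neg_of_pos hc' (e ▸ b.hR.neg_of_pos ha))
    (hL' c ((mem_posRoots D c).2 hc') hlt) (fun d hd => ?_) t u
  obtain ⟨h1, h2, -⟩ := T.pos a c ha hc' (ne_of_lt hlt) d hd
  exact hL' _ ((mem_posRoots D _).2 h1) h2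

/-- `ρ` is injective on the positive part -/
theorem inj_pos (hc : C.ZComm) (hS : SepG hA) {g g' : E} (hg : g ∈ Cl C.Z D.posRoots)
    (hg' : g' ∈ Cl C.Z D.posRoots) (h : C.ρ g = C.ρ g') : g = g' := by
  obtain ⟨f, rfl⟩ := exists_prod C.Z (C.Z_add hD hc) (C.good_pos hD T hc hS) (posRoots_nodup D) hg
  obtain ⟨f', rfl⟩ := exists_prod C.Z (C.Z_add hD hc) (C.good_pos hD T hc hS) (posRoots_nodup D) hg'
  rw [C.rho_WW hD, C.rho_WW hD] at h
  rw [uniq_words hD hA (l := []) (by simp) (by rw [wL_fst, wL_fst]) (by rw [wL_fst]; exact posRoots_nodup D)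
    (by rw [wL_fst]; exact fun c hc => ((mem_posRoots D c).1 hc).1)
    (by rw [wL_fst]; exact fun c hc => (mem_posRoots D c).1 hc) h]

end CExt

end Cfsg.Agent.Lib.Helper23.StP
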