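import Cfsg.Agent.Lib.Helper23.StU3

/-!
# Central extensions of a Chevalley group over a field with more than four elements
-/

set_option autoImplicit false

namespace Cfsg.Agent.Lib.Helper23.StP

open Cfsg.Lie Matrix Cfsg.Agent.Lib.Helper23 Cfsg.Agent.Lib.Helper22 Cfsg.Agent.Lib.Helper45

section field

open Polynomial

variable {K : Type*} [Field K]

theorem exists_nonroot (s : Finset K) (p : K[X]) (hp : p ≠ 0) (hd : p.natDegree < s.card) :
    ∃ x ∈ s, p.eval x ≠ 0 := by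
  by_contra h
  push_neg at h
  have : s.val ⊆ p.roots := fun x hx => (Polynomial.mem_roots hp).2 (h x hx)
  exact absurd (Polynomial.card_le_degree_of_subset_roots this) (by omega)

theorem exists_pow_ne (hK5 : ∃ s : Finset K, 4 < s.card) {k : ℕ} (hk : 0 < k) (hk3 : k ≤ 3) :
    ∃ v : K, v ≠ 0 ∧ v ^ k - 1 ≠ 0 := by
  obtain ⟨s, hs⟩ := hK5
  have h1 : (X ^ k - C (1 : K)) ≠ 0 := X_pow_sub_C_ne_zero hk 1
  have h2 : (X * (X ^ k - C (1 : K))).natDegree = 1 + k := by
    rw [natDegree_mul X_ne_zero h1, natDegree_X, natDegree_X_pow_sub_C]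
  obtain ⟨x, -, hx⟩ := exists_nonroot s (X * (X ^ k - C (1 : K))) (mul_ne_zero X_ne_zero h1) (by omega)
  simp only [eval_mul, eval_X, eval_sub, eval_pow, eval_C] at hx
  exact ⟨x, left_ne_zero_of_mul hx, right_ne_zero_of_mul hx⟩

theorem exists_pf (hK5 : ∃ s : Finset K, 4 < s.card) :
    ∃ v : K, v ≠ 0 ∧ 1 - v ≠ 0 ∧ v - v ^ 2 - 1 ≠ 0 := by
  obtain ⟨s, hs⟩ := hK5
  have h2 : (X * (C (1 : K) - X) * (X - X ^ 2 - C (1 : K))).natDegree = 4 := by
    compute_degree!
  have h0 : (X * (C (1 : K) - X) * (X - X ^ 2 - C (1 : K))) ≠ 0 := by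
    intro e
    rw [e, natDegree_zero] at h2
    omega
  obtain ⟨x, -, hx⟩ := exists_nonroot s _ h0 (by omega)
  simp only [eval_mul, eval_X, eval_sub, eval_pow, eval_C] at hx
  exact ⟨x, left_ne_zero_of_mul (left_ne_zero_of_mul hx), right_ne_zero_of_mul (left_ne_zero_of_mul hx),
    right_ne_zero_of_mul hx⟩

end field

variable {D : ChevalleyDatum} {K : Type*} [Field K]

/-- table fact: separation of two independent roots -/
def SepT (D : ChevalleyDatum) : Prop := ∀ a < D.nroots, ∀ b < D.nroots, b ≠ a → b ≠ D.neg a →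
  ∃ m : ℕ → ℤ, ((List.range D.rank).map fun i => m i * D.cartan i a).sum = 0 ∧
    (((List.range D.rank).map fun i => m i * D.cartan i b).sum = 1 ∨
      ((List.range D.rank).map fun i => m i * D.cartan i b).sum = 2 ∨
      ((List.range D.rank).map fun i => m i * D.cartan i b).sum = 3)

/-- table fact: the roots are primitive in the weight lattice -/
def PrimT (D : ChevalleyDatum) : Prop := ∀ a < D.nroots,
  ∃ m : ℕ → ℤ, ((List.range D.rank).map fun i => m i * D.cartan i a).sum = 1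

theorem sepG_of (hD : D ∈ [chevG2, chevB2, chevD4, chevF4, chevE6, chevE7, chevE8]) (hA : AddFact D K)
    (hT : SepT D) (hK5 : ∃ s : Finset K, 4 < s.card) : SepG hA := by
  intro a ha b hb h1 h2
  obtain ⟨m, e0, ek⟩ := hT a ha b hb h1 h2
  obtain ⟨k, hk, hk3, ek'⟩ : ∃ k : ℕ, 0 < k ∧ k ≤ 3 ∧
      ((List.range D.rank).map fun i => m i * D.cartan i b).sum = (k : ℤ) := by
    rcases ek with e | e | e
    · exact ⟨1, by omega, by omega, by rw [e]; rfl⟩
    · exact ⟨2, by omega, by omega, by rw [e]; rfl⟩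
    · exact ⟨3, by omega, by omega, by rw [e]; rfl⟩
  obtain ⟨v, hv, hvk⟩ := exists_pow_ne hK5 hk hk3
  obtain ⟨h, hh, e⟩ := exists_diag hD hA m hv
  refine ⟨h, hh, v ^ k, hvk, fun t => ?_, fun t => ?_⟩
  · rw [e a ha, e0, zpow_zero, one_mul]
  · rw [e b hb, ek', zpow_natCast]

theorem primG_of (hD : D ∈ [chevG2, chevB2, chevD4, chevF4, chevE6, chevE7, chevE8]) (hA : AddFact D K)
    (hT : PrimT D) : PrimG hA := by
  intro r hr v hv
  obtain ⟨m, e1⟩ := hT r hr
  obtain ⟨h, hh, e⟩ := exists_diag hD hA m hv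
  exact ⟨h, hh, fun t => by rw [e r hr, e1, zpow_one]⟩

/-- the central extension attached to a surjection onto the Chevalley group with central kernel -/
noncomputable def CExt.mk' (hA : AddFact D K) (hK5 : ∃ s : Finset K, 4 < s.card) {E : Type*} [Group E]
    (ρ : E →* GL D.Idx K) (cen : ρ.ker ≤ Subgroup.center E) (lift : ∀ g ∈ D.group K, ∃ e, ρ e = g) :
    CExt D K hA E where
  ρ := ρ
  cen := cen
  lift := lift
  a := Classical.choose (exists_pow_ne hK5 (k := 2) (by omega) (by omega))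
  ha := (Classical.choose_spec (exists_pow_ne hK5 (k := 2) (by omega) (by omega))).1
  ha2 := (Classical.choose_spec (exists_pow_ne hK5 (k := 2) (by omega) (by omega))).2

/-- stem extensions are trivial when the cover is the group itself -/
theorem stem_trivial (hD : D ∈ [chevG2, chevB2, chevD4, chevF4, chevE6, chevE7, chevE8]) (hA : AddFact D K)
    (hinj : (sysCover hD hA).π.ker = ⊥) {Γ : Type*} [Group Γ] (σ : Γ →* ↥(D.group K))
    (hs : Function.Surjective σ) (hc : σ.ker ≤ Subgroup.center Γ) (hcomm : σ.ker ≤ commutator Γ)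
    (hτ : ∃ τ : D.SteinbergCover K →* Γ, ∀ x, ((σ (τ x) : ↥(D.group K)) : GL D.Idx K) = (sysCover hD hA).π x) :
    σ.ker = ⊥ := by
  obtain ⟨τ, hτ⟩ := hτ
  let S := sysCover hD hA
  have h1 : commutator Γ ≤ τ.range := by
    rw [commutator_eq_closure, Subgroup.closure_le]
    rintro _ ⟨g₁, g₂, rfl⟩
    obtain ⟨x₁, hx₁⟩ := S.θ_surjective (σ g₁)
    obtain ⟨x₂, hx₂⟩ := S.θ_surjective (σ g₂)
    have e1 : σ g₁ = σ (τ x₁) := by
      apply Subtype.ext; rw [hτ, ← hx₁]; rfl
    have e2 : σ g₂ = σ (τ x₂) := by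
      apply Subtype.ext; rw [hτ, ← hx₂]; rfl
    refine ⟨x₁ * x₂ * x₁⁻¹ * x₂⁻¹, ?_⟩
    rw [commutatorElement_def, comm_lift σ hc e1 e2]
    simp only [map_mul, map_inv]
  rw [eq_bot_iff]
  intro z hz
  obtain ⟨x, rfl⟩ := h1 (hcomm hz)
  have : x ∈ S.π.ker := by
    rw [MonoidHom.mem_ker, ← hτ, MonoidHom.mem_ker.1 hz]; rfl
  rw [hinj, Subgroup.mem_bot] at this
  rw [this, map_one]
  exact one_mem _

end Cfsg.Agent.Lib.Helper23.StP
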