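import Cfsg.Agent.Lib.Helper23.StU4
import Cfsg.Agent.S1078

/-!
# The cover of `G₂(q)`, `F₄(q)`, `E₈(q)` is the group itself
-/

set_option autoImplicit false

namespace Cfsg.Agent.Lib.Helper23.StP

open Cfsg.Lie Matrix Cfsg.Agent.Lib.Helper23 Cfsg.Agent.Lib.Helper22 Cfsg.Agent.Lib.Helper45

variable {D : ChevalleyDatum} {K : Type*} [Field K]

theorem cover_ker_bot [Finite K] (hD3 : D ∈ [chevG2, chevF4, chevE8])
    (hD : D ∈ [chevG2, chevB2, chevD4, chevF4, chevE6, chevE7, chevE8]) (hA : AddFact D K) :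
    (sysCover hD hA).π.ker = ⊥ := by
  have T := stTab_of_mem hD
  obtain ⟨e, -⟩ := cover_equiv (K := K) hD
  rw [eq_bot_iff]
  intro z hz
  have hzc := Subgroup.mem_center_iff.1 ((sysCover hD hA).ker_le_center hD T hz)
  have h1 : e z ∈ Subgroup.center (D.SteinbergGroup K) := by
    rw [Subgroup.mem_center_iff]
    intro y
    obtain ⟨x, rfl⟩ := e.surjective y
    rw [← map_mul, ← map_mul, hzc x]
  rw [Cfsg.Agent.S1078.result D hD3, Subgroup.mem_bot] at h1
  rw [Subgroup.mem_bot]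
  exact e.injective (by rw [h1, map_one])

end Cfsg.Agent.Lib.Helper23.StP
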