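import Cfsg.Agent.Lib.Helper23.StU4

/-!
# Central extensions of a Chevalley group: commutativity of the lifted root subgroups, type `B₂`
-/

set_option autoImplicit false

namespace Cfsg.Agent.Lib.Helper23.StP

open Cfsg.Lie Matrix Cfsg.Agent.Lib.Helper23 Cfsg.Agent.Lib.Helper22 Cfsg.Agent.Lib.Helper45

variable {D : ChevalleyDatum} {K : Type*} [Field K]

namespace CExt

variable {hA : AddFact D K} {E : Type*} [Group E] (C : CExt D K hA E)
variable (hD : D ∈ [chevG2, chevB2, chevD4, chevF4, chevE6, chevE7, chevE8])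
include hD

theorem zcomm_root {r : ℕ} (hr : r < D.nroots)
    (hP : ∀ v : K, v ≠ 0 → ∃ h ∈ D.diagonalSubgroup K, ∀ t, h * hA.X r t * h⁻¹ = hA.X r (v * t))
    {v : K} (h0 : v ≠ 0) (h1 : 1 - v ≠ 0) (h2 : v - v ^ 2 - 1 ≠ 0) (t u : K) :
    C.Z r t * C.Z r u = C.Z r u * C.Z r t := by
  have hρ : ∀ t u, C.ρ (C.Z r t * C.Z r u * (C.Z r t)⁻¹ * (C.Z r u)⁻¹) = 1 := by
    intro t u
    rw [map_mul, map_mul, map_mul, map_inv, map_inv, C.rho_Z hD, C.rho_Z hD, ← hA.X_add, add_comm,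
      hA.X_add]
    group
  have := bilin_trivial (fun t u => C.Z r t * C.Z r u * (C.Z r t)⁻¹ * (C.Z r u)⁻¹)
    (fun t t' u => by
      show C.Z r (t + t') * C.Z r u * (C.Z r (t + t'))⁻¹ * (C.Z r u)⁻¹ = _
      rw [comm_lift C.ρ C.cen (x' := C.Z r t * C.Z r t') (y' := C.Z r u)
        (by rw [map_mul, C.rho_Z hD, C.rho_Z hD, C.rho_Z hD, hA.X_add]) rfl]
      exact comm_mul_left C.ρ C.cen (hρ t' u))
    (fun t u u' => by
      show C.Z r t * C.Z r (u + u') * (C.Z r t)⁻¹ * (C.Z r (u + u'))⁻¹ = _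
      rw [comm_lift C.ρ C.cen (x' := C.Z r t) (y' := C.Z r u * C.Z r u') rfl
        (by rw [map_mul, C.rho_Z hD, C.rho_Z hD, C.rho_Z hD, hA.X_add])]
      exact comm_mul_right C.ρ C.cen (hρ t u'))
    (fun v t u hv => by
      obtain ⟨h, hh, e⟩ := hP v hv
      obtain ⟨g, rfl⟩ := C.lift h (hA.diag_le_group hh)
      show C.Z r (v * t) * C.Z r (v * u) * (C.Z r (v * t))⁻¹ * (C.Z r (v * u))⁻¹ = _
      rw [← C.conj_Z_diag hD hh hr e, ← C.conj_Z_diag hD hh hr e, ← C.central_of_rho (hρ t u) g]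
      group) h0 h1 h2 t u
  have h3 : C.Z r t * C.Z r u * (C.Z r t)⁻¹ * (C.Z r u)⁻¹ = 1 := this
  rwa [mul_inv_eq_one, mul_inv_eq_iff_eq_mul] at h3

/-- lifts of commuting root subgroups of independent roots commute -/
theorem comm_of_sep (hS : SepG hA) {a b : ℕ} (ha : a < D.nroots) (hb : b < D.nroots) (h1 : b ≠ a)
    (h2 : b ≠ D.neg a) (h0 : D.commTerms a b = []) (t u : K) : C.Z a t * C.Z b u = C.Z b u * C.Z a t := by
  have hρ : ∀ t u, C.ρ (C.Z a t * C.Z b u * (C.Z a t)⁻¹ * (C.Z b u)⁻¹) = 1 := by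
    intro t u
    rw [map_mul, map_mul, map_mul, map_inv, map_inv, C.rho_Z hD, C.rho_Z hD, conj_eq_G hD ha hb h1 h2]
    simp [ChevalleyDatum.commWord, h0]
  obtain ⟨h, hh, w, hw, ea, eb⟩ := hS a ha b hb h1 h2
  obtain ⟨g, rfl⟩ := C.lift h (hA.diag_le_group hh)
  have := bilin_trivial' (fun t u => C.Z a t * C.Z b u * (C.Z a t)⁻¹ * (C.Z b u)⁻¹)
    (fun t u u' => by
      show C.Z a t * C.Z b (u + u') * (C.Z a t)⁻¹ * (C.Z b (u + u'))⁻¹ = _
      rw [comm_lift C.ρ C.cen (x' := C.Z a t) (y' := C.Z b u * C.Z b u') rfl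
        (by rw [map_mul, C.rho_Z hD, C.rho_Z hD, C.rho_Z hD, hA.X_add])]
      exact comm_mul_right C.ρ C.cen (hρ t u')) hw
    (fun t u => by
      show C.Z a t * C.Z b (w * u) * (C.Z a t)⁻¹ * (C.Z b (w * u))⁻¹ = _
      have e1 : g * C.Z a t * g⁻¹ = C.Z a t := by
        have := C.conj_Z_diag hD hh ha (d := 1) (by intro t; rw [one_mul]; exact ea t) t
        rwa [one_mul] at this
      rw [← C.conj_Z_diag hD hh hb eb, ← C.central_of_rho (hρ t u) g]
      nth_rewrite 1 [← e1]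
      nth_rewrite 2 [← e1]
      group) t u
  have h3 : C.Z a t * C.Z b u * (C.Z a t)⁻¹ * (C.Z b u)⁻¹ = 1 := this
  rwa [mul_inv_eq_one, mul_inv_eq_iff_eq_mul] at h3

/-- commutativity for a root occurring with coefficient `±1` in a two term commutator formula -/
theorem zcomm_long (hS : SepG hA) {a b p q : ℕ} {ε₁ ε₂ : ℤ} (ha : a < D.nroots) (hb : b < D.nroots)
    (hp : p < D.nroots) (hq : q < D.nroots) (h1 : b ≠ a) (h2 : b ≠ D.neg a)
    (hε : ε₂ = 1 ∨ ε₂ = -1) (hT : D.commTerms a b = [(p, ε₁, 1, 1), (q, ε₂, 1, 2)])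
    (a1 : a ≠ q) (a2 : a ≠ D.neg q) (a0 : D.commTerms q a = [])
    (b1 : b ≠ q) (b2 : b ≠ D.neg q) (b0 : D.commTerms q b = [])
    (p1 : p ≠ q) (p2 : p ≠ D.neg q) (p0 : D.commTerms q p = []) (t s : K) :
    C.Z q t * C.Z q s = C.Z q s * C.Z q t := by
  set z := C.Z q t with hz
  have ca := fun x => C.comm_of_sep hD hS hq ha a1 a2 a0 t x
  have cb := fun x => C.comm_of_sep hD hS hq hb b1 b2 b0 t x
  have cp := fun x => C.comm_of_sep hD hS hq hp p1 p2 p0 t x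
  rw [← hz] at ca cb cp
  have inv_c : ∀ y : E, z * y = y * z → z * y⁻¹ = y⁻¹ * z := by
    intro y hy
    rw [eq_inv_mul_iff_mul_eq, ← mul_assoc, ← hy, mul_inv_cancel_right]
  have mul_c : ∀ y y' : E, z * y = y * z → z * y' = y' * z → z * (y * y') = (y * y') * z := by
    intro y y' hy hy'
    rw [← mul_assoc, hy, mul_assoc, hy', mul_assoc]
  set t' : K := -((ε₂ : K) * s) with ht'
  set c₁ : K := (ε₁ : K) * (-t') ^ 1 * (1 : K) ^ 1 with hc₁
  set y := (C.Z p c₁)⁻¹ * ((C.Z b 1)⁻¹ * (C.Z a t')⁻¹ * C.Z b 1 * C.Z a t') with hy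
  have hzy : z * y = y * z :=
    mul_c _ _ (inv_c _ (cp _)) (mul_c _ _ (mul_c _ _ (mul_c _ _ (inv_c _ (cb _)) (inv_c _ (ca _))) (cb _)) (ca _))
  have hεε : (ε₂ : K) * (ε₂ : K) = 1 := by rcases hε with rfl | rfl <;> simp
  have hρ : C.ρ (C.Z q s) = C.ρ y := by
    rw [hy]
    simp only [map_mul, map_inv, C.rho_Z hD]
    rw [comm_G hD hA ha hb h1 h2]
    simp only [ChevalleyDatum.commWord, hT, List.map_cons, List.map_nil, WW_cons, WW_nil, mul_one]
    rw [← hc₁, inv_mul_cancel_left]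
    congr 1
    rw [ht', neg_neg, pow_one, one_pow, mul_one, ← mul_assoc, hεε, one_mul]
  have := conj_lift C.ρ C.cen hρ z
  rw [← hzy, mul_inv_cancel_right, mul_inv_eq_iff_eq_mul] at this
  exact this.symm

end CExt

theorem b2_tab : ∀ q < chevB2.nroots,
    (∃ i < chevB2.rank, chevB2.cartan i q = 1 ∨ chevB2.cartan i q = -1) ∨
    ∃ a < chevB2.nroots, ∃ b < chevB2.nroots, ∃ p < chevB2.nroots, ∃ ε₁ ∈ [(1 : ℤ), -1], ∃ ε₂ ∈ [(1 : ℤ), -1],
      b ≠ a ∧ b ≠ chevB2.neg a ∧ chevB2.commTerms a b = [(p, ε₁, 1, 1), (q, ε₂, 1, 2)] ∧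
      a ≠ q ∧ a ≠ chevB2.neg q ∧ chevB2.commTerms q a = [] ∧
      b ≠ q ∧ b ≠ chevB2.neg q ∧ chevB2.commTerms q b = [] ∧
      p ≠ q ∧ p ≠ chevB2.neg q ∧ chevB2.commTerms q p = [] := by
  have h8 : chevB2.nroots = 8 := by decide +kernel
  intro q hq
  rw [h8] at hq
  interval_cases q
  · exact Or.inr ⟨3, by decide +kernel, 2, by decide +kernel, 1, by decide +kernel, -1, by simp, -1, by simp,
      by decide +kernel⟩
  · exact Or.inl ⟨1, by decide +kernel, Or.inr (by decide +kernel)⟩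
  · exact Or.inl ⟨1, by decide +kernel, Or.inl (by decide +kernel)⟩
  · exact Or.inr ⟨0, by decide +kernel, 5, by decide +kernel, 1, by decide +kernel, 1, by simp, -1, by simp,
      by decide +kernel⟩
  · exact Or.inr ⟨0, by decide +kernel, 6, by decide +kernel, 2, by decide +kernel, -1, by simp, 1, by simp,
      by decide +kernel⟩
  · exact Or.inl ⟨1, by decide +kernel, Or.inr (by decide +kernel)⟩
  · exact Or.inl ⟨1, by decide +kernel, Or.inl (by decide +kernel)⟩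
  · exact Or.inr ⟨4, by decide +kernel, 5, by decide +kernel, 6, by decide +kernel, 1, by simp, -1, by simp,
      by decide +kernel⟩

end Cfsg.Agent.Lib.Helper23.StP
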