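import Cfsg.Agent.Lib.Helper23.StU6

/-!
# Universality of the cover
-/

set_option autoImplicit false

namespace Cfsg.Agent.Lib.Helper23.StP

open Cfsg.Lie Matrix Cfsg.Agent.Lib.Helper23 Cfsg.Agent.Lib.Helper22 Cfsg.Agent.Lib.Helper45

variable {D : ChevalleyDatum} {K : Type*} [Field K]

theorem CExt.zcomm_all {hA : AddFact D K} {E : Type*} [Group E] (C : CExt D K hA E)
    (hD : D ∈ [chevG2, chevB2, chevD4, chevF4, chevE6, chevE7, chevE8])
    (hK5 : ∃ s : Finset K, 4 < s.card) (hS : SepG hA)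
    (hPr : D ∈ [chevG2, chevD4, chevF4, chevE6, chevE7, chevE8] → PrimT D) : C.ZComm := by
  obtain ⟨v, h0, h1, h2⟩ := exists_pf hK5
  by_cases hB : D = chevB2
  · subst hB
    intro r t u
    by_cases hr : r < chevB2.nroots
    · rcases b2_tab r hr with ⟨i, hi, hc⟩ |
        ⟨a, ha, b, hb, p, hp, ε₁, _, ε₂, hε₂, g1, g2, g3, a1, a2, a0, b1, b2, b0, p1, p2, p0⟩
      · apply C.zcomm_root hD hr _ h0 h1 h2
        intro w hw
        have bb := bundle_of_mem K hD
        rcases hc with hc | hc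
        · exact ⟨hA.hG (chevB2.simple i) w, hA.hG_mem_diag (bb.hR.simple_lt hi) hw, fun t => by
            rw [hG_conj hD hA hi hr hw, hc, zpow_one]⟩
        · exact ⟨hA.hG (chevB2.simple i) w⁻¹, hA.hG_mem_diag (bb.hR.simple_lt hi) (inv_ne_zero hw), fun t => by
            rw [hG_conj hD hA hi hr (inv_ne_zero hw), hc, _root_.zpow_neg_one, inv_inv]⟩
      · exact C.zcomm_long hD hS ha hb hp hr g1 g2 (by simpa using hε₂) g3 a1 a2 a0 b1 b2 b0 p1 p2 p0 t u
    · rw [C.Z_of_ge hr, C.Z_of_ge hr]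
  · refine C.zcomm_of_prim hD (primG_of hD hA (hPr ?_)) h0 h1 h2
    simp only [List.mem_cons, List.not_mem_nil, or_false] at hD ⊢
    tauto

/-- the table facts used for the lift -/
structure UTabs (D : ChevalleyDatum) : Prop where
  sep : SepT D
  prim : D ∈ [chevG2, chevD4, chevF4, chevE6, chevE7, chevE8] → PrimT D
  pos : TermsPos D

/-- the cover lifts to every central extension of the Chevalley group -/
theorem exists_lift_main (hD : D ∈ [chevG2, chevB2, chevD4, chevF4, chevE6, chevE7, chevE8]) (hA : AddFact D K)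
    (U : UTabs D) (hK5 : ∃ s : Finset K, 4 < s.card) {E : Type*} [Group E]
    (ρ : E →* GL D.Idx K) (cen : ρ.ker ≤ Subgroup.center E) (lift : ∀ g ∈ D.group K, ∃ e, ρ e = g) :
    ∃ τ : D.SteinbergCover K →* E, ∀ x, ρ (τ x) = (sysCover hD hA).π x := by
  have hS := sepG_of hD hA U.sep hK5
  let C := CExt.mk' hA hK5 ρ cen lift
  exact C.exists_lift hD (stTab_of_mem hD) (C.zcomm_all hD hK5 hS U.prim) hS U.pos

/-- root elements of the cover are commutators -/
theorem cover_X_comm (hD : D ∈ [chevG2, chevB2, chevD4, chevF4, chevE6, chevE7, chevE8]) (hA : AddFact D K)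
    {a : K} (ha : a ≠ 0) (ha2 : a ^ 2 - 1 ≠ 0) {r : ℕ} (hr : r < D.nroots) (t : K) :
    (sysCover hD hA).X r t = (sysCover hD hA).hB r a * (sysCover hD hA).X r ((a ^ 2 - 1)⁻¹ * t) *
      ((sysCover hD hA).hB r a)⁻¹ * ((sysCover hD hA).X r ((a ^ 2 - 1)⁻¹ * t))⁻¹ := by
  have T := stTab_of_mem hD
  have e : (sysCover hD hA).hB r a * (sysCover hD hA).X r ((a ^ 2 - 1)⁻¹ * t) * ((sysCover hD hA).hB r a)⁻¹ =
      (sysCover hD hA).X r (a ^ 2 * ((a ^ 2 - 1)⁻¹ * t)) :=
    ((sysCover hD hA).st2 hD T hr).h_conj_x ha ((a ^ 2 - 1)⁻¹ * t)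
  rw [e, ← (sysCover hD hA).X_neg, ← (sysCover hD hA).add]
  congr 1
  field_simp
  ring

theorem of_eq_X (hD : D ∈ [chevG2, chevB2, chevD4, chevF4, chevE6, chevE7, chevE8]) (hA : AddFact D K)
    {r : ℕ} (hr : r < D.nroots) (t : K) :
    (PresentedGroup.of (⟨r, hr⟩, t) : D.SteinbergCover K) = (sysCover hD hA).X r t := by
  rw [sysCover_X]
  simp [ChevalleyDatum.scGen, ChevalleyDatum.stX, hr, PresentedGroup.of]

/-- lifts of homomorphisms of the cover through central extensions are unique -/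
theorem lift_unique (hD : D ∈ [chevG2, chevB2, chevD4, chevF4, chevE6, chevE7, chevE8])
    (hK5 : ∃ s : Finset K, 4 < s.card) {E G₁ : Type*} [Group E] [Group G₁] (π₁ : E →* G₁)
    (hc : π₁.ker ≤ Subgroup.center E) (τ τ' : D.SteinbergCover K →* E) (h : π₁.comp τ = π₁.comp τ') :
    τ = τ' := by
  have hA := addFact_of_mem K hD
  obtain ⟨a, ha, ha2⟩ := exists_pow_ne hK5 (k := 2) (by omega) (by omega)
  apply PresentedGroup.ext
  rintro ⟨⟨r, hr⟩, t⟩
  rw [of_eq_X hD hA hr, cover_X_comm hD hA ha ha2 hr]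
  simp only [map_mul, map_inv]
  exact comm_lift π₁ hc (DFunLike.congr_fun h _) (DFunLike.congr_fun h _)

/-- universality of the cover -/
theorem cover_universal (hD : D ∈ [chevG2, chevB2, chevD4, chevF4, chevE6, chevE7, chevE8])
    (U : UTabs D) (hK5 : ∃ s : Finset K, 4 < s.card) {G₁ E : Type*} [Group G₁] [Group E] (π₁ : E →* G₁)
    (hπ : Function.Surjective π₁) (hc : π₁.ker ≤ Subgroup.center E) (σ : D.SteinbergCover K →* G₁) :
    ∃! τ : D.SteinbergCover K →* E, π₁.comp τ = σ := by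
  have hA := addFact_of_mem K hD
  have T := stTab_of_mem hD
  obtain ⟨a, ha, ha2⟩ := exists_pow_ne hK5 (k := 2) (by omega) (by omega)
  let S := sysCover hD hA
  let P : Subgroup (E × D.SteinbergCover K) :=
    MonoidHom.eqLocus (π₁.comp (MonoidHom.fst E (D.SteinbergCover K))) (σ.comp (MonoidHom.snd E (D.SteinbergCover K)))
  have hP : ∀ p : ↥P, π₁ p.1.1 = σ p.1.2 := fun p => p.2
  let ρ : ↥P →* GL D.Idx K := S.π.comp ((MonoidHom.snd E (D.SteinbergCover K)).comp P.subtype)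
  -- lifts of central elements are central
  have Q : ∀ (e : E) (x : D.SteinbergCover K), π₁ e = σ x → x ∈ Subgroup.center (D.SteinbergCover K) →
      ∀ (x' : D.SteinbergCover K) (e' : E), π₁ e' = σ x' → e' * e = e * e' := by
    intro e x hex hx x'
    have hx' : x' ∈ Subgroup.closure {g | ∃ r t, r < D.nroots ∧ g = S.X r t} := by rw [S.gen]; trivial
    induction hx' using Subgroup.closure_induction with
    | mem y hy =>
      obtain ⟨r, t, hr, rfl⟩ := hy
      intro e' he'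
      obtain ⟨eh, heh⟩ := hπ (σ (S.hB r a))
      obtain ⟨ex, hex'⟩ := hπ (σ (S.X r ((a ^ 2 - 1)⁻¹ * t)))
      have hcen : ∀ y : D.SteinbergCover K, σ x * σ y * (σ x)⁻¹ = σ y := by
        intro y
        rw [← map_mul, ← Subgroup.mem_center_iff.1 hx y, map_mul, mul_inv_cancel_right]
      have c1 : e * (eh * ex * eh⁻¹ * ex⁻¹) * e⁻¹ = eh * ex * eh⁻¹ * ex⁻¹ := by
        have : e * (eh * ex * eh⁻¹ * ex⁻¹) * e⁻¹ =
            (e * eh * e⁻¹) * (e * ex * e⁻¹) * (e * eh * e⁻¹)⁻¹ * (e * ex * e⁻¹)⁻¹ := by group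
        rw [this]
        exact comm_lift π₁ hc (by rw [map_mul, map_mul, map_inv, hex, heh, hcen])
          (by rw [map_mul, map_mul, map_inv, hex, hex', hcen])
      have c2 : π₁ e' = π₁ (eh * ex * eh⁻¹ * ex⁻¹) := by
        rw [he', cover_X_comm hD hA ha ha2 hr]
        simp only [map_mul, map_inv, heh, hex']
        rfl
      have c3 := conj_lift π₁ hc c2 e
      have c4 : (eh * ex * eh⁻¹ * ex⁻¹) * e * (eh * ex * eh⁻¹ * ex⁻¹)⁻¹ = e := by
        rw [mul_inv_eq_iff_eq_mul] at c1 ⊢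
        exact c1.symm
      rw [c4, mul_inv_eq_iff_eq_mul] at c3
      exact c3
    | one =>
      intro e' he'
      rw [map_one] at he'
      exact (Subgroup.mem_center_iff.1 (hc (MonoidHom.mem_ker.2 he')) e).symm
    | mul y y' _ _ ihy ihy' =>
      intro e' he'
      obtain ⟨e₁, he₁⟩ := hπ (σ y)
      have h2 : π₁ (e₁⁻¹ * e') = σ y' := by rw [map_mul, map_inv, he₁, he', map_mul, inv_mul_cancel_left]
      have k1 := ihy e₁ he₁
      have k2 := ihy' _ h2
      have : e' = e₁ * (e₁⁻¹ * e') := by group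
      rw [this, mul_assoc, k2, ← mul_assoc, k1, mul_assoc]
    | inv y _ ih =>
      intro e' he'
      have h2 : π₁ e'⁻¹ = σ y := by rw [map_inv, he', map_inv, inv_inv]
      have k := ih _ h2
      rw [inv_mul_eq_iff_eq_mul, ← mul_assoc, eq_mul_inv_iff_mul_eq] at k
      exact k.symm
  have cen : ρ.ker ≤ Subgroup.center ↥P := by
    intro z hz
    have hz' : S.π z.1.2 = 1 := hz
    have hzc := S.ker_le_center hD T (MonoidHom.mem_ker.2 hz')
    rw [Subgroup.mem_center_iff]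
    intro g
    apply Subtype.ext
    apply Prod.ext
    · exact Q z.1.1 z.1.2 (hP z) hzc g.1.2 g.1.1 (hP g)
    · exact Subgroup.mem_center_iff.1 hzc g.1.2
  have lift : ∀ g ∈ D.group K, ∃ p, ρ p = g := by
    intro g hg
    obtain ⟨x, hx⟩ := S.θ_surjective ⟨g, hg⟩
    obtain ⟨e, he⟩ := hπ (σ x)
    refine ⟨⟨(e, x), he⟩, ?_⟩
    show S.π x = g
    rw [← S.coe_θ, hx]
  obtain ⟨τ', hτ'⟩ := exists_lift_main hD hA U hK5 ρ cen lift
  have hid : ((MonoidHom.snd E (D.SteinbergCover K)).comp P.subtype).comp τ' = MonoidHom.id _ := by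
    apply lift_unique hD hK5 S.π (S.ker_le_center hD T)
    apply MonoidHom.ext
    intro x
    exact hτ' x
  refine ⟨((MonoidHom.fst E (D.SteinbergCover K)).comp P.subtype).comp τ', ?_, ?_⟩
  · apply MonoidHom.ext
    intro x
    show π₁ (τ' x).1.1 = σ x
    rw [hP (τ' x)]
    exact congrArg σ (DFunLike.congr_fun hid x)
  · intro τ₂ h₂
    apply lift_unique hD hK5 π₁ hc
    rw [h₂]
    apply MonoidHom.ext
    intro x
    show σ x = π₁ (τ' x).1.1
    rw [hP (τ' x)]
    exact (congrArg σ (DFunLike.congr_fun hid x)).symm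

end Cfsg.Agent.Lib.Helper23.StP
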