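import Cfsg.Agent.Lib.Helper23.StU7
import Cfsg.Agent.Lib.Helper23.StU5
import Cfsg.Agent.Lib.Helper45.StTab6
import Cfsg.Agent.Lib.Helper45.StTab7

/-!
# The table facts for the universality of the cover; trivial multipliers
-/

set_option autoImplicit false

namespace Cfsg.Agent.Lib.Helper23.StP

open Cfsg.Lie Matrix Cfsg.Agent.Lib.Helper23 Cfsg.Agent.Lib.Helper22 Cfsg.Agent.Lib.Helper45

variable {D : ChevalleyDatum} {K : Type*} [Field K]

theorem utabs_of_mem (hD : D ∈ [chevG2, chevB2, chevD4, chevF4, chevE6, chevE7, chevE8]) : UTabs D where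
  sep := fun _ ha _ hb h1 h2 => exists_sep hD ha hb h1 h2
  prim := fun h _ ha => exists_prim h ha
  pos := fun _ hl _ ha _ hb h1 h2 pa pb => terms_pos hD hl ha hb h1 h2 pa pb

/-- finite stem extensions of `G₂(q)`, `F₄(q)`, `E₈(q)`, `q > 4`, are trivial -/
theorem stem_ker_bot [Finite K] (hD3 : D ∈ [chevG2, chevF4, chevE8]) (hK5 : ∃ s : Finset K, 4 < s.card)
    {Γ : Type*} [Group Γ] (σ : Γ →* ↥(D.group K)) (hs : Function.Surjective σ)
    (hc : σ.ker ≤ Subgroup.center Γ) (hcomm : σ.ker ≤ commutator Γ) : σ.ker = ⊥ := by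
  have hD : D ∈ [chevG2, chevB2, chevD4, chevF4, chevE6, chevE7, chevE8] := by
    simp only [List.mem_cons, List.not_mem_nil, or_false] at hD3 ⊢
    tauto
  have hA := addFact_of_mem K hD
  refine stem_trivial hD hA (cover_ker_bot hD3 hD hA) σ hs hc hcomm ?_
  exact exists_lift_main hD hA (utabs_of_mem hD) hK5 ((D.group K).subtype.comp σ)
    (fun z hz => hc (MonoidHom.mem_ker.2 (Subtype.ext hz)))
    (fun g hg => by
      obtain ⟨e, he⟩ := hs ⟨g, hg⟩
      exact ⟨e, by rw [MonoidHom.comp_apply, he]; rfl⟩)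

end Cfsg.Agent.Lib.Helper23.StP
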