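import Cfsg.Agent.Lib.Helper45.AutAbs2

/-!
# Automorphisms of twisted groups: the abstract normalisation (root subgroups over varying fields)
-/

set_option autoImplicit false

namespace Cfsg.Agent.Lib.Helper23.TwAut

open Cfsg.Agent.Lib.Helper45.AutAbs

variable {G : Type*} [Group G] {I : Type*}

/-- the axioms at the level of subgroups -/
structure PSys (Xp Xm : I → Subgroup G) (U V B N : Subgroup G) (P : I → Subgroup G) (nn : I → G)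
    (n0 : G) (ι : I → I) : Prop where
  U_le : U ≤ B
  BV : ∀ g, g ∈ B → g ∈ V → g = 1
  hSyl : ∀ θ : G ≃* G, ∃ g : G, Mp (θ.trans (cj g)) U U
  hBU : ∀ b ∈ B, Mp (cj b) U U
  hNU : ∀ g, Mp (cj g) U U → g ∈ B
  bruhat : ∀ g : G, ∃ b ∈ B, ∃ n ∈ N, ∃ b' ∈ B, g = b * n * b'
  hn0 : Mp (cj n0) U V
  hn0' : Mp (cj n0) V U
  hopp : ∀ n ∈ N, (∀ u ∈ U, n * u * n⁻¹ ∈ U → u = 1) → Mp (cj n) U V
  hBP : ∀ i, B ≤ P i
  hnP : ∀ i, nn i ∈ P i
  hnB : ∀ i, nn i ∉ B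
  hP : ∀ i, ∀ g ∈ P i, g ∈ B ∨ ∃ b ∈ B, ∃ b' ∈ B, g = b * nn i * b'
  hover : ∀ Q : Subgroup G, B ≤ Q → ¬ Q ≤ B → ∃ j, nn j ∈ Q
  hPV : ∀ i, P i ⊓ V = Xm i
  hn0X : ∀ i, Mp (cj n0) (Xm i) (Xp (ι i))
  ι_surj : Function.Surjective ι
  comm_pm : ∀ i j, i ≠ j → ∀ a ∈ Xp i, ∀ b ∈ Xm j, a * b = b * a
  ncomm_pm : ∀ i, ¬ ∀ a ∈ Xp i, ∀ b ∈ Xm i, a * b = b * a

namespace PSys

variable {Xp Xm : I → Subgroup G} {U V B N : Subgroup G} {P : I → Subgroup G} {nn : I → G}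
  {n0 : G} {ι : I → I} (S : PSys Xp Xm U V B N P nn n0 ι)
include S

theorem mp_B {θ : G ≃* G} (hU : Mp θ U U) : Mp θ B B := by
  intro b
  constructor
  · intro hb
    have h1 := mp_cj_map hU.symm hU.symm (S.hBU _ hb)
    rw [MulEquiv.symm_apply_apply] at h1
    exact S.hNU _ h1
  · intro hb
    exact S.hNU _ (mp_cj_map hU hU (S.hBU _ hb))

theorem exists_neg {θ : G ≃* G} (hU : Mp θ U U) (hV : Mp θ V V) (i : I) :
    ∃ j, Mp θ (Xm i) (Xm j) := by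
  obtain ⟨j, hj⟩ := perm_parabolic S.hBP S.hnP S.hnB S.hP S.hover (S.mp_B hU) i
  refine ⟨j, ?_⟩
  rw [← S.hPV i, ← S.hPV j]
  exact hj.inf hV

theorem exists_pos {θ : G ≃* G} (hU : Mp θ U U) (hV : Mp θ V V) (i : I) :
    ∃ j, Mp θ (Xp i) (Xp j) := by
  obtain ⟨k, rfl⟩ := S.ι_surj i
  have hU' : Mp ((cj n0).trans (θ.trans (cj n0⁻¹))) U U :=
    S.hn0.trans (hV.trans (mp_cj_inv S.hn0))
  have hV' : Mp ((cj n0).trans (θ.trans (cj n0⁻¹))) V V :=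
    S.hn0'.trans (hU.trans (mp_cj_inv S.hn0'))
  obtain ⟨j, hj⟩ := S.exists_neg hU' hV' k
  refine ⟨ι j, fun g => ?_⟩
  have h1 := S.hn0X j (n0⁻¹ * θ g * n0)
  have h2 := hj (n0⁻¹ * g * n0)
  have h3 := S.hn0X k (n0⁻¹ * g * n0)
  simp only [cj_apply, MulEquiv.trans_apply] at h1 h2 h3
  have e1 : n0 * (n0⁻¹ * θ g * n0) * n0⁻¹ = θ g := by group
  have e2 : n0 * (n0⁻¹ * g * n0) * n0⁻¹ = g := by group
  rw [e1] at h1
  rw [e2] at h2 h3
  rw [inv_inv] at h2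
  rw [h1, h2, h3]

theorem Xm_inj {i j : I} (h : Xm i = Xm j) : i = j := by
  by_contra hij
  apply S.ncomm_pm i
  intro a ha b hb
  exact S.comm_pm i j hij a ha b (h ▸ hb)

theorem exists_perm {θ : G ≃* G} (hU : Mp θ U U) (hV : Mp θ V V) :
    ∃ ρ : Equiv.Perm I, ∀ i, Mp θ (Xp i) (Xp (ρ i)) ∧ Mp θ (Xm i) (Xm (ρ i)) := by
  choose ρ₁ h₁ using S.exists_neg hU hV
  choose ρ₂ h₂ using S.exists_pos hU hV
  choose ρ' h' using S.exists_neg hU.symm hV.symm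
  have h12 : ∀ i, ρ₂ i = ρ₁ i := by
    intro i
    by_contra hne
    apply S.ncomm_pm i
    intro a ha b hb
    have := S.comm_pm _ _ hne _ ((h₂ i).mem ha) _ ((h₁ i).mem hb)
    rw [← map_mul, ← map_mul] at this
    exact θ.injective this
  have hinj : Function.Injective ρ₁ := by
    intro i j hij
    have h1 := h₁ i
    rw [hij] at h1
    exact S.Xm_inj (h1.unique_left (h₁ j))
  have hsurj : Function.Surjective ρ₁ := by
    intro i
    refine ⟨ρ' i, ?_⟩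
    have h1 : Mp θ (Xm (ρ' i)) (Xm i) := by
      have := (h' i).symm
      rwa [MulEquiv.symm_symm] at this
    exact S.Xm_inj ((h₁ (ρ' i)).unique h1)
  refine ⟨Equiv.ofBijective ρ₁ ⟨hinj, hsurj⟩, fun i => ⟨?_, h₁ i⟩⟩
  have := h₂ i
  rw [h12] at this
  exact this

theorem exists_normal (θ : G ≃* G) : ∃ (g : G) (ρ : Equiv.Perm I),
    ∀ i, Mp (θ.trans (cj g)) (Xp i) (Xp (ρ i)) ∧ Mp (θ.trans (cj g)) (Xm i) (Xm (ρ i)) := by
  obtain ⟨g, hU, hV⟩ := normalize S.hSyl S.hBU S.bruhat S.hn0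
    (fun g hg hg' => S.BV g (S.U_le hg) hg') S.hopp θ
  obtain ⟨ρ, hρ⟩ := S.exists_perm hU hV
  exact ⟨g, ρ, hρ⟩

end PSys

/-- an additive map of a finite field with `F (c² u) = F(c)² F(u)` is multiplicative -/
theorem mul_of_sq {K : Type*} [Field K] [Finite K] (S : Subfield K) (F : K → K)
    (hadd : ∀ t ∈ S, ∀ u ∈ S, F (t + u) = F t + F u) (h1 : F 1 = 1)
    (hsq : ∀ c ∈ S, ∀ u ∈ S, F (c ^ 2 * u) = F c ^ 2 * F u) :
    ∀ c ∈ S, ∀ u ∈ S, F (c * u) = F c * F u := by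
  intro c hc u hu
  by_cases h2 : (2 : K) = 0
  · haveI : CharP ↥S 2 := CharTwo.of_one_ne_zero_of_two_eq_zero one_ne_zero (Subtype.ext h2)
    obtain ⟨d, hd⟩ := FiniteField.isSquare_of_char_two (ringChar.eq ↥S 2) (⟨c, hc⟩ : ↥S)
    have hd' : c = (d : K) ^ 2 := by
      have := congrArg Subtype.val hd
      rw [sq]; exact this
    have e1 := hsq d d.2 1 S.one_mem
    rw [mul_one, h1, mul_one] at e1
    rw [hd', hsq d d.2 u hu, e1]
  · have e1 := hsq (c + 1) (S.add_mem hc S.one_mem) u hu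
    have e2 : (c + 1) ^ 2 * u = c ^ 2 * u + (c * u + (c * u + u)) := by ring
    have hcu : c * u ∈ S := S.mul_mem hc hu
    rw [e2, hadd _ (S.mul_mem (S.pow_mem hc 2) hu) _ (S.add_mem hcu (S.add_mem hcu hu)),
      hadd _ hcu _ (S.add_mem hcu hu), hadd _ hcu _ hu, hsq c hc u hu, hadd c hc 1 S.one_mem, h1] at e1
    have e3 : 2 * F (c * u) = 2 * (F c * F u) := by linear_combination e1
    exact mul_left_cancel₀ h2 e3

end Cfsg.Agent.Lib.Helper23.TwAut
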