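import Cfsg.Agent.Lib.Helper23.TwAutFin

/-!
# Automorphisms of twisted groups: compatibility on orbits of length 1, 2, 3
-/

set_option autoImplicit false

namespace Cfsg.Agent.Lib.Helper23.TwAut

open Cfsg.Lie Matrix Cfsg.Agent.Lib.Helper23 Cfsg.Agent.Lib.Helper22 Cfsg.Agent.Lib.Helper45

variable {D : ChevalleyDatum} {K : Type*} [Field K]

theorem comp_one (hA : AddFact D K) (φ : K →+* K) {γ : ℕ → ℤ} {ρ' : ℕ → ℕ} {i : ℕ} {sg : Bool}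
    (h1 : ρ' (sgR D sg i) = sgR D sg i) (g1 : γ (sgR D sg i) = 1) (τ : ℕ → K)
    (hτ : Compat (fun r t => (γ r : K) * φ t) ρ' ([i].map (sgR D sg)) τ) :
    ∃ t, (φ ^ [i].length) t = t ∧ hA.W (wL ([i].map (sgR D sg)) τ) = hA.xJ φ sg [i] t := by
  have e1 := hτ (sgR D sg i) (by simp)
  simp only [h1, g1, Int.cast_one, one_mul] at e1
  exact ⟨τ (sgR D sg i), e1.symm, by simp [wL, AddFact.W]⟩

theorem comp_two (hA : AddFact D K) (φ : K →+* K) {γ : ℕ → ℤ} {ρ' : ℕ → ℕ} {i j : ℕ} {sg : Bool}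
    (h1 : ρ' (sgR D sg i) = sgR D sg j) (h2 : ρ' (sgR D sg j) = sgR D sg i)
    (g1 : γ (sgR D sg i) = 1) (g2 : γ (sgR D sg j) = 1) (τ : ℕ → K)
    (hτ : Compat (fun r t => (γ r : K) * φ t) ρ' ([i, j].map (sgR D sg)) τ) :
    ∃ t, (φ ^ [i, j].length) t = t ∧ hA.W (wL ([i, j].map (sgR D sg)) τ) = hA.xJ φ sg [i, j] t := by
  have e1 := hτ (sgR D sg i) (by simp)
  have e2 := hτ (sgR D sg j) (by simp)
  simp only [h1, h2, g1, g2, Int.cast_one, one_mul] at e1 e2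
  refine ⟨τ (sgR D sg i), ?_, ?_⟩
  · show φ (φ (τ (sgR D sg i))) = _
    rw [← e2, ← e1]
  · simp [wL, AddFact.W, ← e2]

theorem comp_three (hA : AddFact D K) (φ : K →+* K) {γ : ℕ → ℤ} {ρ' : ℕ → ℕ} {i j k : ℕ} {sg : Bool}
    (h1 : ρ' (sgR D sg i) = sgR D sg k) (h2 : ρ' (sgR D sg j) = sgR D sg i)
    (h3 : ρ' (sgR D sg k) = sgR D sg j)
    (g1 : γ (sgR D sg i) = 1) (g2 : γ (sgR D sg j) = 1) (g3 : γ (sgR D sg k) = 1) (τ : ℕ → K)
    (hτ : Compat (fun r t => (γ r : K) * φ t) ρ' ([i, j, k].map (sgR D sg)) τ) :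
    ∃ t, (φ ^ [i, j, k].length) t = t ∧
      hA.W (wL ([i, j, k].map (sgR D sg)) τ) = hA.xJ φ sg [i, j, k] t := by
  have e1 := hτ (sgR D sg i) (by simp)
  have e2 := hτ (sgR D sg j) (by simp)
  have e3 := hτ (sgR D sg k) (by simp)
  simp only [h1, h2, h3, g1, g2, g3, Int.cast_one, one_mul] at e1 e2 e3
  refine ⟨τ (sgR D sg i), ?_, ?_⟩
  · show φ (φ (φ (τ (sgR D sg i)))) = _
    rw [← e2, ← e3, ← e1]
  · simp [wL, AddFact.W, ← e2, ← e3]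

end Cfsg.Agent.Lib.Helper23.TwAut
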