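import Cfsg.Agent.Lib.Helper23.TwAutStd
import Cfsg.Agent.Lib.Helper23.TwAutAbs3

/-!
# Automorphisms of twisted groups: the count
-/

set_option autoImplicit false

namespace Cfsg.Agent.Lib.Helper23.TwAut

open Cfsg.Lie Matrix Cfsg.Agent.Lib.Helper23 Cfsg.Agent.Lib.Helper22 Cfsg.Agent.Lib.Helper45
open Cfsg.Agent.Lib.Helper45.AutAbs

variable {D : ChevalleyDatum} {K : Type*} [Field K]

theorem xJ_mem_UV0 (b : Bundle D K) (φ : K →+* K) {J : List ℕ} (hJ : ∀ i ∈ J, i < D.rank) (sg : Bool)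
    (u : K) : b.hA.xJ φ sg J u ∈ UV D K sg := by
  induction J generalizing u with
  | nil => exact one_mem _
  | cons k J ih =>
    rw [AddFact.xJ_cons]
    exact mul_mem (X_sgR_mem b (hJ k (by simp)) sg _) (ih (fun l hl => hJ l (by simp [hl])) _)

theorem xJχ_mem_UV0 (b : Bundle D K) (φ : K →+* K) (χ : ℕ → K) {J : List ℕ} (hJ : ∀ i ∈ J, i < D.rank)
    (sg : Bool) (u : K) : b.hA.xJχ φ χ sg J u ∈ UV D K sg := by
  induction J generalizing u with
  | nil => exact one_mem _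
  | cons k J ih =>
    rw [AddFact.xJχ]
    exact mul_mem (X_sgR_mem b (hJ k (by simp)) sg _) (ih (fun l hl => hJ l (by simp [hl])) _)

theorem commI1_xJχ (hA : AddFact D K) (φ : K →+* K) (χ : ℕ → K) {i : ℕ} {J : List ℕ}
    (h : ∀ j ∈ J, hA.Orth i j) (sg : Bool) (t : K) : hA.CommI1 i (hA.xJχ φ χ sg J t) := by
  induction J generalizing t with
  | nil => exact AddFact.CommI1.one i
  | cons j J ih =>
    exact AddFact.CommI1.mul (fun sg' u => h j (by simp) sg' sg u _) (ih (fun k hk => h k (by simp [hk])) _)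

theorem pw_mul (sg : Bool) (a c : K) : pw sg (a * c) = pw sg a * pw sg c := by
  cases sg
  · exact mul_inv a c
  · rfl

theorem pw_ne_zero (sg : Bool) {a : K} (ha : a ≠ 0) : pw sg a ≠ 0 := by
  cases sg
  · exact inv_ne_zero ha
  · exact ha

namespace TwC

variable {b : Bundle D K} {σ : GL D.Idx K → GL D.Idx K} {ρ ρ' : ℕ → ℕ} {c : ℕ → K → K}
  {O : List (List ℕ)} {cert : List (List ℕ × List (List ℕ))} {G1 : Subgroup (GL D.Idx K)}
  {φ : K →+* K} (C : TwC b σ ρ ρ' c O cert G1 φ)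
include C

theorem diag_conj_J {h : GL D.Idx K} (hh : h ∈ D.diagonalSubgroup K) (h1 : h ∈ G1) {χ : ℕ → K}
    (hχ : b.hA.IsTor h χ) {J : List ℕ} (hJ : J ∈ O) (sg : Bool) {t : K} (ht : (φ ^ J.length) t = t) :
    (φ ^ J.length) (χ (sgR D sg (J.headD 0)) * t) = χ (sgR D sg (J.headD 0)) * t ∧
    h * b.hA.xJ φ sg J t * h⁻¹ = b.hA.xJ φ sg J (χ (sgR D sg (J.headD 0)) * t) := by
  obtain ⟨t', ht', e⟩ := C.conj_xJ h1 (acts_diag b hh) hJ hJ (sg := sg) (sg' := sg)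
    (by rw [List.map_id]) ht
  have key : χ (sgR D sg (J.headD 0)) * t = t' := by
    have hr := C.rank hJ
    have hO := C.orth J hJ
    rw [isTor_conj_xJ b.hA b.hR φ hχ hr] at e
    cases J with
    | nil => exact absurd rfl (C.X.hT.ne _ hJ)
    | cons j J =>
      rw [List.pairwise_cons] at hO
      have hr' : ∀ k ∈ J, k < D.rank := fun k hk => hr k (by simp [hk])
      rw [AddFact.xJχ, AddFact.xJ_cons] at e
      show χ (sgR D sg j) * t = t'
      have e1 : b.hA.X (sgR D sg j) (χ (sgR D sg j) * t - t') =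
          b.hA.xJ φ sg J (φ t') * (b.hA.xJχ φ χ sg J (φ t))⁻¹ := by
        rw [sub_eq_add_neg, add_comm, b.hA.X_add, ← b.hA.X_inv, inv_mul_eq_iff_eq_mul, ← mul_assoc, ← e]
        group
      exact sub_eq_zero.1 (head_zero b (hr j (by simp))
        (mul_mem (xJ_mem_UV0 b φ hr' sg _) (inv_mem (xJχ_mem_UV0 b φ χ hr' sg _)))
        ((AddFact.CommI1.xJ hO.1 sg _).mul (commI1_inv b.hA (commI1_xJχ b.hA φ χ hO.1 sg _))) e1)
  rw [key]
  exact ⟨ht', e⟩

/-- the action of `H¹` on the fundamental root subgroups -/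
theorem diag_conj {n : ℕ} (orb : Fin n → List ℕ) (horb1 : ∀ i, orb i ∈ O) {h : GL D.Idx K}
    (hh : h ∈ D.diagonalSubgroup K) (h1 : h ∈ G1) :
    ∃ κ : Fin n → K, (∀ i, (φ ^ (orb i).length) (κ i) = κ i ∧ κ i ≠ 0) ∧
      ∀ (i : Fin n) (sg : Bool) (t : K), (φ ^ (orb i).length) t = t →
        h * b.hA.xJ φ sg (orb i) t * h⁻¹ = b.hA.xJ φ sg (orb i) (pw sg (κ i) * t) := by
  obtain ⟨χ, hχ⟩ := b.hA.diag_isTor b.hT hh
  refine ⟨fun i => χ (D.simple ((orb i).headD 0)), fun i => ⟨?_, hχ.1 _⟩, fun i sg t ht => ?_⟩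
  · have := (C.diag_conj_J hh h1 hχ (horb1 i) true (t := 1) (map_one _)).1
    rwa [mul_one] at this
  · rw [(C.diag_conj_J hh h1 hχ (horb1 i) sg ht).2]
    cases sg
    · have hlt : (orb i).headD 0 < D.rank := by
        have hne := C.X.hT.ne _ (horb1 i)
        have hr := C.rank (horb1 i)
        cases h : orb i with
        | nil => exact absurd h hne
        | cons j J => rw [h] at hr; exact hr j (by simp)
      rw [sgR_false, b.isTor_neg hh hχ (b.hR.simple_pos hlt)]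
      rfl
    · rfl

/-- an element of `G¹` normalising `U¹` and `V¹` lies in `H` -/
theorem mem_diag_of_norm2 {x : GL D.Idx K} (hx : x ∈ G1)
    (h1 : ∀ u ∈ D.posUnipotent K, u ∈ G1 → x * u * x⁻¹ ∈ D.posUnipotent K)
    (h2 : ∀ u ∈ D.negUnipotent K, u ∈ G1 → x * u * x⁻¹ ∈ D.negUnipotent K) :
    x ∈ D.diagonalSubgroup K := by
  obtain ⟨L₀, hL, -⟩ := C.long
  have hw := C.flatten_rank hL.1
  have hn0 := cmp_opp b hw (one_mem _) (fun r hr => hL.2 r hr.1 hr)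
  rw [mul_one] at hn0
  set n₀ := b.hA.nword L₀.flatten with hn₀
  have hn1 : n₀ ∈ G1 := C.nword_flatten_mem hL.1
  have hnN : n₀ ∈ D.monomialSubgroup K := b.hA.nword_mem_mono b.hR hw
  have hB := C.mem_borel_of_norm hx h1
  have hB' : n₀⁻¹ * x * n₀ ∈ D.borelSubgroup K := by
    apply C.mem_borel_of_norm (mul_mem (mul_mem (inv_mem hn1) hx) hn1)
    intro u hu hu1
    have e1 : n₀ * u * n₀⁻¹ ∈ D.negUnipotent K := (hn0.1 u).2 hu
    have e2 := h2 _ e1 (mul_mem (mul_mem hn1 hu1) (inv_mem hn1))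
    have e3 : n₀⁻¹ * x * n₀ * u * (n₀⁻¹ * x * n₀)⁻¹ = n₀⁻¹ * (x * (n₀ * u * n₀⁻¹) * x⁻¹) * n₀ := by group
    rw [e3]
    apply (hn0.1 _).1
    have e4 : n₀ * (n₀⁻¹ * (x * (n₀ * u * n₀⁻¹) * x⁻¹) * n₀) * n₀⁻¹ = x * (n₀ * u * n₀⁻¹) * x⁻¹ := by group
    rw [e4]; exact e2
  obtain ⟨u, hu, k, hk, e⟩ := (b.hA.mem_borel_iff b.hT).1 hB'
  have e5 : x = (n₀ * u * n₀⁻¹) * (n₀ * k * n₀⁻¹) := by
    have : x = n₀ * (n₀⁻¹ * x * n₀) * n₀⁻¹ := by group
    rw [this, e]; group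
  have h6 : x ∈ D.borelSubgroup K ⊓ (D.negUnipotent K ⊔ D.diagonalSubgroup K) := by
    refine ⟨hB, ?_⟩
    rw [e5]
    exact mul_mem (Subgroup.mem_sup_left ((hn0.1 u).2 hu))
      (Subgroup.mem_sup_right (b.hA.mono_conj_diag b.hR b.hN hnN hk))
  rwa [b.hTri.BVH] at h6

/-- an element of `B` centralising the generators is trivial -/
theorem eq_one_of_central {k : GL D.Idx K} (hk : k ∈ D.borelSubgroup K)
    (h : ∀ J ∈ O, ∀ (sg : Bool) (t : K), (φ ^ J.length) t = t →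
      k * b.hA.xJ φ sg J t * k⁻¹ = b.hA.xJ φ sg J t) : k = 1 := by
  obtain ⟨L₀, hL, -⟩ := C.long
  obtain ⟨m, hm⟩ := C.orb
  apply b.hA.tw_eq_one_of_conj_mem_borel φ b.hR b.hN b.hT b.hTri (nmon_of_mem K C.X.hD)
    (fun J hJ => C.rank hJ) C.orth C.cov hL hm
  have hcen : b.hA.twG φ O ≤ Subgroup.centralizer {k} := by
    rw [AddFact.twG, Subgroup.closure_le]
    rintro s ⟨J, hJ, sg, t, ht, rfl⟩
    rw [SetLike.mem_coe, Subgroup.mem_centralizer_singleton_iff]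
    have := h J hJ sg t ht
    rw [mul_inv_eq_iff_eq_mul] at this
    exact this.symm
  intro g hg
  have := Subgroup.mem_centralizer_singleton_iff.1 (hcen hg)
  rw [this, mul_inv_cancel_right]
  exact hk

end TwC

end Cfsg.Agent.Lib.Helper23.TwAut
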