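import Cfsg.Agent.Lib.Helper23.TwD4

set_option autoImplicit false

namespace Cfsg.Agent.Lib.Helper23

open Cfsg.Lie Matrix
open scoped commutatorElement

variable {K : Type*} [Field K] [Fintype K]

theorem goodD4 (hA : AddFact chevD4 K) {q : ℕ} (hq : IsPrimePow q) (hK : Fintype.card K = q ^ 3)
    (φ : K →+* K) (h1 : ∀ t, φ t = t ^ q) (h2 : ∀ t, (φ ^ 3) t = t) (h3 : Even q → CharP K 2)
    (t : K) (ht : φ t = t) : hA.X (chevD4.simple 1) t ∈ ⁅hA.twG φ OD4, hA.twG φ OD4⁆ := by
  have b := bundle_of_mem K memD4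
  have hS := torS_of_mem K memD4
  have h25 := commAll_of_mem K memD4
  have hq2 : 2 ≤ q := hq.two_le
  by_cases hq3 : 3 ≤ q
  · -- torus argument
    have hlt : 1 + q + q ^ 2 < Fintype.card K - 1 := by
      rw [hK]
      have h4 : q ^ 3 = q * q ^ 2 := by ring
      have h5 : 3 * q ≤ q ^ 2 := by nlinarith
      have h6 : 3 * q ^ 2 ≤ q ^ 3 := by nlinarith
      omega
    obtain ⟨x, hx0, hx⟩ := exists_pow_ne_one (K := K) (m := 1 + q + q ^ 2) (by omega) hlt
    refine hA.X_mem_comm_of_torus φ b.hR hS (O := OD4) (a := 1) (by simp [OD4]) (by decide +kernel) (J := [0, 2, 3])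
      (by simp [OD4]) (rankD4 _ (by simp [OD4])) (orthLD4 hA _ (by simp [OD4])) true (Or.inr rfl)
      moveD4.2 hx0 (h2 x) ?_ ht
    intro h
    apply hx
    rw [← h]
    simp only [List.length_cons, List.length_nil, normN, h1, mul_one]
    rw [← pow_mul, pow_add, pow_add, pow_one, pow_two, mul_assoc]
  · have hq' : q = 2 := by omega
    have : CharP K 2 := h3 (by rw [hq']; decide)
    obtain ⟨e1, e2, e3, p1, p2, p3, c12, c13, c21, c23, c31, c32, z1, z2, z3, y1, y2, y3⟩ := heisD4
    refine hA.X_mem_comm_of_char2 φ b.hR b.hN (O := OD4) (a := 1) (by simp [OD4]) (by decide +kernel) (J := [0, 2, 3])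
      (by simp [OD4]) (rankD4 _ (by simp [OD4])) (orthLD4 hA _ (by simp [OD4])) ?_
      (tr3_surj (by omega) hK φ h1 h2) true ht
    rw [e1, e2, e3]
    refine ⟨hA.heis_of_term1 h25 p1 z1 y1, ?_, ?_, hA.commute_of_term0 h25 z1, hA.commute_of_term0 h25 y1,
      hA.heis_of_term1 h25 p2 z2 y2, ?_, ?_, hA.commute_of_term0 h25 z2, hA.commute_of_term0 h25 y2,
      hA.heis_of_term1 h25 p3 z3 y3, ?_, ?_, hA.commute_of_term0 h25 z3, hA.commute_of_term0 h25 y3, trivial⟩
    · intro T' hT'
      simp only [List.mem_cons, List.not_mem_nil, or_false] at hT'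
      rcases hT' with rfl | rfl
      · exact hA.commute_of_term0 h25 c12
      · exact hA.commute_of_term0 h25 c13
    · intro b' hb'
      simp only [List.mem_cons, List.not_mem_nil, or_false] at hb'
      rcases hb' with rfl | rfl
      · exact hA.commute_of_term0 h25 c21
      · exact hA.commute_of_term0 h25 c31
    · intro T' hT'
      rw [List.mem_singleton.1 hT']
      exact hA.commute_of_term0 h25 c23
    · intro b' hb'
      rw [List.mem_singleton.1 hb']
      exact hA.commute_of_term0 h25 c32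
    · simp
    · simp

theorem perfectD4 {q : ℕ} (hq : IsPrimePow q) (hK : Fintype.card K = q ^ 3) :
    commutator ↥(twistedD4 K q) = ⊤ := by
  have b := bundle_of_mem K memD4
  have hA := b.hA
  have hS := torS_of_mem K memD4
  obtain ⟨φ, h1, h2, h3⟩ := exists_frob hq hK
  have hq2 : 2 ≤ q := hq.two_le
  rw [twistedD4_eq hA φ h1 h2]
  apply subgroup_commutator_eq_top
  have good := goodD4 hA hq hK φ h1 h2 h3
  have hs1 : chevD4.simple 1 < chevD4.nroots := b.hR.simple_lt (by decide +kernel)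
  have tr := fun L hL => hA.goodF_wact φ b.hR b.hN rankD4 (orthLD4 hA) hs1 good (L := L) hL
  obtain ⟨m1, _⟩ := moveD4
  have hlt : 2 < Fintype.card K - 1 := by
    rw [hK]
    have h4 : q ^ 3 = q * q * q := by ring
    have h5 : 4 ≤ q * q := by nlinarith
    have h6 : 8 ≤ q * q * q := by nlinarith
    omega
  obtain ⟨μ, hμ0, hμ2⟩ := exists_pow_ne_one (K := K) (m := 2) (by omega) hlt
  conv_lhs => rw [AddFact.twG]
  rw [Subgroup.closure_le]
  rintro g ⟨J, hJ, sg, t, ht, rfl⟩
  have hJ' := hJ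
  simp only [OD4, List.mem_cons, List.not_mem_nil, or_false] at hJ'
  rcases hJ' with rfl | rfl
  · have ht' : φ t = t := by simpa using ht
    rw [AddFact.xJ_cons, AddFact.xJ_nil, mul_one]
    cases sg
    · rw [← m1]; exact tr _ (by simp [OD4]) t ht'
    · exact good t ht'
  · exact hA.xJ_mem_comm φ b.hR hS hJ (rankD4 _ hJ) (orthLD4 hA _ hJ) (cartD4 _ hJ) hμ0 (h2 μ) hμ2 sg ht

theorem coreD4 {q : ℕ} (hq : IsPrimePow q) (hK : Fintype.card K = q ^ 3) :
    ((chevD4.borelSubgroup K ⊓ twistedD4 K q).subgroupOf (twistedD4 K q)).normalCore = ⊥ := by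
  have b := bundle_of_mem K memD4
  have hA := b.hA
  obtain ⟨φ, h1, h2, _⟩ := exists_frob hq hK
  rw [eq_bot_iff]
  intro k hk
  rw [Subgroup.mem_bot]
  apply Subtype.ext
  apply hA.tw_eq_one_of_conj_mem_borel φ b.hR b.hN b.hT b.hTri (nmon_of_mem K memD4) rankD4 (orthLD4 hA) covD4
    longD4 orbD4
  intro g hg
  rw [← twistedD4_eq hA φ h1 h2] at hg
  have := hk ⟨g, hg⟩
  rw [Subgroup.mem_subgroupOf] at this
  exact this.1

end Cfsg.Agent.Lib.Helper23
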