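import Cfsg.Agent.Lib.Helper23.TwAutComp
import Cfsg.Agent.Lib.Helper23.TwD4b
import Cfsg.Agent.Lib.Helper45.TwistD4

/-!
# The context `TwC` for `³D₄(q)`
-/

set_option autoImplicit false

namespace Cfsg.Agent.Lib.Helper23.TwAut

open Cfsg.Lie Matrix Cfsg.Agent.Lib.Helper23 Cfsg.Agent.Lib.Helper22 Cfsg.Agent.Lib.Helper45

theorem d4_tab1 : ∀ sg : Bool, rhoInvD4 (sgR chevD4 sg 1) = sgR chevD4 sg 1 ∧
    gamD4 (sgR chevD4 sg 1) = 1 ∧
    rhoInvD4 (sgR chevD4 sg 0) = sgR chevD4 sg 3 ∧ rhoInvD4 (sgR chevD4 sg 2) = sgR chevD4 sg 0 ∧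
    rhoInvD4 (sgR chevD4 sg 3) = sgR chevD4 sg 2 ∧ gamD4 (sgR chevD4 sg 0) = 1 ∧
    gamD4 (sgR chevD4 sg 2) = 1 ∧ gamD4 (sgR chevD4 sg 3) = 1 := by decide +kernel

theorem d4_trans : ∀ J ∈ orbsD4, ∀ i ∈ J, ∀ j ∈ J, ∃ k < 3, rhoD4^[k] (chevD4.simple i) = chevD4.simple j := by
  decide +kernel

theorem d4_longp : ∀ J ∈ orbsD4, ((J.map (sgR chevD4 false)).map
    (wact chevD4 [[1], [0, 2, 3], [1], [0, 2, 3], [1], [0, 2, 3]].flatten)).Perm
      (J.map (sgR chevD4 true)) := by decide +kernel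

theorem d4_flip : ∀ J ∈ orbsD4, ((J.map (sgR chevD4 true)).map (wact chevD4 J)).Perm
    (J.map (sgR chevD4 false)) := by decide +kernel

theorem d4_stay : ∀ J ∈ orbsD4, ∀ r < chevD4.nroots, chevD4.IsPosRoot r → r ∉ J.map chevD4.simple →
    chevD4.IsPosRoot (wact chevD4 J r) := by decide +kernel

theorem d4_disj : ∀ J ∈ orbsD4, ∀ J' ∈ orbsD4, J ≠ J' → ∀ i ∈ J, ∀ j ∈ J', i ≠ j := by decide +kernel

variable {K : Type*} [Field K] [Fintype K]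

theorem d4_twC {q : ℕ} (hq : IsPrimePow q) (hK : Fintype.card K = q ^ 3) :
    ∃ (σ : GL chevD4.Idx K → GL chevD4.Idx K) (φ : K →+* K), (∀ t, φ t = t ^ q) ∧
      (∀ t, (φ ^ 3) t = t) ∧
      TwC (bundle_of_mem K Cfsg.Agent.Lib.Helper45.memD4) σ rhoD4 rhoInvD4
        (fun r t => (gamD4 r : K) * φ t) orbsD4 certD4 (twistedD4 K q) φ := by
  obtain ⟨σ, φ, hφ, X⟩ := d4_setup hq hK
  have h3 : ∀ t, (φ ^ 3) t = t := by
    intro t
    show φ (φ (φ t)) = t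
    rw [hφ, hφ, hφ, ← pow_mul, ← pow_mul]
    have : q * (q * q) = q ^ 3 := by ring
    rw [this, ← hK, FiniteField.pow_card]
  refine ⟨σ, φ, hφ, h3, ?_⟩
  have hA := (bundle_of_mem K Cfsg.Agent.Lib.Helper45.memD4).hA
  exact
  { X := X
    hG := Cfsg.Agent.Lib.Helper23.twistedD4_eq hA φ hφ h3
    orth := orthLD4 hA
    comp := by
      intro J hJ sg τ hτ
      obtain ⟨a1, a2, a3, a4, a5, a6, a7, a8⟩ := d4_tab1 sg
      simp only [orbsD4, List.mem_cons, List.not_mem_nil, or_false] at hJ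
      rcases hJ with rfl | rfl
      · exact comp_one hA φ a1 a2 τ hτ
      · exact comp_three hA φ a3 a4 a5 a6 a7 a8 τ hτ
    trans := fun J hJ i hi j hj => by
      obtain ⟨k, _, e⟩ := d4_trans J hJ i hi j hj
      exact ⟨k, e⟩
    cov := covD4
    long := ⟨_, longD4, d4_longp⟩
    orb := ⟨_, orbD4⟩
    flip := d4_flip
    stay := d4_stay
    cart := cartD4
    disj := d4_disj }

end Cfsg.Agent.Lib.Helper23.TwAut
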