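import Cfsg.Agent.Lib.Helper23.TwHE6c
import Cfsg.Agent.Lib.Helper23.TwD4
import Cfsg.Agent.Lib.Helper22.ChevGrD4

set_option autoImplicit false

namespace Cfsg.Agent.Lib.Helper23

open Cfsg.Lie Matrix Cfsg.Agent.Lib.Helper22

variable {K : Type*} [Field K]

/-- a four-tuple of torus parameters -/
def L4 (x0 x1 x2 x3 : K) : List (ℕ × K) := [(0, x0), (1, x1), (2, x2), (3, x3)]

theorem L4_ok {x0 x1 x2 x3 : K} (h0 : x0 ≠ 0) (h1 : x1 ≠ 0) (h2 : x2 ≠ 0) (h3 : x3 ≠ 0) :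
    ∀ p ∈ L4 x0 x1 x2 x3, p.1 < chevD4.rank ∧ p.2 ≠ 0 := by
  have hr : chevD4.rank = 4 := by decide +kernel
  intro p hp
  simp only [L4, List.mem_cons, List.not_mem_nil, or_false] at hp
  rw [hr]
  rcases hp with rfl | rfl | rfl | rfl <;> simp [*]

theorem chiP_L4 (x0 x1 x2 x3 : K) (s : ℕ) : chiP chevD4 (L4 x0 x1 x2 x3) s =
    x0 ^ chevD4.cartan 0 s * (x1 ^ chevD4.cartan 1 s * (x2 ^ chevD4.cartan 2 s * x3 ^ chevD4.cartan 3 s)) := by
  simp [chiP, L4]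

theorem cartSD4 : ∀ j < 4, ∀ i < 4, chevD4.cartan i (chevD4.simple j) =
    (([[2, -1, 0, 0], [-1, 2, -1, -1], [0, -1, 2, 0], [0, -1, 0, 2]] : List (List ℤ)).getD i []).getD j 0 := by
  decide +kernel

theorem cart2D4 : ∀ s < chevD4.nroots, (2 : ℤ) ∣ chevD4.cartan 0 s + chevD4.cartan 3 s ∧
    (2 : ℤ) ∣ chevD4.cartan 2 s + chevD4.cartan 3 s := by decide +kernel

/-- the kernel of the torus parametrisation -/
theorem kerD4 (hA : AddFact chevD4 K) {x0 x1 x2 x3 : K} (h0 : x0 ≠ 0) (h1 : x1 ≠ 0) (h2 : x2 ≠ 0)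
    (h3 : x3 ≠ 0) (h : hA.hP (L4 x0 x1 x2 x3) = 1) :
    x1 = 1 ∧ x0 ^ 2 = 1 ∧ x2 ^ 2 = 1 ∧ x3 ^ 2 = 1 ∧ x0 * x2 * x3 = 1 := by
  have hS := torS_of_mem K memD4
  have hR := rootFacts_of_mem memD4
  rw [hA.hP_eq_one_iff hS (L4_ok h0 h1 h2 h3)] at h
  have hr : chevD4.rank = 4 := by decide +kernel
  have key : ∀ j < 4, chiP chevD4 (L4 x0 x1 x2 x3) (chevD4.simple j) = 1 :=
    fun j hj => h _ (hR.simple_lt (hr ▸ hj))
  have r0 := key 0 (by norm_num)
  have r1 := key 1 (by norm_num)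
  have r2 := key 2 (by norm_num)
  have r3 := key 3 (by norm_num)
  rw [chiP_L4, cartSD4 _ (by norm_num) 0 (by norm_num), cartSD4 _ (by norm_num) 1 (by norm_num),
    cartSD4 _ (by norm_num) 2 (by norm_num), cartSD4 _ (by norm_num) 3 (by norm_num)] at r0 r1 r2 r3
  simp only [List.getD_cons_zero, List.getD_cons_succ, zpow_zero, one_mul, mul_one, _root_.zpow_neg_one] at r0 r1 r2 r3
  have e0 : x0 ^ 2 = x1 := by field_simp at r0; exact_mod_cast r0
  have e1 : x1 ^ 2 = x0 * x2 * x3 := by field_simp at r1; exact_mod_cast r1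
  have e2 : x2 ^ 2 = x1 := by field_simp at r2; exact_mod_cast r2
  have e3 : x3 ^ 2 = x1 := by field_simp at r3; exact_mod_cast r3
  have c1 : x1 = 1 := by
    have : x1 ^ 3 * x1 = x1 ^ 3 * 1 := by
      calc x1 ^ 3 * x1 = (x1 ^ 2) ^ 2 := by ring
        _ = x0 ^ 2 * x2 ^ 2 * x3 ^ 2 := by rw [e1]; ring
        _ = _ := by rw [e0, e2, e3]; ring
    exact mul_left_cancel₀ (pow_ne_zero 3 h1) this
  rw [c1] at e0 e1 e2 e3
  exact ⟨c1, e0, e2, e3, by rw [← e1, one_pow]⟩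

theorem zetaD4 (hA : AddFact chevD4 K) {y0 y2 : K} (h0 : y0 ^ 2 = 1) (h2 : y2 ^ 2 = 1) :
    hA.hP (L4 y0 1 y2 (y0 * y2)) = 1 := by
  have hS := torS_of_mem K memD4
  have n0 : y0 ≠ 0 := by rintro rfl; simp at h0
  have n2 : y2 ≠ 0 := by rintro rfl; simp at h2
  rw [hA.hP_eq_one_iff hS (L4_ok n0 one_ne_zero n2 (mul_ne_zero n0 n2))]
  intro s hs
  obtain ⟨⟨m, hm⟩, ⟨m', hm'⟩⟩ := cart2D4 s hs
  rw [chiP_L4]
  have : y0 ^ chevD4.cartan 0 s * (1 ^ chevD4.cartan 1 s * (y2 ^ chevD4.cartan 2 s * (y0 * y2) ^ chevD4.cartan 3 s)) =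
      y0 ^ (chevD4.cartan 0 s + chevD4.cartan 3 s) * y2 ^ (chevD4.cartan 2 s + chevD4.cartan 3 s) := by
    rw [zpow_add₀ n0, zpow_add₀ n2, mul_zpow, _root_.one_zpow]
    ring
  rw [this, hm, hm', _root_.zpow_mul, _root_.zpow_mul]
  norm_cast
  rw [h0, h2, _root_.one_zpow, _root_.one_zpow, one_mul]

theorem L4_mul (hA : AddFact chevD4 K) {x0 x1 x2 x3 y0 y1 y2 y3 : K} (h0 : x0 ≠ 0) (h1 : x1 ≠ 0)
    (h2 : x2 ≠ 0) (h3 : x3 ≠ 0) (k0 : y0 ≠ 0) (k1 : y1 ≠ 0) (k2 : y2 ≠ 0) (k3 : y3 ≠ 0) :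
    hA.hP (L4 (x0 * y0) (x1 * y1) (x2 * y2) (x3 * y3)) = hA.hP (L4 x0 x1 x2 x3) * hA.hP (L4 y0 y1 y2 y3) := by
  have hS := torS_of_mem K memD4
  apply hA.hP_mul_of hS (L4_ok h0 h1 h2 h3) (L4_ok k0 k1 k2 k3)
    (L4_ok (mul_ne_zero h0 k0) (mul_ne_zero h1 k1) (mul_ne_zero h2 k2) (mul_ne_zero h3 k3))
  intro s _
  rw [chiP_L4, chiP_L4, chiP_L4]
  simp only [mul_zpow]
  ring

/-- the parametrisation of the torus of `³D₄` -/
noncomputable def thetaD4 (hA : AddFact chevD4 K) (q : ℕ) : (FixU K q × Kˣ) →* GL chevD4.Idx K where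
  toFun x := hA.hP (L4 (x.2 : K) ((x.1 : Kˣ) : K) ((x.2 : K) ^ q) (((x.2 : K) ^ q) ^ q))
  map_one' := by
    have := zetaD4 hA (y0 := (1 : K)) (y2 := 1) (one_pow 2) (one_pow 2)
    simpa using this
  map_mul' x y := by
    simp only [Prod.fst_mul, Prod.snd_mul, Subgroup.coe_mul, Units.val_mul, mul_pow]
    apply L4_mul hA <;> simp

theorem thetaD4_apply (hA : AddFact chevD4 K) (q : ℕ) (x : FixU K q × Kˣ) :
    thetaD4 hA q x = hA.hP (L4 (x.2 : K) ((x.1 : Kˣ) : K) ((x.2 : K) ^ q) (((x.2 : K) ^ q) ^ q)) := rfl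

theorem cycD4 : CycO (fun i => [2, 1, 3, 0].getD i 0) OD4 := by
  intro J hJ
  simp only [OD4, List.mem_cons, List.not_mem_nil, or_false] at hJ
  rcases hJ with rfl | rfl
  · exact ⟨1, [], rfl, rfl⟩
  · exact ⟨0, [2, 3], rfl, rfl⟩

theorem map_eq_of_sq_eq_one (φ : K →+* K) {z : K} (hz : z ^ 2 = 1) : φ z = z := by
  rcases sq_eq_one_iff.1 hz with rfl | rfl <;> simp

theorem thetaD4_range (hA : AddFact chevD4 K) {q : ℕ} (hq : 1 ≤ q) (φ : K →+* K) (h1 : ∀ t, φ t = t ^ q)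
    (h2 : ∀ t, (φ ^ 3) t = t) : (thetaD4 hA q).range = chevD4.diagonalSubgroup K ⊓ twistedD4 K q := by
  have hS := torS_of_mem K memD4
  have hR := rootFacts_of_mem memD4
  have hr : chevD4.rank = 4 := by decide +kernel
  apply le_antisymm
  · rintro _ ⟨⟨a, c⟩, rfl⟩
    rw [thetaD4_apply]
    have ha0 : ((a : Kˣ) : K) ≠ 0 := Units.ne_zero _
    have hc0 : (c : K) ≠ 0 := Units.ne_zero _
    have hok := L4_ok hc0 ha0 (pow_ne_zero q hc0) (pow_ne_zero q (pow_ne_zero q hc0))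
    refine ⟨hA.hP_mem_diag hR hok, ?_⟩
    rw [twistedD4_eq hA φ h1 h2]
    have m1 := hA.hJ_mem φ (O := OD4) (J := [1]) (by simp [OD4]) (orthLD4 hA _ (by simp [OD4]))
      (t := ((a : Kˣ) : K)) (by simpa [h1] using FixU.pow_eq hq a.2)
    have m3 := hA.hJ_mem φ (O := OD4) (J := [0, 2, 3]) (by simp [OD4]) (orthLD4 hA _ (by simp [OD4]))
      (t := (c : K)) (h2 _)
    have e : hA.hP (L4 (c : K) ((a : Kˣ) : K) ((c : K) ^ q) (((c : K) ^ q) ^ q)) =
        hA.hJ φ [1] ((a : Kˣ) : K) * hA.hJ φ [0, 2, 3] (c : K) := by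
      have e1 : hA.hJ φ [1] ((a : Kˣ) : K) * hA.hJ φ [0, 2, 3] (c : K) =
          hA.hP [(1, ((a : Kˣ) : K)), (0, (c : K)), (2, (c : K) ^ q), (3, ((c : K) ^ q) ^ q)] := by
        simp [AddFact.hP, h1]
      rw [e1]
      apply hA.hP_eq_of hS hok
      · intro p hp
        simp only [List.mem_cons, List.not_mem_nil, or_false] at hp
        rw [hr]
        rcases hp with rfl | rfl | rfl | rfl <;> simp [*]
      · intro s _
        rw [chiP_L4]
        simp only [chiP, List.map_cons, List.map_nil, List.prod_cons, List.prod_nil]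
        ring
    rw [e]
    exact mul_mem m1 m3
  · rintro g ⟨hgH, hgG⟩
    obtain ⟨G⟩ := graphConjD40 hA
    have hfix : sigmaT G φ g = g := by
      rw [twistedD4_eq hA φ h1 h2] at hgG
      exact twG_fixed G φ graphFactsD40 hR rankD4 (orthLD4 hA) cycD4 hgG
    obtain ⟨c, hc, rfl⟩ := (hGen_of_mem K memD4).exists_hP hA hgH
    have hrange : List.range chevD4.rank = [0, 1, 2, 3] := by decide +kernel
    rw [hrange] at hfix ⊢
    have eL : ([0, 1, 2, 3].map fun i => (i, c i)) = L4 (c 0) (c 1) (c 2) (c 3) := rfl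
    rw [eL] at hfix ⊢
    have n0 := hc 0 (by rw [hr]; norm_num)
    have n1 := hc 1 (by rw [hr]; norm_num)
    have n2 := hc 2 (by rw [hr]; norm_num)
    have n3 := hc 3 (by rw [hr]; norm_num)
    generalize c 0 = x0 at *
    generalize c 1 = x1 at *
    generalize c 2 = x2 at *
    generalize c 3 = x3 at *
    have p0 := (map_ne_zero φ).2 n0
    have p1 := (map_ne_zero φ).2 n1
    have p2 := (map_ne_zero φ).2 n2
    have p3 := (map_ne_zero φ).2 n3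
    have hok := L4_ok n0 n1 n2 n3
    rw [sigmaT_hP G φ graphFactsD40 hR (fun p hp => (hok p hp).1)] at hfix
    have e1 : hA.hP ((L4 x0 x1 x2 x3).map fun p => ([2, 1, 3, 0].getD p.1 0, φ p.2)) =
        hA.hP (L4 (φ x3) (φ x1) (φ x0) (φ x2)) := by
      apply hA.hP_eq_of hS _ (L4_ok p3 p1 p0 p2)
      · intro s _
        rw [chiP_L4]
        simp only [chiP, L4, List.map_cons, List.map_nil, List.prod_cons, List.prod_nil, List.getD_cons_zero,
          List.getD_cons_succ]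
        ring
      · intro p hp
        simp only [L4, List.map_cons, List.map_nil, List.mem_cons, List.not_mem_nil, or_false, List.getD_cons_zero,
          List.getD_cons_succ] at hp
        rw [hr]
        rcases hp with rfl | rfl | rfl | rfl <;> simp [*]
    rw [e1] at hfix
    have e2 : hA.hP (L4 (φ x3 / x0) (φ x1 / x1) (φ x0 / x2) (φ x2 / x3)) = 1 := by
      have := L4_mul hA (div_ne_zero p3 n0) (div_ne_zero p1 n1) (div_ne_zero p0 n2) (div_ne_zero p2 n3) n0 n1 n2 n3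
      rw [div_mul_cancel₀ _ n0, div_mul_cancel₀ _ n1, div_mul_cancel₀ _ n2, div_mul_cancel₀ _ n3, hfix] at this
      exact (mul_eq_right.1 this.symm)
    obtain ⟨k1, k0, k2, k3, kp⟩ := kerD4 hA (div_ne_zero p3 n0) (div_ne_zero p1 n1) (div_ne_zero p0 n2)
      (div_ne_zero p2 n3) e2
    set z0 := φ x3 / x0 with hz0
    set z2 := φ x0 / x2 with hz2
    set z3 := φ x2 / x3 with hz3
    have m0 : z0 ≠ 0 := div_ne_zero p3 n0
    have m3 : z3 ≠ 0 := div_ne_zero p2 n3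
    have f1 : φ x1 = x1 := by rwa [div_eq_one_iff_eq n1] at k1
    have f0 : φ x0 = z2 * x2 := by rw [hz2, div_mul_cancel₀ _ n2]
    have f2 : φ x2 = z3 * x3 := by rw [hz3, div_mul_cancel₀ _ n3]
    have g2 : z2 = z3 * z0 := by
      calc z2 = (z0 * z2 * z3) * (z0 ^ 2 * z3 ^ 2) * z2 := by rw [kp, k0, k3]; ring
        _ = (z0 * z2 * z3) ^ 2 * (z3 * z0) := by ring
        _ = _ := by rw [kp]; ring
    have e3 : hA.hP (L4 x0 x1 x2 x3) = hA.hP (L4 (x0 * z3) (x1 * 1) (x2 * z0) (x3 * (z3 * z0))) := by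
      rw [L4_mul hA n0 n1 n2 n3 m3 one_ne_zero m0 (mul_ne_zero m3 m0), zetaD4 hA k3 k0, mul_one]
    rw [e3, mul_one]
    refine ⟨(⟨Units.mk0 x1 n1, FixU.mem_of hq (by simpa [h1] using f1)⟩,
      Units.mk0 (x0 * z3) (mul_ne_zero n0 m3)), ?_⟩
    rw [thetaD4_apply]
    simp only [Units.val_mk0]
    have a1 : φ (x0 * z3) = x2 * z0 := by
      rw [map_mul, map_eq_of_sq_eq_one φ k3, f0, g2]
      calc z3 * z0 * x2 * z3 = x2 * z0 * z3 ^ 2 := by ring
        _ = _ := by rw [k3, mul_one]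
    have a2 : φ (x2 * z0) = x3 * (z3 * z0) := by
      rw [map_mul, map_eq_of_sq_eq_one φ k0, f2]
      ring
    rw [← h1, a1, ← h1, a2]

theorem thetaD4_injective (hA : AddFact chevD4 K) {q : ℕ} (φ : K →+* K) (h1 : ∀ t, φ t = t ^ q) :
    Function.Injective (thetaD4 hA q) := by
  rw [injective_iff_map_eq_one]
  rintro ⟨a, c⟩ h
  rw [thetaD4_apply] at h
  obtain ⟨k1, k0, _, _, kp⟩ := kerD4 hA c.ne_zero (a : Kˣ).ne_zero (pow_ne_zero q c.ne_zero)
    (pow_ne_zero q (pow_ne_zero q c.ne_zero)) h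
  have e : (c : K) ^ q = c := by rw [← h1]; exact map_eq_of_sq_eq_one φ k0
  rw [e, e] at kp
  have c1 : (c : K) = 1 := by
    calc (c : K) = (c : K) * (c : K) * (c : K) * ((c : K) ^ 2)⁻¹ := by field_simp
      _ = 1 := by rw [kp, k0]; simp
  exact Prod.ext (Subtype.ext (Units.ext k1)) (Units.ext c1)

variable [Fintype K]

theorem card_diag_D4 {q : ℕ} (hq : IsPrimePow q) (hK : Fintype.card K = q ^ 3) :
    Nat.card ↥(chevD4.diagonalSubgroup K ⊓ twistedD4 K q) = (q - 1) ^ 2 * (q ^ 2 + q + 1) := by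
  have b := bundle_of_mem K memD4
  have hA := b.hA
  obtain ⟨φ, h1, h2, _⟩ := exists_frob hq hK
  have hq2 : 2 ≤ q := hq.two_le
  rw [← thetaD4_range hA (by omega) φ h1 h2]
  have hU : Nat.card Kˣ = (q ^ 2 + q + 1) * (q - 1) := by
    classical
    rw [Nat.card_eq_fintype_card, Fintype.card_units, hK]
    obtain ⟨r, rfl⟩ : ∃ r, q = r + 1 := ⟨q - 1, by omega⟩
    simp only [Nat.add_sub_cancel]
    have : (r + 1) ^ 3 = ((r + 1) ^ 2 + (r + 1) + 1) * r + 1 := by ring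
    omega
  have hF : Nat.card (FixU K q) = q - 1 := by
    rw [IsCyclic.card_powMonoidHom_ker, hU]
    exact Nat.gcd_eq_right (Dvd.intro_left _ rfl)
  rw [Nat.card_congr (MonoidHom.ofInjective (thetaD4_injective hA φ h1)).symm.toEquiv, Nat.card_prod, hF, hU]
  ring

end Cfsg.Agent.Lib.Helper23
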