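import Cfsg.Agent.Lib.Helper23.TwAutD4
import Cfsg.Agent.Lib.Helper23.AutNum
import Cfsg.Agent.Lib.Helper45.AutInst
import Cfsg.Agent.S1106

/-!
# `|Out ³D₄(q)| = 3f`
-/

set_option autoImplicit false

namespace Cfsg.Agent.Lib.Helper23.TwAut

open Cfsg.Lie Matrix Cfsg.Agent.Lib.Helper23 Cfsg.Agent.Lib.Helper22 Cfsg.Agent.Lib.Helper45
open Cfsg.Agent.Lib.Helper45.AutAbs

/-- the nodes of `³D₄` -/
def orbD4' : Fin 2 → List ℕ := ![[1], [0, 2, 3]]

theorem orbD4'_mem : ∀ i, orbD4' i ∈ orbsD4 := by decide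
theorem orbD4'_surj : ∀ J ∈ orbsD4, ∃ i, orbD4' i = J := by decide
theorem orbD4'_inj : Function.Injective orbD4' := by decide

theorem d4_cart1 : ∀ j ∈ [0, 2, 3], chevD4.cartan 1 (sgR chevD4 true j) = -1 := by decide +kernel

theorem card_fix_all {K : Type*} [Field K] [Fintype K] {ψ : K →+* K} (h : ∀ t, ψ t = t) :
    Nat.card {x : K // ψ x = x} = Fintype.card K := by
  rw [Nat.card_congr (Equiv.subtypeUnivEquiv h), Nat.card_eq_fintype_card]

theorem cube_sub_one (q : ℕ) (hq : 1 ≤ q) : q ^ 3 - 1 = (q - 1) * (q ^ 2 + q + 1) := by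
  obtain ⟨m, rfl⟩ : ∃ m, q = m + 1 := ⟨q - 1, by omega⟩
  have : (m + 1) ^ 3 = (m + 1 - 1) * ((m + 1) ^ 2 + (m + 1) + 1) + 1 := by
    simp only [Nat.add_sub_cancel]; ring
  omega

variable {K : Type*} [Field K] [Fintype K]

theorem card_out_D4 (p f : ℕ) [Fact p.Prime] [CharP K p] (hK : Fintype.card K = p ^ (3 * f))
    (hf : 1 ≤ f)
    (hS : ∃ P : Sylow p ↥(twistedD4 K (p ^ f)), (P : Subgroup ↥(twistedD4 K (p ^ f))) =
      (chevD4.posUnipotent K).subgroupOf (twistedD4 K (p ^ f))) :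
    Nat.card (Cfsg.Out ↥(twistedD4 K (p ^ f))) = 3 * f := by
  have hp : p.Prime := Fact.out
  set q := p ^ f with hqdef
  have hq : IsPrimePow q := ⟨p, f, hp.prime, hf, rfl⟩
  have hq1 : 1 < q := hq.one_lt
  have hK' : Fintype.card K = q ^ 3 := by rw [hK, hqdef, ← pow_mul, mul_comm]
  obtain ⟨σ, φ, hφ, h3, C⟩ := d4_twC hq hK'
  have hSyl : ∀ θ : ↥(twistedD4 K q) ≃* ↥(twistedD4 K q), ∃ g,
      Mp (θ.trans (cj g)) (sT (twistedD4 K q) (chevD4.posUnipotent K))
        (sT (twistedD4 K q) (chevD4.posUnipotent K)) := by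
    intro θ
    obtain ⟨P, hP⟩ := hS
    have := mp_of_sylow P θ
    rw [hP] at this
    exact this
  obtain ⟨P, n0, PS⟩ := C.psys orbD4' orbD4'_mem orbD4'_surj orbD4'_inj hSyl
  have hA := (bundle_of_mem K Cfsg.Agent.Lib.Helper45.memD4).hA
  have TS := C.tsys orbD4' orbD4'_mem (fun i j => i = 0 ∧ j = 1) 1 (by
      rintro i j ⟨rfl, rfl⟩
      refine ⟨fun t _ => h3 t, fun a ha0 ha u => ?_⟩
      have ha' : φ a = a := ha
      have c0 := d4_cart1 0 (by simp)
      have c2 := d4_cart1 2 (by simp)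
      have c3 := d4_cart1 3 (by simp)
      show AddFact.xJχ _ φ (chiJ chevD4 φ [1] a) true [0, 2, 3] u = AddFact.xJ _ φ true [0, 2, 3] (a⁻¹ * u)
      simp only [AddFact.xJχ, AddFact.xJ_cons, AddFact.xJ_nil, chiJ, c0, c2, c3, _root_.zpow_neg_one, mul_one,
        map_mul, map_inv₀, ha'])
    (by
      intro i
      fin_cases i
      · exact Relation.ReflTransGen.single ⟨rfl, rfl⟩
      · exact Relation.ReflTransGen.refl)
    h3
  have c1 : Nat.card {x : K // (φ ^ (orbD4' 0).length) x = x} = q := by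
    have : ∀ x : K, (φ ^ (orbD4' 0).length) x = x ↔ x ^ q = x := fun x => by
      show φ x = x ↔ _
      rw [hφ]
    rw [Nat.card_congr (Equiv.subtypeEquivRight this)]
    exact card_fix_frob hq1 (by norm_num) hK'
  have c2 : Nat.card {x : K // (φ ^ (orbD4' 1).length) x = x} = q ^ 3 := by
    rw [← hK']
    exact card_fix_all h3
  have rig : ∀ (θ : ↥(twistedD4 K q) ≃* ↥(twistedD4 K q)) (π : Equiv.Perm (Fin 2)),
      (∀ i, Mp θ (C.XS true (orbD4'_mem i)) (C.XS true (orbD4'_mem (π i)))) → π = 1 := by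
    intro θ π h
    have h0 : π 0 = 0 := by
      by_contra hne
      have h1 : π 0 = 1 := by
        have := Fin.exists_fin_two.1 ⟨π 0, rfl⟩
        omega
      have h2 := mp_card (h 0)
      rw [C.card_XS, C.card_XS, h1, c1, c2] at h2
      have : q ^ 1 < q ^ 3 := Nat.pow_lt_pow_right hq1 (by norm_num)
      rw [pow_one] at this
      omega
    ext i
    fin_cases i
    · simp [h0]
    · have h1 : π 1 ≠ 0 := fun h1 => by
        have := π.injective (h1.trans h0.symm)
        exact absurd this (by decide)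
      have : π 1 = 1 := by
        have := Fin.exists_fin_two.1 ⟨π 1, rfl⟩
        omega
      simp [this]
  have main := C.card_out_tw orbD4' orbD4'_mem orbD4'_surj 1 h3
    (fun τ t => by rw [hφ, hφ, map_pow])
    (by
      intro a ha
      have a0 := (ha 0).2
      have a1 := (ha 1).2
      refine ⟨fun j => if j = 1 then Units.mk0 (a 0) a0 else if j = 0 then Units.mk0 (a 1) a1
        else if j = 2 then Units.mk0 (φ (a 1)) ((map_ne_zero φ).2 a1)
        else Units.mk0 (φ (φ (a 1))) ((map_ne_zero φ).2 ((map_ne_zero φ).2 a1)), fun i => ?_⟩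
      fin_cases i
      · show DComp φ _ [1] (a 0)
        simp [DComp]
      · show DComp φ _ [0, 2, 3] (a 1)
        simp [DComp])
    (C.hstd_of PS TS rig)
  rw [card_param, Fin.prod_univ_two, c1, c2, card_ringAut p (3 * f) hK,
    Cfsg.Agent.S1106.result hq hK'] at main
  have e1 : q ^ 3 - 1 = (q - 1) * (q ^ 2 + q + 1) := cube_sub_one q (by omega)
  rw [e1] at main
  have hpos : 0 < (q - 1) ^ 2 * (q ^ 2 + q + 1) := by
    have : 0 < q - 1 := by omega
    positivity
  have e2 : (3 * f) * ((q - 1) ^ 2 * (q ^ 2 + q + 1)) =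
      Nat.card (Cfsg.Out ↥(twistedD4 K q)) * ((q - 1) ^ 2 * (q ^ 2 + q + 1)) := by
    rw [← main]; ring
  exact (Nat.eq_of_mul_eq_mul_right hpos e2).symm

end Cfsg.Agent.Lib.Helper23.TwAut
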