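import Cfsg.Agent.Lib.Helper23.TwCore
import Cfsg.Agent.Lib.Helper23.TwPerf
import Cfsg.Agent.Lib.Helper45.TwistSetup
import Cfsg.Agent.Lib.Helper45.AutChev2

/-!
# Automorphisms of twisted groups: the fundamental root subgroups `X_{±J}`
-/

set_option autoImplicit false

namespace Cfsg.Agent.Lib.Helper23.TwAut

open Cfsg.Lie Matrix Cfsg.Agent.Lib.Helper23 Cfsg.Agent.Lib.Helper22 Cfsg.Agent.Lib.Helper45

variable {D : ChevalleyDatum} {K : Type*} [Field K]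

/-- `U` or `V` -/
def UV (D : ChevalleyDatum) (K : Type*) [Field K] (sg : Bool) : Subgroup (GL D.Idx K) :=
  if sg then D.posUnipotent K else D.negUnipotent K

section uniq
variable (b : Bundle D K)
include b

theorem X_sgR_mem {i : ℕ} (hi : i < D.rank) (sg : Bool) (t : K) : b.hA.X (sgR D sg i) t ∈ UV D K sg := by
  cases sg
  · exact b.hA.X_mem_neg (b.hR.neg_of_pos (b.hR.simple_pos hi)) t
  · exact b.hA.X_mem_pos (b.hR.simple_pos hi) t

theorem UV_inf {y : GL D.Idx K} (h1 : y ∈ D.posUnipotent K) (h2 : y ∈ D.negUnipotent K) : y = 1 := by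
  have : y ∈ D.borelSubgroup K ⊓ D.negUnipotent K := ⟨AddFact.pos_le_borel h1, h2⟩
  rwa [b.hTri.BV, Subgroup.mem_bot] at this

theorem head_zero {sg : Bool} {i : ℕ} (hi : i < D.rank) {a : K} {y : GL D.Idx K} (hy : y ∈ UV D K sg)
    (hc : b.hA.CommI1 i y) (h : b.hA.X (sgR D sg i) a = y) : a = 0 := by
  obtain ⟨ε, e1, _, e3⟩ := b.hA.nn_conj b.hR b.hN hi
  have hlt := AddFact.sgR_lt b.hR hi sg
  have h2 := e3 _ hlt a
  rw [h] at h2
  have h3 : b.hA.nn i * y * (b.hA.nn i)⁻¹ = y := by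
    have := hc.comm_nG 1
    rw [AddFact.nn, this.eq]; group
  rw [h3] at h2
  have h4 : y = 1 := by
    cases sg
    · apply UV_inf b _ hy
      rw [h2, sgR_false, b.hR.refl_neg_simple hi]
      exact b.hA.X_mem_pos (b.hR.simple_pos hi) _
    · apply UV_inf b hy
      rw [h2, sgR_true, RootFacts.refl_simple]
      exact b.hA.X_mem_neg (b.hR.neg_of_pos (b.hR.simple_pos hi)) _
  rw [h4] at h
  exact b.hA.X_eq_one b.hTri hlt h

theorem prod_mem_UV {J : List ℕ} (hJ : ∀ i ∈ J, i < D.rank) (sg : Bool) (c : ℕ → K) :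
    (J.map fun i => b.hA.X (sgR D sg i) (c i)).prod ∈ UV D K sg := by
  apply Subgroup.list_prod_mem
  intro x hx
  obtain ⟨j, hj, rfl⟩ := List.mem_map.1 hx
  exact X_sgR_mem b (hJ j hj) sg _

omit b in
theorem prod_commI1 (hA : AddFact D K) {i : ℕ} {J : List ℕ} (hO : ∀ j ∈ J, hA.Orth i j) (sg : Bool)
    (c : ℕ → K) : hA.CommI1 i (J.map fun i => hA.X (sgR D sg i) (c i)).prod := by
  induction J with
  | nil => exact AddFact.CommI1.one i
  | cons j J ih =>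
    rw [List.map_cons, List.prod_cons]
    exact AddFact.CommI1.mul (fun sg' u => hO j (by simp) sg' sg u _) (ih fun k hk => hO k (by simp [hk]))

omit b in
theorem commI1_inv (hA : AddFact D K) {i : ℕ} {g : GL D.Idx K} (h : hA.CommI1 i g) : hA.CommI1 i g⁻¹ :=
  fun sg t => (h sg t).inv_right

/-- uniqueness of the coordinates on an orbit -/
theorem prod_inj {J : List ℕ} (hJ : ∀ i ∈ J, i < D.rank) (hO : J.Pairwise b.hA.Orth) (sg : Bool)
    (c c' : ℕ → K)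
    (h : (J.map fun i => b.hA.X (sgR D sg i) (c i)).prod = (J.map fun i => b.hA.X (sgR D sg i) (c' i)).prod) :
    ∀ i ∈ J, c i = c' i := by
  induction J with
  | nil => simp
  | cons i J ih =>
    rw [List.pairwise_cons] at hO
    have hi : i < D.rank := hJ i (by simp)
    have hJ' : ∀ k ∈ J, k < D.rank := fun k hk => hJ k (by simp [hk])
    rw [List.map_cons, List.prod_cons, List.map_cons, List.prod_cons] at h
    set R := (J.map fun i => b.hA.X (sgR D sg i) (c i)).prod with hR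
    set R' := (J.map fun i => b.hA.X (sgR D sg i) (c' i)).prod with hR'
    have h1 : b.hA.X (sgR D sg i) (c i - c' i) = R' * R⁻¹ := by
      rw [sub_eq_add_neg, add_comm, b.hA.X_add, ← b.hA.X_inv]
      rw [inv_mul_eq_iff_eq_mul, ← mul_assoc, ← h]
      group
    have h2 : c i - c' i = 0 := head_zero b hi
      (mul_mem (prod_mem_UV b hJ' sg c') (inv_mem (prod_mem_UV b hJ' sg c)))
      ((prod_commI1 b.hA hO.1 sg c').mul (commI1_inv b.hA (prod_commI1 b.hA hO.1 sg c))) h1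
    have h3 : c i = c' i := sub_eq_zero.1 h2
    rw [h3] at h
    have h4 := mul_left_cancel h
    intro j hj
    rcases List.mem_cons.1 hj with rfl | hj
    · exact h3
    · exact ih hJ' hO.2 h4 j hj

end uniq

/-- the word of `x_J(t)` -/
def pJ (D : ChevalleyDatum) (φ : K →+* K) (sg : Bool) : List ℕ → K → List (ℕ × K)
  | [], _ => []
  | i :: J, t => (sgR D sg i, t) :: pJ D φ sg J (φ t)

theorem pJ_fst (φ : K →+* K) (sg : Bool) (J : List ℕ) (t : K) :
    (pJ D φ sg J t).map Prod.fst = J.map (sgR D sg) := by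
  induction J generalizing t with
  | nil => rfl
  | cons i J ih => simp [pJ, ih]

theorem xJ_eq_W (hA : AddFact D K) (φ : K →+* K) (sg : Bool) (J : List ℕ) (t : K) :
    hA.xJ φ sg J t = hA.W (pJ D φ sg J t) := by
  induction J generalizing t with
  | nil => rfl
  | cons i J ih => rw [AddFact.xJ_cons, pJ, W_cons, ih]

/-- the context: a twisted group in the sense of `TwSetup`, described by orbits -/
structure TwC (b : Bundle D K) (σ : GL D.Idx K → GL D.Idx K) (ρ ρ' : ℕ → ℕ) (c : ℕ → K → K)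
    (O : List (List ℕ)) (cert : List (List ℕ × List (List ℕ))) (G1 : Subgroup (GL D.Idx K))
    (φ : K →+* K) : Prop where
  X : TwSetup D K b σ ρ ρ' c O cert G1
  hG : G1 = b.hA.twG φ O
  orth : ∀ J ∈ O, J.Pairwise b.hA.Orth
  comp : ∀ J ∈ O, ∀ (sg : Bool) (τ : ℕ → K), Compat c ρ' (J.map (sgR D sg)) τ →
    ∃ t, (φ ^ J.length) t = t ∧ b.hA.W (wL (J.map (sgR D sg)) τ) = b.hA.xJ φ sg J t
  trans : ∀ J ∈ O, ∀ i ∈ J, ∀ j ∈ J, ∃ k, ρ^[k] (D.simple i) = D.simple j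
  cov : ∀ i < D.rank, ∃ J ∈ O, i ∈ J
  long : ∃ L₀, TwLong D O L₀ ∧
    ∀ J ∈ O, ((J.map (sgR D false)).map (wact D L₀.flatten)).Perm (J.map (sgR D true))
  orb : ∃ m, TwOrb D O m
  flip : ∀ J ∈ O, ((J.map (sgR D true)).map (wact D J)).Perm (J.map (sgR D false))
  stay : ∀ J ∈ O, ∀ r < D.nroots, D.IsPosRoot r → r ∉ J.map D.simple → D.IsPosRoot (wact D J r)
  cart : ∀ J ∈ O, ∀ i ∈ J, ∀ sg, D.cartan i (sgR D sg i) = AddFact.e2 sg
  disj : ∀ J ∈ O, ∀ J' ∈ O, J ≠ J' → ∀ i ∈ J, ∀ j ∈ J', i ≠ j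

namespace TwC

variable {b : Bundle D K} {σ : GL D.Idx K → GL D.Idx K} {ρ ρ' : ℕ → ℕ} {c : ℕ → K → K}
  {O : List (List ℕ)} {cert : List (List ℕ × List (List ℕ))} {G1 : Subgroup (GL D.Idx K)}
  {φ : K →+* K} (C : TwC b σ ρ ρ' c O cert G1 φ)
include C

theorem rank {J : List ℕ} (hJ : J ∈ O) : ∀ i ∈ J, i < D.rank := C.X.hT.orb.rank J hJ

theorem block {J : List ℕ} (hJ : J ∈ O) (sg : Bool) : BlockOK D ρ ρ' (J.map (sgR D sg)) := by
  cases sg
  · exact C.X.hT.negB J hJ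
  · exact C.X.hT.posB J hJ

theorem block_comm {J : List ℕ} (hJ : J ∈ O) (sg : Bool) :
    ∀ a ∈ J.map (sgR D sg), ∀ a' ∈ J.map (sgR D sg), ∀ t u : K, Commute (b.hA.X a t) (b.hA.X a' u) :=
  commute_of_commOK C.X.hD b.hA (C.block hJ sg).comm (C.block hJ sg).lt (C.block hJ sg).lt

theorem fix {g : GL D.Idx K} (hg : g ∈ G1) : σ g = g := (C.X.fixBN.G1_fix hg).2

theorem xJ_mem {J : List ℕ} (hJ : J ∈ O) (sg : Bool) {t : K} (ht : (φ ^ J.length) t = t) :
    b.hA.xJ φ sg J t ∈ G1 := by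
  rw [C.hG]; exact b.hA.xJ_mem φ hJ sg ht

/-- **F1**: an element of `G¹` which is a product over the orbit `±J` is some `x_{±J}(t)` -/
theorem eq_xJ_of_mem {J : List ℕ} (hJ : J ∈ O) (sg : Bool) (τ : ℕ → K)
    (h : b.hA.W (wL (J.map (sgR D sg)) τ) ∈ G1) :
    ∃ t, (φ ^ J.length) t = t ∧ b.hA.W (wL (J.map (sgR D sg)) τ) = b.hA.xJ φ sg J t := by
  apply C.comp J hJ sg τ
  have hβ := C.block hJ sg
  have h1 := C.fix h
  rw [sigma_block b C.X.hσ hβ.lt hβ.perm (C.block_comm hJ sg) hβ.inv', W_wL_map, W_wL_map] at h1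
  have h2 := prod_inj b (C.rank hJ) (C.orth J hJ) sg _ _ h1
  intro a ha
  obtain ⟨i, hi, rfl⟩ := List.mem_map.1 ha
  exact (h2 i hi).symm

/-- **CONJ** -/
theorem conj_xJ {m : GL D.Idx K} (hm : m ∈ G1) {π : ℕ → ℕ} (hπ : Acts D K m π) {J J' : List ℕ}
    (hJ : J ∈ O) (hJ' : J' ∈ O) {sg sg' : Bool}
    (hp : ((J.map (sgR D sg)).map π).Perm (J'.map (sgR D sg'))) {t : K} (ht : (φ ^ J.length) t = t) :
    ∃ t', (φ ^ J'.length) t' = t' ∧ m * b.hA.xJ φ sg J t * m⁻¹ = b.hA.xJ φ sg' J' t' := by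
  have hmem : m * b.hA.xJ φ sg J t * m⁻¹ ∈ G1 := mul_mem (mul_mem hm (C.xJ_mem hJ sg ht)) (inv_mem hm)
  have hlt : ∀ p ∈ pJ D φ sg J t, p.1 < D.nroots := by
    intro p hp'
    apply (C.block hJ sg).lt
    rw [← pJ_fst φ sg J t]
    exact List.mem_map_of_mem hp'
  obtain ⟨w', h1, h2⟩ := conj_W_acts b hπ (pJ D φ sg J t) hlt
  rw [pJ_fst] at h1
  have hnd : (w'.map Prod.fst).Nodup := by
    rw [h1]; exact hp.nodup_iff.2 (C.block hJ' sg').nodup
  obtain ⟨τ, hτ⟩ := exists_wL_of_nodup w' hnd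
  rw [h1] at hτ
  have h3 : b.hA.W (wL ((J.map (sgR D sg)).map π) τ) = b.hA.W (wL (J'.map (sgR D sg')) τ) := by
    apply W_wL_perm b hp
    intro a ha a' ha'
    exact C.block_comm hJ' sg' a (hp.mem_iff.1 ha) a' (hp.mem_iff.1 ha')
  rw [xJ_eq_W, h2, hτ, h3] at hmem ⊢
  exact C.eq_xJ_of_mem hJ' sg' τ hmem

end TwC

end Cfsg.Agent.Lib.Helper23.TwAut
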