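import Cfsg.Agent.Lib.Helper23.TwE6

set_option autoImplicit false

namespace Cfsg.Agent.Lib.Helper23

open Cfsg.Lie Matrix
open scoped commutatorElement

variable {K : Type*} [Field K] [Fintype K]

theorem goodE6 (hA : AddFact chevE6 K) {q : ℕ} (hq : IsPrimePow q) (hK : Fintype.card K = q ^ 2)
    (φ : K →+* K) (h1 : ∀ t, φ t = t ^ q) (h2 : ∀ t, (φ ^ 2) t = t) (h3 : Even q → CharP K 2)
    (t : K) (ht : φ t = t) : hA.X (chevE6.simple 3) t ∈ ⁅hA.twG φ OE6, hA.twG φ OE6⁆ := by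
  have b := bundle_of_mem K memE6
  have hS := torS_of_mem K memE6
  have h25 := commAll_of_mem K memE6
  have hq2 : 2 ≤ q := hq.two_le
  by_cases hq3 : 3 ≤ q
  · -- torus argument
    obtain ⟨x, hx0, hx⟩ := exists_pow_ne_one (K := K) (m := q + 1) (by omega) (by rw [hK]; zify [show 1 ≤ q ^ 2 by nlinarith]; nlinarith)
    have hμ : (φ ^ [1].length) (x ^ (q + 1)) = x ^ (q + 1) := by
      have e := h2 x
      rw [pow_two, RingHom.mul_def, RingHom.comp_apply, h1, h1] at e
      rw [List.length_singleton, pow_one, h1, ← pow_mul, add_mul, one_mul, pow_add, pow_mul, e, pow_add, pow_one,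
        mul_comm]
    exact hA.X_mem_comm_of_torus φ b.hR hS (O := OE6) (a := 3) (by simp [OE6]) (by decide +kernel) (J := [1])
      (by simp [OE6]) (rankE6 _ (by simp [OE6])) (List.pairwise_singleton _ _) true (Or.inr rfl)
      (by simpa using moveE6.2.2.2) (pow_ne_zero _ hx0) hμ (by simpa [normN] using hx) ht
  · have hq' : q = 2 := by omega
    have : CharP K 2 := h3 (by rw [hq']; decide)
    obtain ⟨e1, e2, e3, t1, t2, t3, t4, t5, t6, t7, t8⟩ := heisE6
    refine hA.X_mem_comm_of_char2 φ b.hR b.hN (O := OE6) (a := 3) (by simp [OE6]) (by decide +kernel) (J := [2, 4])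
      (by simp [OE6]) (rankE6 _ (by simp [OE6])) (orthLE6 hA _ (by simp [OE6])) ?_
      (tr2_surj (by omega) hK φ h1 h2) true ht
    rw [e1, e2, e3]
    refine ⟨hA.heis_of_term1 h25 t1 t5 t7, ?_, ?_, hA.commute_of_term0 h25 t5, hA.commute_of_term0 h25 t7,
      hA.heis_of_term1 h25 t4 t6 t8, ?_, ?_, hA.commute_of_term0 h25 t6, hA.commute_of_term0 h25 t8, trivial⟩
    · intro T' hT'
      rw [List.mem_singleton.1 hT']
      exact hA.commute_of_term0 h25 t2
    · intro b' hb'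
      rw [List.mem_singleton.1 hb']
      exact hA.commute_of_term0 h25 t3
    · simp
    · simp

theorem perfectE6 {q : ℕ} (hq : IsPrimePow q) (hK : Fintype.card K = q ^ 2) :
    commutator ↥(twistedE6 K q) = ⊤ := by
  have b := bundle_of_mem K memE6
  have hA := b.hA
  have hS := torS_of_mem K memE6
  obtain ⟨φ, h1, h2, h3⟩ := exists_frob hq hK
  have hq2 : 2 ≤ q := hq.two_le
  rw [twistedE6_eq hA φ h1 h2]
  apply subgroup_commutator_eq_top
  have good := goodE6 hA hq hK φ h1 h2 h3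
  have hs3 : chevE6.simple 3 < chevE6.nroots := b.hR.simple_lt (by decide +kernel)
  have tr := fun L hL => hA.goodF_wact φ b.hR b.hN rankE6 (orthLE6 hA) hs3 good (L := L) hL
  obtain ⟨m1, m2, m3, _⟩ := moveE6
  obtain ⟨μ, hμ0, hμ2⟩ := exists_pow_ne_one (K := K) (m := 2) (by omega)
    (by rw [hK]; zify [show 1 ≤ q ^ 2 by nlinarith]; nlinarith)
  conv_lhs => rw [AddFact.twG]
  rw [Subgroup.closure_le]
  rintro g ⟨J, hJ, sg, t, ht, rfl⟩
  have hJ' := hJ
  simp only [OE6, List.mem_cons, List.not_mem_nil, or_false] at hJ'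
  rcases hJ' with rfl | rfl | rfl | rfl
  · have ht' : φ t = t := by simpa using ht
    rw [AddFact.xJ_cons, AddFact.xJ_nil, mul_one]
    cases sg
    · rw [← m3]; exact tr _ (by simp [OE6]) t ht'
    · rw [← m2]; exact tr _ (by simp [OE6]) t ht'
  · have ht' : φ t = t := by simpa using ht
    rw [AddFact.xJ_cons, AddFact.xJ_nil, mul_one]
    cases sg
    · rw [← m1]; exact tr _ (by simp [OE6]) t ht'
    · exact good t ht'
  · exact hA.xJ_mem_comm φ b.hR hS hJ (rankE6 _ hJ) (orthLE6 hA _ hJ) (cartE6 _ hJ) hμ0 (h2 μ) hμ2 sg ht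
  · exact hA.xJ_mem_comm φ b.hR hS hJ (rankE6 _ hJ) (orthLE6 hA _ hJ) (cartE6 _ hJ) hμ0 (h2 μ) hμ2 sg ht

theorem coreE6 {q : ℕ} (hq : IsPrimePow q) (hK : Fintype.card K = q ^ 2) :
    ((chevE6.borelSubgroup K ⊓ twistedE6 K q).subgroupOf (twistedE6 K q)).normalCore = ⊥ := by
  have b := bundle_of_mem K memE6
  have hA := b.hA
  obtain ⟨φ, h1, h2, _⟩ := exists_frob hq hK
  rw [eq_bot_iff]
  intro k hk
  rw [Subgroup.mem_bot]
  apply Subtype.ext
  apply hA.tw_eq_one_of_conj_mem_borel φ b.hR b.hN b.hT b.hTri (nmon_of_mem K memE6) rankE6 (orthLE6 hA) covE6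
    longE6 orbE6
  intro g hg
  rw [← twistedE6_eq hA φ h1 h2] at hg
  have := hk ⟨g, hg⟩
  rw [Subgroup.mem_subgroupOf] at this
  exact this.1

end Cfsg.Agent.Lib.Helper23
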