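import Cfsg.Agent.Lib.Helper23.TwAutComp
import Cfsg.Agent.Lib.Helper23.TwE6b
import Cfsg.Agent.Lib.Helper45.TwistE6Main

/-!
# The context `TwC` for `²E₆(q)`
-/

set_option autoImplicit false

namespace Cfsg.Agent.Lib.Helper23.TwAut

open Cfsg.Lie Matrix Cfsg.Agent.Lib.Helper23 Cfsg.Agent.Lib.Helper22 Cfsg.Agent.Lib.Helper45

theorem e6_tab1 : ∀ sg : Bool, rhoInvE6 (sgR chevE6 sg 1) = sgR chevE6 sg 1 ∧
    gamE6 (sgR chevE6 sg 1) = 1 ∧ rhoInvE6 (sgR chevE6 sg 3) = sgR chevE6 sg 3 ∧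
    gamE6 (sgR chevE6 sg 3) = 1 ∧
    rhoInvE6 (sgR chevE6 sg 0) = sgR chevE6 sg 5 ∧ rhoInvE6 (sgR chevE6 sg 5) = sgR chevE6 sg 0 ∧
    gamE6 (sgR chevE6 sg 0) = 1 ∧ gamE6 (sgR chevE6 sg 5) = 1 ∧
    rhoInvE6 (sgR chevE6 sg 2) = sgR chevE6 sg 4 ∧ rhoInvE6 (sgR chevE6 sg 4) = sgR chevE6 sg 2 ∧
    gamE6 (sgR chevE6 sg 2) = 1 ∧ gamE6 (sgR chevE6 sg 4) = 1 := by decide +kernel

theorem e6_trans : ∀ J ∈ orbsE6, ∀ i ∈ J, ∀ j ∈ J, ∃ k < 2, rhoE6^[k] (chevE6.simple i) = chevE6.simple j := by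
  decide +kernel

theorem e6_longp : ∀ J ∈ orbsE6, ((J.map (sgR chevE6 false)).map
    (wact chevE6 [[1], [3], [1], [0, 5], [2, 4], [3], [1], [0, 5], [2, 4], [3], [1], [0, 5],
    [2, 4], [3], [1], [0, 5], [2, 4], [3], [1], [0, 5], [2, 4], [3], [0, 5], [2, 4]].flatten)).Perm
      (J.map (sgR chevE6 true)) := by decide +kernel

theorem e6_flip : ∀ J ∈ orbsE6, ((J.map (sgR chevE6 true)).map (wact chevE6 J)).Perm
    (J.map (sgR chevE6 false)) := by decide +kernel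

theorem e6_stay : ∀ J ∈ orbsE6, ∀ r < chevE6.nroots, chevE6.IsPosRoot r → r ∉ J.map chevE6.simple →
    chevE6.IsPosRoot (wact chevE6 J r) := by decide +kernel

theorem e6_disj : ∀ J ∈ orbsE6, ∀ J' ∈ orbsE6, J ≠ J' → ∀ i ∈ J, ∀ j ∈ J', i ≠ j := by decide +kernel

variable {K : Type*} [Field K] [Fintype K]

theorem e6_twC {q : ℕ} (hq : IsPrimePow q) (hK : Fintype.card K = q ^ 2) :
    ∃ (σ : GL chevE6.Idx K → GL chevE6.Idx K) (φ : K →+* K), (∀ t, φ t = t ^ q) ∧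
      (∀ t, (φ ^ 2) t = t) ∧
      TwC (bundle_of_mem K Cfsg.Agent.Lib.Helper45.memE6) σ rhoE6 rhoInvE6
        (fun r t => (gamE6 r : K) * φ t) orbsE6 certE6 (twistedE6 K q) φ := by
  obtain ⟨σ, φ, hφ, X⟩ := e6_setup hq hK
  have h3 : ∀ t, (φ ^ 2) t = t := by
    intro t
    show φ (φ t) = t
    rw [hφ, hφ, ← pow_mul, ← sq, ← hK, FiniteField.pow_card]
  refine ⟨σ, φ, hφ, h3, ?_⟩
  have hA := (bundle_of_mem K Cfsg.Agent.Lib.Helper45.memE6).hA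
  exact
  { X := X
    hG := Cfsg.Agent.Lib.Helper23.twistedE6_eq hA φ hφ h3
    orth := orthLE6 hA
    comp := by
      intro J hJ sg τ hτ
      obtain ⟨a1, a2, a3, a4, a5, a6, a7, a8, a9, a10, a11, a12⟩ := e6_tab1 sg
      simp only [orbsE6, List.mem_cons, List.not_mem_nil, or_false] at hJ
      rcases hJ with rfl | rfl | rfl | rfl
      · exact comp_one hA φ a1 a2 τ hτ
      · exact comp_one hA φ a3 a4 τ hτ
      · exact comp_two hA φ a5 a6 a7 a8 τ hτ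
      · exact comp_two hA φ a9 a10 a11 a12 τ hτ
    trans := fun J hJ i hi j hj => by
      obtain ⟨k, _, e⟩ := e6_trans J hJ i hi j hj
      exact ⟨k, e⟩
    cov := covE6
    long := ⟨_, longE6, e6_longp⟩
    orb := ⟨_, orbE6⟩
    flip := e6_flip
    stay := e6_stay
    cart := cartE6
    disj := e6_disj }

end Cfsg.Agent.Lib.Helper23.TwAut
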