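import Cfsg.Agent.Lib.Helper23.TwHE6b

set_option autoImplicit false

namespace Cfsg.Agent.Lib.Helper23

open Cfsg.Lie Matrix Cfsg.Agent.Lib.Helper22

variable {K : Type*} [Field K]

theorem card_range_mul_card_ker {G H : Type*} [Group G] [Group H] (f : G →* H) :
    Nat.card f.range * Nat.card f.ker = Nat.card G := by
  rw [← Subgroup.index_ker, mul_comm]
  exact Subgroup.card_mul_index f.ker

theorem thetaE6_ker_iff (hA : AddFact chevE6 K) {q : ℕ} (x : FixU K q × FixU K q × Kˣ × Kˣ) :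
    thetaE6 hA q x = 1 ↔ x.1 = 1 ∧ x.2.1 = 1 ∧ x.2.2.2 = x.2.2.1 ^ 2 ∧ x.2.2.1 ^ Nat.gcd 3 (q + 1) = 1 := by
  obtain ⟨a, b, c, d⟩ := x
  rw [thetaE6_apply]
  simp only
  constructor
  · intro h
    obtain ⟨k1, k3, k0, k2, k4, k5⟩ := kerE6 hA c.ne_zero (a : Kˣ).ne_zero d.ne_zero (b : Kˣ).ne_zero
      (pow_ne_zero q d.ne_zero) (pow_ne_zero q c.ne_zero) h
    refine ⟨Subtype.ext (Units.ext k1), Subtype.ext (Units.ext k3), Units.ext (by simpa using k2), ?_⟩
    have c3 : c ^ 3 = 1 := Units.ext (by simpa using k0)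
    have cq : c ^ (q + 1) = 1 := by
      apply Units.ext
      rw [Units.val_pow_eq_pow_val, pow_succ, k5, Units.val_one, ← k0]
      ring
    exact pow_gcd_eq_one.2 ⟨c3, cq⟩
  · rintro ⟨rfl, rfl, rfl, hc⟩
    have c3 : (c : K) ^ 3 = 1 := by
      obtain ⟨m, hm⟩ := Nat.gcd_dvd_left 3 (q + 1)
      have : c ^ 3 = 1 := by
        conv_lhs => rw [hm]
        rw [pow_mul, hc, one_pow]
      simpa using congrArg Units.val this
    have cq : (c : K) ^ (q + 1) = 1 := by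
      obtain ⟨m, hm⟩ := Nat.gcd_dvd_right 3 (q + 1)
      have : c ^ (q + 1) = 1 := by
        conv_lhs => rw [hm]
        rw [pow_mul, hc, one_pow]
      simpa using congrArg Units.val this
    have e1 : (c : K) ^ q = (c : K) ^ 2 := by
      have : (c : K) ^ q * c = (c : K) ^ 2 * c := by
        rw [← pow_succ, cq, ← pow_succ, c3]
      exact mul_right_cancel₀ c.ne_zero this
    have e2 : (((c ^ 2 : Kˣ) : K)) ^ q = c := by
      rw [Units.val_pow_eq_pow_val, ← pow_mul, mul_comm, pow_mul, e1]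
      calc ((c : K) ^ 2) ^ 2 = (c : K) ^ 3 * (c : K) := by ring
        _ = (c : K) := by rw [c3, one_mul]
    rw [e1, e2]
    simpa using zetaE6 hA c3

/-- the kernel of the parametrisation -/
noncomputable def thetaE6KerEquiv (hA : AddFact chevE6 K) (q : ℕ) :
    (thetaE6 hA q).ker ≃ (powMonoidHom (Nat.gcd 3 (q + 1)) : Kˣ →* Kˣ).ker where
  toFun x := ⟨x.1.2.2.1, ((thetaE6_ker_iff hA x.1).1 x.2).2.2.2⟩
  invFun c := ⟨(1, 1, c.1, c.1 ^ 2), (thetaE6_ker_iff hA _).2 ⟨rfl, rfl, rfl, c.2⟩⟩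
  left_inv x := by
    obtain ⟨⟨a, b, c, d⟩, hx⟩ := x
    obtain ⟨h1, h2, h3, _⟩ := (thetaE6_ker_iff hA _).1 hx
    simp only at h1 h2 h3
    subst h1 h2 h3
    rfl
  right_inv c := rfl

variable [Fintype K]

theorem card_diag_E6 {q : ℕ} (hq : IsPrimePow q) (hK : Fintype.card K = q ^ 2) :
    Nat.gcd 3 (q + 1) * Nat.card ↥(chevE6.diagonalSubgroup K ⊓ twistedE6 K q) = (q - 1) ^ 4 * (q + 1) ^ 2 := by
  have b := bundle_of_mem K memE6
  have hA := b.hA
  obtain ⟨φ, h1, h2, _⟩ := exists_frob hq hK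
  have hq2 : 2 ≤ q := hq.two_le
  rw [← thetaE6_range hA (by omega) φ h1 h2]
  have hcard := card_range_mul_card_ker (thetaE6 hA q)
  have hU : Nat.card Kˣ = (q + 1) * (q - 1) := by
    classical
    rw [Nat.card_eq_fintype_card, Fintype.card_units, hK, ← Nat.sq_sub_sq q 1, one_pow]
  have hF : Nat.card (FixU K q) = q - 1 := by
    rw [IsCyclic.card_powMonoidHom_ker, hU]
    exact Nat.gcd_eq_right (Dvd.intro_left _ rfl)
  have hker : Nat.card (thetaE6 hA q).ker = Nat.gcd 3 (q + 1) := by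
    rw [Nat.card_congr (thetaE6KerEquiv hA q), IsCyclic.card_powMonoidHom_ker, hU]
    exact Nat.gcd_eq_right ((Nat.gcd_dvd_right 3 (q + 1)).mul_right _)
  rw [hker, Nat.card_prod, Nat.card_prod, Nat.card_prod, hF, hU] at hcard
  rw [mul_comm, hcard]
  ring

end Cfsg.Agent.Lib.Helper23
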