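import Cfsg.Agent.Lib.Helper23.TwAutE6
import Cfsg.Agent.Lib.Helper23.TwAutD4b
import Cfsg.Agent.S1102

/-!
# `|Out ²E₆(q)| = 2 gcd(3, q+1) f`
-/

set_option autoImplicit false

namespace Cfsg.Agent.Lib.Helper23.TwAut

open Cfsg.Lie Matrix Cfsg.Agent.Lib.Helper23 Cfsg.Agent.Lib.Helper22 Cfsg.Agent.Lib.Helper45
open Cfsg.Agent.Lib.Helper45.AutAbs

/-- the nodes of `²E₆` -/
def orbE6' : Fin 4 → List ℕ := ![[1], [3], [0, 5], [2, 4]]

theorem orbE6'_mem : ∀ i, orbE6' i ∈ orbsE6 := by decide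
theorem orbE6'_surj : ∀ J ∈ orbsE6, ∃ i, orbE6' i = J := by decide
theorem orbE6'_inj : Function.Injective orbE6' := by decide

theorem e6_cart1 : chevE6.cartan 1 (sgR chevE6 true 3) = -1 ∧ chevE6.cartan 3 (sgR chevE6 true 2) = -1 ∧
    chevE6.cartan 3 (sgR chevE6 true 4) = -1 ∧ chevE6.cartan 2 (sgR chevE6 true 0) = -1 ∧
    chevE6.cartan 4 (sgR chevE6 true 0) = 0 ∧ chevE6.cartan 2 (sgR chevE6 true 5) = 0 ∧
    chevE6.cartan 4 (sgR chevE6 true 5) = -1 := by decide +kernel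

theorem e6_bonds : ∀ p ∈ [((1 : ℕ), (0 : ℕ)), (1, 5), (1, 2), (1, 4), (3, 0), (3, 5)],
    p.1 < chevE6.rank ∧ p.2 < chevE6.rank ∧ p.1 ≠ p.2 ∧ chevE6.bonds p.1 p.2 = 0 := by decide +kernel

/-- rigidity of the diagram of type `F₄` with weights -/
theorem rigid_F4 (Cm : Fin 4 → Fin 4 → Prop) (h02 : Cm 0 2) (h03 : Cm 0 3) (h12 : Cm 1 2) (h13 : ¬ Cm 1 3)
    (π : Equiv.Perm (Fin 4)) (hlow : ∀ i, (π i : ℕ) < 2 ↔ (i : ℕ) < 2)
    (hC : ∀ i j, Cm i j ↔ Cm (π i) (π j)) : π = 1 := by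
  have v : ∀ i : Fin 4, (π i : ℕ) < 4 := fun i => (π i).2
  have inj : ∀ i j : Fin 4, (π i : ℕ) = π j → i = j := fun i j h => π.injective (Fin.ext h)
  have l0 := hlow 0
  have l1 := hlow 1
  have l2 := hlow 2
  have l3 := hlow 3
  have q3 : π 3 = 2 ∨ π 3 = 3 := by
    have h1 := v 3
    have h2 : ¬ (π 3 : ℕ) < 2 := fun h => by have := l3.1 h; simp at this
    rcases Nat.lt_or_ge (π 3 : ℕ) 3 with h | h
    · left; apply Fin.ext; show (π 3 : ℕ) = 2; omega
    · right; apply Fin.ext; show (π 3 : ℕ) = 3; omega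
  have q1 : π 1 = 0 ∨ π 1 = 1 := by
    have h2 : (π 1 : ℕ) < 2 := l1.2 (by simp)
    rcases Nat.lt_or_ge (π 1 : ℕ) 1 with h | h
    · left; apply Fin.ext; show (π 1 : ℕ) = 0; omega
    · right; apply Fin.ext; show (π 1 : ℕ) = 1; omega
  have n13 : ¬ Cm (π 1) (π 3) := fun h => h13 ((hC 1 3).2 h)
  have p1 : π 1 = 1 := by
    rcases q1 with h | h
    · exfalso
      rw [h] at n13
      rcases q3 with h' | h' <;> rw [h'] at n13
      · exact n13 h02
      · exact n13 h03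
    · exact h
  have p3 : π 3 = 3 := by
    rcases q3 with h | h
    · exfalso
      rw [p1, h] at n13
      exact n13 h12
    · exact h
  have p0 : π 0 = 0 := by
    have h2 : (π 0 : ℕ) < 2 := l0.2 (by simp)
    have h3 : (π 0 : ℕ) ≠ 1 := fun h => by
      have := inj 0 1 (by rw [h, p1]; rfl)
      exact absurd this (by decide)
    apply Fin.ext; show (π 0 : ℕ) = 0; omega
  have p2 : π 2 = 2 := by
    have h1 := v 2
    have h2 : ¬ (π 2 : ℕ) < 2 := fun h => by have := l2.1 h; simp at this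
    have h3 : (π 2 : ℕ) ≠ 3 := fun h => by
      have := inj 2 3 (by rw [h, p3]; rfl)
      exact absurd this (by decide)
    apply Fin.ext; show (π 2 : ℕ) = 2; omega
  ext i
  fin_cases i
  · simp [p0]
  · simp [p1]
  · simp [p2]
  · simp [p3]

theorem mp_comm_iff {G : Type*} [Group G] {θ : G ≃* G} {A A' B B' : Subgroup G} (hA : Mp θ A A')
    (hB : Mp θ B B') :
    (∀ a ∈ A, ∀ b ∈ B, a * b = b * a) ↔ (∀ a ∈ A', ∀ b ∈ B', a * b = b * a) := by
  constructor
  · intro h a ha b hb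
    obtain ⟨a', ha', rfl⟩ := hA.exists_preimage ha
    obtain ⟨b', hb', rfl⟩ := hB.exists_preimage hb
    rw [← map_mul, ← map_mul, h a' ha' b' hb']
  · intro h a ha b hb
    apply θ.injective
    rw [map_mul, map_mul, h _ (hA.mem ha) _ (hB.mem hb)]

theorem sq_sub_one (q : ℕ) (hq : 1 ≤ q) : q ^ 2 - 1 = (q - 1) * (q + 1) := by
  obtain ⟨m, rfl⟩ : ∃ m, q = m + 1 := ⟨q - 1, by omega⟩
  have : (m + 1) ^ 2 = (m + 1 - 1) * (m + 1 + 1) + 1 := by
    simp only [Nat.add_sub_cancel]; ring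
  omega

variable {K : Type*} [Field K] [Fintype K]

theorem card_out_E6 (p f : ℕ) [Fact p.Prime] [CharP K p] (hK : Fintype.card K = p ^ (2 * f))
    (hf : 1 ≤ f)
    (hS : ∃ P : Sylow p ↥(twistedE6 K (p ^ f)), (P : Subgroup ↥(twistedE6 K (p ^ f))) =
      (chevE6.posUnipotent K).subgroupOf (twistedE6 K (p ^ f)))
    (hNC : ∀ hA : AddFact chevE6 K, ¬ Commute (hA.X (chevE6.simple 3) 1)
      (hA.X (chevE6.simple 2) 1 * hA.X (chevE6.simple 4) 1)) :
    Nat.card (Cfsg.Out ↥(twistedE6 K (p ^ f))) = 2 * Nat.gcd 3 (p ^ f + 1) * f := by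
  have hp : p.Prime := Fact.out
  set q := p ^ f with hqdef
  have hq : IsPrimePow q := ⟨p, f, hp.prime, hf, rfl⟩
  have hq1 : 1 < q := hq.one_lt
  have hK' : Fintype.card K = q ^ 2 := by rw [hK, hqdef, ← pow_mul, mul_comm]
  obtain ⟨σ, φ, hφ, h3, C⟩ := e6_twC hq hK'
  have hSyl : ∀ θ : ↥(twistedE6 K q) ≃* ↥(twistedE6 K q), ∃ g,
      Mp (θ.trans (cj g)) (sT (twistedE6 K q) (chevE6.posUnipotent K))
        (sT (twistedE6 K q) (chevE6.posUnipotent K)) := by
    intro θ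
    obtain ⟨P, hP⟩ := hS
    have := mp_of_sylow P θ
    rw [hP] at this
    exact this
  obtain ⟨P, n0, PS⟩ := C.psys orbE6' orbE6'_mem orbE6'_surj orbE6'_inj hSyl
  have hA := (bundle_of_mem K Cfsg.Agent.Lib.Helper45.memE6).hA
  obtain ⟨k1, k2, k3, k4, k5, k6, k7⟩ := e6_cart1
  have TS := C.tsys orbE6' orbE6'_mem
    (fun i j => (i = 0 ∧ j = 1) ∨ (i = 1 ∧ j = 3) ∨ (i = 3 ∧ j = 2)) 2 (by
      rintro i j (⟨rfl, rfl⟩ | ⟨rfl, rfl⟩ | ⟨rfl, rfl⟩)
      · refine ⟨fun t ht => ht, fun a ha0 ha u => ?_⟩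
        show AddFact.xJχ _ φ (chiJ chevE6 φ [1] a) true [3] u = AddFact.xJ _ φ true [3] (a⁻¹ * u)
        simp only [AddFact.xJχ, AddFact.xJ_cons, AddFact.xJ_nil, chiJ, k1, _root_.zpow_neg_one, mul_one]
      · refine ⟨fun t _ => h3 t, fun a ha0 ha u => ?_⟩
        have ha' : φ a = a := ha
        show AddFact.xJχ _ φ (chiJ chevE6 φ [3] a) true [2, 4] u = AddFact.xJ _ φ true [2, 4] (a⁻¹ * u)
        simp only [AddFact.xJχ, AddFact.xJ_cons, AddFact.xJ_nil, chiJ, k2, k3, _root_.zpow_neg_one, mul_one,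
          map_mul, map_inv₀, ha']
      · refine ⟨fun t _ => h3 t, fun a ha0 ha u => ?_⟩
        show AddFact.xJχ _ φ (chiJ chevE6 φ [2, 4] a) true [0, 5] u = AddFact.xJ _ φ true [0, 5] (a⁻¹ * u)
        simp only [AddFact.xJχ, AddFact.xJ_cons, AddFact.xJ_nil, chiJ, k4, k5, k6, k7,
          _root_.zpow_neg_one, zpow_zero, mul_one, one_mul, map_mul, map_inv₀])
    (by
      have e32 : Relation.ReflTransGen
          (fun i j : Fin 4 => (i = 0 ∧ j = 1) ∨ (i = 1 ∧ j = 3) ∨ (i = 3 ∧ j = 2)) 3 2 :=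
        Relation.ReflTransGen.single (Or.inr (Or.inr ⟨rfl, rfl⟩))
      have e12 := Relation.ReflTransGen.head (r := fun i j : Fin 4 =>
        (i = 0 ∧ j = 1) ∨ (i = 1 ∧ j = 3) ∨ (i = 3 ∧ j = 2)) (a := 1) (Or.inr (Or.inl ⟨rfl, rfl⟩)) e32
      have e02 := Relation.ReflTransGen.head (r := fun i j : Fin 4 =>
        (i = 0 ∧ j = 1) ∨ (i = 1 ∧ j = 3) ∨ (i = 3 ∧ j = 2)) (a := 0) (Or.inl ⟨rfl, rfl⟩) e12
      intro i
      fin_cases i
      · exact e02
      · exact e12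
      · exact Relation.ReflTransGen.refl
      · exact e32)
    h3
  have cq : ∀ i : Fin 4, (i : ℕ) < 2 → Nat.card {x : K // (φ ^ (orbE6' i).length) x = x} = q := by
    intro i hi
    have : ∀ x : K, (φ ^ (orbE6' i).length) x = x ↔ x ^ q = x := fun x => by
      have : (φ ^ (orbE6' i).length) x = φ x := by
        fin_cases i
        · rfl
        · rfl
        · simp at hi
        · simp at hi
      rw [this, hφ]
    rw [Nat.card_congr (Equiv.subtypeEquivRight this)]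
    exact card_fix_frob hq1 (by norm_num) hK'
  have cq2 : ∀ i : Fin 4, ¬ (i : ℕ) < 2 → Nat.card {x : K // (φ ^ (orbE6' i).length) x = x} = q ^ 2 := by
    intro i hi
    rw [← hK']
    apply card_fix_all
    fin_cases i
    · simp at hi
    · simp at hi
    · exact h3
    · exact h3
  have hqq : q < q ^ 2 := by
    have : q ^ 1 < q ^ 2 := Nat.pow_lt_pow_right hq1 (by norm_num)
    rwa [pow_one] at this
  -- commutation
  have hcomm : ∀ i j : ℕ, (i < chevE6.rank ∧ j < chevE6.rank ∧ i ≠ j ∧ chevE6.bonds i j = 0) → ∀ t u : K,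
      Commute (hA.X (chevE6.simple i) t) (hA.X (chevE6.simple j) u) := by
    intro i j h t u
    apply Units.ext
    simp only [Units.val_mul, AddFact.coe_X]
    exact (simple_comm (F := K) chevE6 Cfsg.Agent.Lib.Helper45.memE6).1 ⟨i, h.1⟩ ⟨j, h.2.1⟩
      (fun e => h.2.2.1 (congrArg Fin.val e)) h.2.2.2 t u
  have b10 := hcomm 1 0 (e6_bonds (1, 0) (by simp))
  have b15 := hcomm 1 5 (e6_bonds (1, 5) (by simp))
  have b12 := hcomm 1 2 (e6_bonds (1, 2) (by simp))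
  have b14 := hcomm 1 4 (e6_bonds (1, 4) (by simp))
  have b30 := hcomm 3 0 (e6_bonds (3, 0) (by simp))
  have b35 := hcomm 3 5 (e6_bonds (3, 5) (by simp))
  have two : ∀ (i j : Fin 4) (a₁ a₂ a₃ : ℕ), orbE6' i = [a₁] → orbE6' j = [a₂, a₃] →
      (∀ t u : K, Commute (hA.X (chevE6.simple a₁) t) (hA.X (chevE6.simple a₂) u)) →
      (∀ t u : K, Commute (hA.X (chevE6.simple a₁) t) (hA.X (chevE6.simple a₃) u)) →
      ∀ x ∈ C.XS true (orbE6'_mem i), ∀ y ∈ C.XS true (orbE6'_mem j), x * y = y * x := by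
    intro i j a₁ a₂ a₃ e1 e2 c1 c2 x hx y hy
    obtain ⟨t, _, ex⟩ := hx
    obtain ⟨u, _, ey⟩ := hy
    apply Subtype.ext
    rw [Subgroup.coe_mul, Subgroup.coe_mul, ex, ey, e1, e2]
    simp only [AddFact.xJ_cons, AddFact.xJ_nil, mul_one, sgR_true]
    exact ((c1 t u).mul_right (c2 t _)).eq
  have rig : ∀ (θ : ↥(twistedE6 K q) ≃* ↥(twistedE6 K q)) (π : Equiv.Perm (Fin 4)),
      (∀ i, Mp θ (C.XS true (orbE6'_mem i)) (C.XS true (orbE6'_mem (π i)))) → π = 1 := by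
    intro θ π h
    apply rigid_F4 (fun i j => ∀ x ∈ C.XS true (orbE6'_mem i), ∀ y ∈ C.XS true (orbE6'_mem j), x * y = y * x)
      (two 0 2 1 0 5 rfl rfl b10 b15) (two 0 3 1 2 4 rfl rfl b12 b14) (two 1 2 3 0 5 rfl rfl b30 b35)
    · intro hc
      have h1 : (φ ^ (orbE6' 1).length) (1 : K) = 1 := map_one _
      have h2 : (φ ^ (orbE6' 3).length) (1 : K) = 1 := map_one _
      have := hc ⟨_, C.xJ_mem (orbE6'_mem 1) true h1⟩ ⟨1, h1, rfl⟩ ⟨_, C.xJ_mem (orbE6'_mem 3) true h2⟩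
        ⟨1, h2, rfl⟩
      have e := congrArg Subtype.val this
      apply hNC hA
      have e' : AddFact.xJ hA φ true [3] 1 * AddFact.xJ hA φ true [2, 4] 1 =
          AddFact.xJ hA φ true [2, 4] 1 * AddFact.xJ hA φ true [3] 1 := e
      simp only [AddFact.xJ_cons, AddFact.xJ_nil, mul_one, sgR_true, map_one] at e'
      exact e'
    · intro i
      have h2 := mp_card (h i)
      rw [C.card_XS, C.card_XS] at h2
      constructor
      · intro h3
        by_contra h4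
        rw [cq _ h3, cq2 _ h4] at h2
        omega
      · intro h3
        by_contra h4
        rw [cq _ h3, cq2 _ h4] at h2
        omega
    · intro i j
      exact mp_comm_iff (h i) (h j)
  have main := C.card_out_tw orbE6' orbE6'_mem orbE6'_surj 2 h3
    (fun τ t => by rw [hφ, hφ, map_pow])
    (by
      intro a ha
      have a0 := (ha 0).2
      have a1 := (ha 1).2
      have a2 := (ha 2).2
      have a3 := (ha 3).2
      refine ⟨fun j => if j = 1 then Units.mk0 (a 0) a0 else if j = 3 then Units.mk0 (a 1) a1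
        else if j = 0 then Units.mk0 (a 2) a2
        else if j = 5 then Units.mk0 (φ (a 2)) ((map_ne_zero φ).2 a2)
        else if j = 2 then Units.mk0 (a 3) a3
        else Units.mk0 (φ (a 3)) ((map_ne_zero φ).2 a3), fun i => ?_⟩
      fin_cases i
      · show DComp φ _ [1] (a 0)
        simp [DComp]
      · show DComp φ _ [3] (a 1)
        simp [DComp]
      · show DComp φ _ [0, 5] (a 2)
        simp [DComp]
      · show DComp φ _ [2, 4] (a 3)
        simp [DComp])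
    (C.hstd_of PS TS rig)
  rw [card_param, Fin.prod_univ_four, cq 0 (by simp), cq 1 (by simp), cq2 2 (by simp), cq2 3 (by simp),
    card_ringAut p (2 * f) hK, sq_sub_one q (by omega)] at main
  have h1102 := Cfsg.Agent.S1102.result hq hK'
  have hpos : 0 < (q - 1) ^ 4 * (q + 1) ^ 2 := by
    have : 0 < q - 1 := by omega
    positivity
  have e2 : (2 * Nat.gcd 3 (q + 1) * f) * ((q - 1) ^ 4 * (q + 1) ^ 2) =
      Nat.card (Cfsg.Out ↥(twistedE6 K q)) * ((q - 1) ^ 4 * (q + 1) ^ 2) := by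
    rw [← h1102]
    have : Nat.card (Cfsg.Out ↥(twistedE6 K q)) *
        (Nat.gcd 3 (q + 1) * Nat.card ↥(chevE6.diagonalSubgroup K ⊓ twistedE6 K q)) =
        Nat.gcd 3 (q + 1) * (Nat.card (Cfsg.Out ↥(twistedE6 K q)) *
          Nat.card ↥(chevE6.diagonalSubgroup K ⊓ twistedE6 K q)) := by ring
    rw [this, ← main, h1102]
    ring
  exact (Nat.eq_of_mul_eq_mul_right hpos e2).symm

end Cfsg.Agent.Lib.Helper23.TwAut
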