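import Cfsg.Agent.Lib.Helper23.TwAutCount

/-!
# Automorphisms of twisted groups: the count of the outer automorphism group
-/

set_option autoImplicit false

namespace Cfsg.Agent.Lib.Helper23.TwAut

open Cfsg.Lie Matrix Cfsg.Agent.Lib.Helper23 Cfsg.Agent.Lib.Helper22 Cfsg.Agent.Lib.Helper45
open Cfsg.Agent.Lib.Helper45.AutAbs

variable {D : ChevalleyDatum} {K : Type*} [Field K]

namespace TwC

variable {b : Bundle D K} {σ : GL D.Idx K → GL D.Idx K} {ρ ρ' : ℕ → ℕ} {c : ℕ → K → K}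
  {O : List (List ℕ)} {cert : List (List ℕ × List (List ℕ))} {G1 : Subgroup (GL D.Idx K)}
  {φ : K →+* K} (C : TwC b σ ρ ρ' c O cert G1 φ)
include C

theorem xJ_inj {J : List ℕ} (hJ : J ∈ O) (sg : Bool) {t u : K}
    (h : b.hA.xJ φ sg J t = b.hA.xJ φ sg J u) : t = u := by
  have : b.hA.xJ φ sg J (t + -u) = 1 := by
    rw [b.hA.xJ_add φ (C.orth J hJ), ← b.hA.xJ_inv φ (C.orth J hJ), h, mul_inv_cancel]
  have := C.xJ_eq_one hJ sg this
  exact eq_neg_of_add_eq_zero_left this |>.trans (neg_neg u)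

theorem fix_std {n : ℕ} (orb : Fin n → List ℕ) (hτ : ∀ (τ : K ≃+* K) t, τ (φ t) = φ (τ t))
    {a : Fin n → K} (ha : ∀ i, (φ ^ (orb i).length) (a i) = a i) (τ : K ≃+* K) (i : Fin n) (sg : Bool)
    {t : K} (ht : (φ ^ (orb i).length) t = t) :
    (φ ^ (orb i).length) (pw sg (a i) * τ t) = pw sg (a i) * τ t := by
  rw [map_mul, pw_map, ha i]
  congr 1
  have := iter_comm φ (τ : K →+* K) (hτ τ) (orb i).length t
  rw [ht] at this
  exact this.symm

theorem card_out_tw [Finite K] {n : ℕ} (orb : Fin n → List ℕ) (horb1 : ∀ i, orb i ∈ O)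
    (horb2 : ∀ J ∈ O, ∃ i, orb i = J) (i0 : Fin n) (top : ∀ t, (φ ^ (orb i0).length) t = t)
    (hτ : ∀ (τ : K ≃+* K) t, τ (φ t) = φ (τ t))
    (hd : ∀ a : Fin n → K, (∀ i, (φ ^ (orb i).length) (a i) = a i ∧ a i ≠ 0) →
      ∃ d : ℕ → Kˣ, ∀ i, DComp φ d (orb i) (a i))
    (hstd : ∀ θ : ↥G1 ≃* ↥G1, ∃ (g : ↥G1) (τ : K ≃+* K) (a : Fin n → K),
      (∀ i, (φ ^ (orb i).length) (a i) = a i ∧ a i ≠ 0) ∧ C.IsStd orb horb1 (θ.trans (cj g)) a τ) :
    Nat.card ({a : Fin n → K // ∀ i, (φ ^ (orb i).length) (a i) = a i ∧ a i ≠ 0} × (K ≃+* K)) =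
      Nat.card (Cfsg.Out ↥G1) * Nat.card ↥(D.diagonalSubgroup K ⊓ G1) := by
  choose κ hκ1 hκ2 using fun h : ↥(D.diagonalSubgroup K ⊓ G1) => C.diag_conj orb horb1 h.2.1 h.2.2
  have hex : ∀ p : {a : Fin n → K // ∀ i, (φ ^ (orb i).length) (a i) = a i ∧ a i ≠ 0} × (K ≃+* K),
      ∃ θ : ↥G1 ≃* ↥G1, C.IsStd orb horb1 θ p.1.1 p.2 ∧
        Mp θ (sT G1 (D.posUnipotent K)) (sT G1 (D.posUnipotent K)) ∧
        Mp θ (sT G1 (D.negUnipotent K)) (sT G1 (D.negUnipotent K)) := by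
    intro p
    obtain ⟨d, hd'⟩ := hd p.1.1 p.1.2
    exact C.exists_isStd orb horb1 horb2 p.1.1 (fun i => (p.1.2 i).1) d hd' p.2 (hτ p.2)
  apply card_out_abs
    (fun θ (p : {a : Fin n → K // ∀ i, (φ ^ (orb i).length) (a i) = a i ∧ a i ≠ 0} × (K ≃+* K)) =>
      C.IsStd orb horb1 θ p.1.1 p.2)
    (fun h p => (⟨fun i => κ h i * p.1.1 i, fun i => ⟨by rw [map_mul, (hκ1 h i).1, (p.1.2 i).1],
      mul_ne_zero (hκ1 h i).2 (p.1.2 i).2⟩⟩, p.2))
    (fun h => (⟨h, h.2.2⟩ : ↥G1))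
  · intro θ θ' p h h'
    exact C.isStd_unique horb2 h h'
  · intro p
    obtain ⟨θ, h, -⟩ := hex p
    exact ⟨θ, h⟩
  · intro θ
    obtain ⟨g, τ, a, ha, h⟩ := hstd θ
    refine ⟨g⁻¹, (⟨a, ha⟩, τ), θ.trans (cj g), h, fun y => ?_⟩
    simp only [MulEquiv.trans_apply, cj_apply]
    group
  · intro θ p h hs i sg t ht
    have hf := C.fix_std orb hτ (fun i => (p.1.2 i).1) p.2 i sg ht
    have hf' : (φ ^ (orb i).length) (pw sg (κ h i * p.1.1 i) * p.2 t) = pw sg (κ h i * p.1.1 i) * p.2 t := by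
      rw [pw_mul, mul_assoc, map_mul, hf, pw_map, (hκ1 h i).1]
    apply Subtype.ext
    show (h : GL D.Idx K) * ((θ (C.xS sg (horb1 i) t) : ↥G1) : GL D.Idx K) * (h : GL D.Idx K)⁻¹ = _
    rw [hs i sg t ht, C.coe_xS _ _ hf, C.coe_xS _ _ hf', hκ2 h i sg _ hf, pw_mul, mul_assoc]
  · intro p h h' e
    have e1 : ∀ i, κ h i = κ h' i := by
      intro i
      have := congrFun (congrArg (fun q => q.1.1) e) i
      exact mul_right_cancel₀ (p.1.2 i).2 this
    have e2 : (h : GL D.Idx K)⁻¹ * (h' : GL D.Idx K) = 1 := by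
      apply C.eq_one_of_central (AddFact.diag_le_borel (mul_mem (inv_mem h.2.1) h'.2.1))
      intro J hJ sg t ht
      obtain ⟨i, rfl⟩ := horb2 J hJ
      have h1 := hκ2 h i sg t ht
      have h2 := hκ2 h' i sg t ht
      rw [← e1 i, ← h1] at h2
      have e3 : (h : GL D.Idx K)⁻¹ * (h' : GL D.Idx K) * b.hA.xJ φ sg (orb i) t *
          ((h : GL D.Idx K)⁻¹ * (h' : GL D.Idx K))⁻¹ =
          (h : GL D.Idx K)⁻¹ * ((h' : GL D.Idx K) * b.hA.xJ φ sg (orb i) t * (h' : GL D.Idx K)⁻¹) *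
            (h : GL D.Idx K) := by group
      rw [e3, h2]; group
    exact Subtype.ext (inv_mul_eq_one.1 e2)
  · intro θ θ' p p' x hs hs' hx
    obtain ⟨θ1, s1, u1, v1⟩ := hex p
    obtain ⟨θ2, s2, u2, v2⟩ := hex p'
    obtain rfl := C.isStd_unique horb2 hs s1
    obtain rfl := C.isStd_unique horb2 hs' s2
    have hxH : (x : GL D.Idx K) ∈ D.diagonalSubgroup K := by
      apply C.mem_diag_of_norm2 x.2
      · intro u hu hu1
        have h1 := hx (θ.symm ⟨u, hu1⟩)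
        rw [MulEquiv.apply_symm_apply] at h1
        have h2 : θ' (θ.symm ⟨u, hu1⟩) ∈ sT G1 (D.posUnipotent K) := u2.mem (u1.symm.mem (mem_sT.2 hu))
        rw [h1] at h2
        exact mem_sT.1 h2
      · intro u hu hu1
        have h1 := hx (θ.symm ⟨u, hu1⟩)
        rw [MulEquiv.apply_symm_apply] at h1
        have h2 : θ' (θ.symm ⟨u, hu1⟩) ∈ sT G1 (D.negUnipotent K) := v2.mem (v1.symm.mem (mem_sT.2 hu))
        rw [h1] at h2
        exact mem_sT.1 h2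
    let h : ↥(D.diagonalSubgroup K ⊓ G1) := ⟨x, hxH, x.2⟩
    have key : ∀ (i : Fin n) (t : K), (φ ^ (orb i).length) t = t →
        p'.1.1 i * p'.2 t = κ h i * (p.1.1 i * p.2 t) := by
      intro i t ht
      have hf := C.fix_std orb hτ (fun i => (p.1.2 i).1) p.2 i true ht
      have hf' := C.fix_std orb hτ (fun i => (p'.1.2 i).1) p'.2 i true ht
      have h1 := congrArg Subtype.val (hx (C.xS true (horb1 i) t))
      rw [hs i true t ht, hs' i true t ht, C.coe_xS _ _ hf'] at h1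
      have h2 : b.hA.xJ φ true (orb i) (pw true (p'.1.1 i) * p'.2 t) =
          (x : GL D.Idx K) * b.hA.xJ φ true (orb i) (pw true (p.1.1 i) * p.2 t) * (x : GL D.Idx K)⁻¹ := by
        rw [h1, Subgroup.coe_mul, Subgroup.coe_mul, Subgroup.coe_inv, C.coe_xS _ _ hf]
      rw [hκ2 h i true _ hf] at h2
      exact C.xJ_inj (horb1 i) true h2
    have ka : ∀ i, p'.1.1 i = κ h i * p.1.1 i := by
      intro i
      have := key i 1 (map_one _)
      rwa [map_one, map_one, mul_one, mul_one] at this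
    refine ⟨h, Prod.ext (Subtype.ext (funext ka)) (RingEquiv.ext fun t => ?_)⟩
    have := key i0 t (top t)
    rw [ka i0, mul_assoc] at this
    exact mul_left_cancel₀ (p.1.2 i0).2 (mul_left_cancel₀ (hκ1 h i0).2 this)

end TwC

end Cfsg.Agent.Lib.Helper23.TwAut
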