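import Cfsg.Agent.Lib.Helper45.TwistAsm

/-!
# Fixed points of a twisting endomorphism on `U`: `σ`-stable blocks of (not necessarily commuting) roots
-/

set_option autoImplicit false

namespace Cfsg.Agent.Lib.Helper23
open Cfsg.Lie Matrix Cfsg.Agent.Lib.Helper22 Cfsg.Agent.Lib.Helper45

variable {D : ChevalleyDatum} {F : Type*} [Field F]

/-- coefficient function of a word -/
def toFn (w : List (ℕ × F)) : ℕ → F := fun a => (w.lookup a).getD 0

theorem wL_toFn : ∀ w : List (ℕ × F), (w.map Prod.fst).Nodup → wL (w.map Prod.fst) (toFn w) = w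
  | [], _ => rfl
  | p :: w, h => by
    rw [List.map_cons, List.nodup_cons] at h
    rw [List.map_cons, wL_cons]
    have e1 : toFn (p :: w) p.1 = p.2 := by
      obtain ⟨a, x⟩ := p
      simp [toFn, List.lookup_cons]
    have e2 : wL (w.map Prod.fst) (toFn (p :: w)) = wL (w.map Prod.fst) (toFn w) := by
      apply wL_congr
      intro a ha
      have hne : a ≠ p.1 := fun e => h.1 (e ▸ ha)
      obtain ⟨a', x⟩ := p
      simp only [toFn, List.lookup_cons]
      have : (a == a') = false := by simpa using hne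
      rw [this]
    rw [e1, e2, wL_toFn w h.2]

theorem wL_fst (l : List ℕ) (t : ℕ → F) : (wL l t).map Prod.fst = l := by
  unfold wL
  rw [List.map_map]
  exact List.map_id _

section
variable (b : Bundle D F)

/-- products of root elements along the list `l` -/
def XL (l : List ℕ) : Set (GL D.Idx F) := {g | ∃ w : List (ℕ × F), w.map Prod.fst = l ∧ g = b.hA.W w}

theorem mem_XL_iff {l : List ℕ} (hnd : l.Nodup) {g : GL D.Idx F} :
    g ∈ XL b l ↔ ∃ t : ℕ → F, g = b.hA.W (wL l t) := by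
  constructor
  · rintro ⟨w, rfl, rfl⟩
    exact ⟨toFn w, by rw [wL_toFn w hnd]⟩
  · rintro ⟨t, rfl⟩
    exact ⟨_, wL_fst l t, rfl⟩

theorem XL_le_group {l : List ℕ} {g : GL D.Idx F} (hg : g ∈ XL b l) : g ∈ D.group F := by
  obtain ⟨w, _, rfl⟩ := hg
  exact b.hA.W_mem_group _

theorem XL_conj {v : List ℕ} (hv : ∀ i ∈ v, i < D.rank) {l : List ℕ} (hl : ∀ a ∈ l, a < D.nroots)
    {g : GL D.Idx F} (hg : g ∈ XL b l) :
    b.hA.nword v * g * (b.hA.nword v)⁻¹ ∈ XL b (l.map (wact D v)) := by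
  obtain ⟨w, rfl, rfl⟩ := hg
  obtain ⟨w', h1, h2⟩ := conj_W_acts b (acts_nword b hv) w (fun p hp => hl _ (List.mem_map_of_mem hp))
  exact ⟨w', h1, h2⟩

theorem XL_conj_inv {v : List ℕ} (hv : ∀ i ∈ v, i < D.rank) {l : List ℕ} (hl : ∀ a ∈ l, a < D.nroots)
    {g : GL D.Idx F} (hg : g ∈ XL b (l.map (wact D v))) :
    (b.hA.nword v)⁻¹ * g * b.hA.nword v ∈ XL b l := by
  obtain ⟨w, hw, rfl⟩ := hg
  obtain ⟨w', h1, h2⟩ := conj_W_acts b (acts_nword_inv b hv) w (by
    intro p hp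
    have : p.1 ∈ w.map Prod.fst := List.mem_map_of_mem hp
    rw [hw] at this
    obtain ⟨a, ha, e⟩ := List.mem_map.1 this
    rw [← e]
    exact b.hR.wact_lt hv (hl a ha))
  rw [inv_inv] at h2
  refine ⟨w', ?_, h2⟩
  rw [h1, hw, List.map_map]
  conv_rhs => rw [← List.map_id l]
  apply List.map_congr_left
  intro a ha
  exact b.hR.wact_reverse hv (hl a ha)

variable (σ : GL D.Idx F → GL D.Idx F)

/-- `σ` maps products along `l` to products along `l` -/
def StabL (l : List ℕ) : Prop := ∀ g ∈ XL b l, σ g ∈ XL b l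

/-- the fixed products along `l` -/
def FixL (l : List ℕ) : Set (GL D.Idx F) := {g | g ∈ XL b l ∧ σ g = g}

variable {σ} {ρ ρ' : ℕ → ℕ} {c : ℕ → F → F} (hσ : IsTwist b.hA σ ρ ρ' c)
include hσ

theorem sigma_conj {m g : GL D.Idx F} (hm : m ∈ D.group F) (hfix : σ m = m) (hg : g ∈ D.group F) :
    σ (m * g * m⁻¹) = m * σ g * m⁻¹ := by
  rw [hσ.mul _ (mul_mem hm hg) _ (inv_mem hm), hσ.mul _ hm _ hg, sigma_inv hσ.mul hm, hfix]

theorem sigma_conj' {m g : GL D.Idx F} (hm : m ∈ D.group F) (hfix : σ m = m) (hg : g ∈ D.group F) :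
    σ (m⁻¹ * g * m) = m⁻¹ * σ g * m := by
  rw [hσ.mul _ (mul_mem (inv_mem hm) hg) _ hm, hσ.mul _ (inv_mem hm) _ hg, sigma_inv hσ.mul hm, hfix]

theorem StabL.conj {v : List ℕ} (hv : ∀ i ∈ v, i < D.rank) (hfix : σ (b.hA.nword v) = b.hA.nword v)
    {l : List ℕ} (hl : ∀ a ∈ l, a < D.nroots) (hg : StabL b σ (l.map (wact D v))) : StabL b σ l := by
  intro g hgl
  have hm : b.hA.nword v ∈ D.group F := b.hA.mono_le_group (b.hA.nword_mem_mono b.hR hv)
  have h1 := hg _ (XL_conj b hv hl hgl)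
  rw [sigma_conj b hσ hm hfix (XL_le_group b hgl)] at h1
  have h2 := XL_conj_inv b hv hl h1
  have e : (b.hA.nword v)⁻¹ * (b.hA.nword v * σ g * (b.hA.nword v)⁻¹) * b.hA.nword v = σ g := by group
  rwa [e] at h2

/-- conjugation by a fixed element of `N` identifies the fixed products along two blocks -/
theorem card_FixL_conj {v : List ℕ} (hv : ∀ i ∈ v, i < D.rank) (hfix : σ (b.hA.nword v) = b.hA.nword v)
    {l : List ℕ} (hl : ∀ a ∈ l, a < D.nroots) :
    Nat.card (FixL b σ l) = Nat.card (FixL b σ (l.map (wact D v))) := by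
  have hm : b.hA.nword v ∈ D.group F := b.hA.mono_le_group (b.hA.nword_mem_mono b.hR hv)
  refine Nat.card_congr
    { toFun := fun g => ⟨b.hA.nword v * g.1 * (b.hA.nword v)⁻¹, XL_conj b hv hl g.2.1, ?_⟩
      invFun := fun g => ⟨(b.hA.nword v)⁻¹ * g.1 * b.hA.nword v, XL_conj_inv b hv hl g.2.1, ?_⟩
      left_inv := ?_
      right_inv := ?_ }
  · rw [sigma_conj b hσ hm hfix (XL_le_group b g.2.1), g.2.2]
  · rw [sigma_conj' b hσ hm hfix (XL_le_group b g.2.1), g.2.2]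
  · intro g
    apply Subtype.ext
    show (b.hA.nword v)⁻¹ * (b.hA.nword v * g.1 * (b.hA.nword v)⁻¹) * b.hA.nword v = g.1
    group
  · intro g
    apply Subtype.ext
    show b.hA.nword v * ((b.hA.nword v)⁻¹ * g.1 * b.hA.nword v) * (b.hA.nword v)⁻¹ = g.1
    group

/-- membership in a subgroup of the fixed products, transported by conjugation -/
theorem FixL_le_conj {G1 : Subgroup (GL D.Idx F)} {v : List ℕ} (hv : ∀ i ∈ v, i < D.rank)
    (hfix : σ (b.hA.nword v) = b.hA.nword v) (hvG : b.hA.nword v ∈ G1)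
    {l : List ℕ} (hl : ∀ a ∈ l, a < D.nroots) (hg : ∀ g ∈ FixL b σ (l.map (wact D v)), g ∈ G1) :
    ∀ g ∈ FixL b σ l, g ∈ G1 := by
  intro g hgl
  have hm : b.hA.nword v ∈ D.group F := b.hA.mono_le_group (b.hA.nword_mem_mono b.hR hv)
  have h1 := hg (b.hA.nword v * g * (b.hA.nword v)⁻¹) ⟨XL_conj b hv hl hgl.1, by
    rw [sigma_conj b hσ hm hfix (XL_le_group b hgl.1), hgl.2]⟩
  have e : g = (b.hA.nword v)⁻¹ * (b.hA.nword v * g * (b.hA.nword v)⁻¹) * b.hA.nword v := by group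
  rw [e]
  exact mul_mem (mul_mem (inv_mem hvG) h1) hvG

omit hσ in
theorem stab_fn : ∀ (bl : List (List ℕ)), bl.flatten.Nodup → (∀ β ∈ bl, StabL b σ β) → ∀ t : ℕ → F,
    ∃ t' : ℕ → F, ∀ β ∈ bl, σ (b.hA.W (wL β t)) = b.hA.W (wL β t')
  | [], _, _, _ => ⟨0, fun _ h => absurd h (List.not_mem_nil)⟩
  | β :: bl, hnd, hst, t => by
    rw [List.flatten_cons, List.nodup_append] at hnd
    obtain ⟨t₂, h₂⟩ := stab_fn bl hnd.2.1 (fun γ hγ => hst γ (List.mem_cons_of_mem _ hγ)) t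
    obtain ⟨t₁, h₁⟩ := (mem_XL_iff b hnd.1).1 (hst β (List.mem_cons_self ..) _ ⟨_, wL_fst β t, rfl⟩)
    classical
    refine ⟨fun a => if a ∈ β then t₁ a else t₂ a, ?_⟩
    intro γ hγ
    rcases List.mem_cons.1 hγ with rfl | hγ'
    · rw [h₁]
      congr 1
      exact wL_congr fun a ha => by simp [ha]
    · rw [h₂ γ hγ']
      congr 1
      apply wL_congr
      intro a ha
      have : a ∉ β := fun h => hnd.2.2 a h a (List.mem_flatten.2 ⟨γ, hγ', ha⟩) rfl
      simp [this]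

/-- blocks: a partition of the positive roots into `σ`-stable blocks -/
structure BlocksG (b : Bundle D F) (σ : GL D.Idx F → GL D.Idx F) (blocks : List (List ℕ)) : Prop where
  nodup : blocks.flatten.Nodup
  all : ∀ a, a ∈ blocks.flatten ↔ D.IsPosRoot a
  stab : ∀ β ∈ blocks, StabL b σ β

variable (hC : UComm D F) (hSep : USep b.hA) {blocks : List (List ℕ)} (hB : BlocksG b σ blocks)
include hC hSep hB

/-- a fixed element of `U` is the product of fixed block elements -/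
theorem fix_paramG {u : GL D.Idx F} (hu : u ∈ D.posUnipotent F) (hfix : σ u = u) :
    ∃ t : ℕ → F, u = b.hA.W (wL blocks.flatten t) ∧
      ∀ β ∈ blocks, σ (b.hA.W (wL β t)) = b.hA.W (wL β t) := by
  obtain ⟨t, rfl⟩ := exists_factor b.hA hC hB.nodup hB.all hu
  obtain ⟨t', ht'⟩ := stab_fn b blocks hB.nodup hB.stab t
  have e : σ (b.hA.W (wL blocks.flatten t)) = b.hA.W (wL blocks.flatten t') := by
    rw [W_wL_flatten b, W_wL_flatten b, sigma_prod b hσ _ (by
      intro x hx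
      obtain ⟨β, _, rfl⟩ := List.mem_map.1 hx
      exact b.hA.W_mem_group _), List.map_map]
    congr 1
    exact List.map_congr_left fun β hβ => ht' β hβ
  rw [e] at hfix
  have h1 := factor_unique b.hA hC hSep hB.nodup (fun a ha => (hB.all a).1 ha) hfix
  refine ⟨t, rfl, fun β hβ => ?_⟩
  rw [ht' β hβ]
  congr 1
  exact wL_congr fun a ha => h1 a (List.mem_flatten.2 ⟨β, hβ, ha⟩)

theorem fix_leG {G1 : Subgroup (GL D.Idx F)} (hgood : ∀ β ∈ blocks, ∀ g ∈ FixL b σ β, g ∈ G1)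
    {u : GL D.Idx F} (hu : u ∈ D.posUnipotent F) (hfix : σ u = u) : u ∈ G1 := by
  obtain ⟨t, rfl, h⟩ := fix_paramG b hσ hC hSep hB hu hfix
  rw [W_wL_flatten b]
  apply Subgroup.list_prod_mem
  intro x hx
  obtain ⟨β, hβ, rfl⟩ := List.mem_map.1 hx
  exact hgood β hβ _ ⟨⟨_, wL_fst β t, rfl⟩, h β hβ⟩

end

end Cfsg.Agent.Lib.Helper23
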