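import Cfsg.Agent.Lib.Helper23.TwSigma
import Cfsg.Agent.Lib.Helper23.TwE6
import Cfsg.Agent.Lib.Helper22.ChevGrE6
import Cfsg.Agent.S1034

set_option autoImplicit false

namespace Cfsg.Agent.Lib.Helper23

open Cfsg.Lie Matrix Cfsg.Agent.Lib.Helper22

variable {K : Type*} [Field K]

theorem hGen_of_mem {D : ChevalleyDatum} (K : Type*) [Field K]
    (hD : D ∈ [chevG2, chevB2, chevD4, chevF4, chevE6, chevE7, chevE8]) : HGen D K :=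
  fun g hg => Cfsg.Agent.S1034.result D hD g hg

namespace AddFact

variable {D : ChevalleyDatum}

theorem hP_mul_of (hA : AddFact D K) (hS : TorS D K) {L L' L'' : List (ℕ × K)} (hL : ∀ p ∈ L, p.1 < D.rank ∧ p.2 ≠ 0)
    (hL' : ∀ p ∈ L', p.1 < D.rank ∧ p.2 ≠ 0) (hL'' : ∀ p ∈ L'', p.1 < D.rank ∧ p.2 ≠ 0)
    (h : ∀ s < D.nroots, chiP D L'' s = chiP D L s * chiP D L' s) : hA.hP L'' = hA.hP L * hA.hP L' :=
  Units.ext (by
    rw [Units.val_mul, (hA.hP_isTor hS hL).2.1, (hA.hP_isTor hS hL').2.1, (hA.hP_isTor hS hL'').2.1, dg_mul,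
      dg_congr h])

end AddFact

/-- a six-tuple of torus parameters -/
def L6 (x0 x1 x2 x3 x4 x5 : K) : List (ℕ × K) := [(0, x0), (1, x1), (2, x2), (3, x3), (4, x4), (5, x5)]

theorem L6_ok {x0 x1 x2 x3 x4 x5 : K} (h0 : x0 ≠ 0) (h1 : x1 ≠ 0) (h2 : x2 ≠ 0) (h3 : x3 ≠ 0) (h4 : x4 ≠ 0)
    (h5 : x5 ≠ 0) : ∀ p ∈ L6 x0 x1 x2 x3 x4 x5, p.1 < chevE6.rank ∧ p.2 ≠ 0 := by
  have hr : chevE6.rank = 6 := by decide +kernel
  intro p hp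
  simp only [L6, List.mem_cons, List.not_mem_nil, or_false] at hp
  rw [hr]
  rcases hp with rfl | rfl | rfl | rfl | rfl | rfl <;> simp [*]

theorem chiP_L6 (x0 x1 x2 x3 x4 x5 : K) (s : ℕ) : chiP chevE6 (L6 x0 x1 x2 x3 x4 x5) s =
    x0 ^ chevE6.cartan 0 s * (x1 ^ chevE6.cartan 1 s * (x2 ^ chevE6.cartan 2 s * (x3 ^ chevE6.cartan 3 s *
      (x4 ^ chevE6.cartan 4 s * x5 ^ chevE6.cartan 5 s)))) := by
  simp [chiP, L6]

theorem cartSE6 : ∀ j < 6, ∀ i < 6, chevE6.cartan i (chevE6.simple j) =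
    (([[2, 0, -1, 0, 0, 0], [0, 2, 0, -1, 0, 0], [-1, 0, 2, -1, 0, 0], [0, -1, -1, 2, -1, 0], [0, 0, 0, -1, 2, -1],
      [0, 0, 0, 0, -1, 2]] : List (List ℤ)).getD i []).getD j 0 := by decide +kernel

theorem cart3E6 : ∀ s < chevE6.nroots, (3 : ℤ) ∣ chevE6.cartan 0 s + 2 * chevE6.cartan 2 s + chevE6.cartan 4 s +
    2 * chevE6.cartan 5 s := by decide +kernel

/-- the kernel of the torus parametrisation -/
theorem kerE6 (hA : AddFact chevE6 K) {x0 x1 x2 x3 x4 x5 : K} (h0 : x0 ≠ 0) (h1 : x1 ≠ 0) (h2 : x2 ≠ 0)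
    (h3 : x3 ≠ 0) (h4 : x4 ≠ 0) (h5 : x5 ≠ 0) (h : hA.hP (L6 x0 x1 x2 x3 x4 x5) = 1) :
    x1 = 1 ∧ x3 = 1 ∧ x0 ^ 3 = 1 ∧ x2 = x0 ^ 2 ∧ x4 = x0 ∧ x5 = x0 ^ 2 := by
  have hS := torS_of_mem K memE6
  have hR := rootFacts_of_mem memE6
  rw [hA.hP_eq_one_iff hS (L6_ok h0 h1 h2 h3 h4 h5)] at h
  have hr : chevE6.rank = 6 := by decide +kernel
  have key : ∀ j < 6, chiP chevE6 (L6 x0 x1 x2 x3 x4 x5) (chevE6.simple j) = 1 :=
    fun j hj => h _ (hR.simple_lt (hr ▸ hj))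
  have r0 := key 0 (by norm_num)
  have r1 := key 1 (by norm_num)
  have r2 := key 2 (by norm_num)
  have r3 := key 3 (by norm_num)
  have r4 := key 4 (by norm_num)
  have r5 := key 5 (by norm_num)
  rw [chiP_L6, cartSE6 _ (by norm_num) 0 (by norm_num), cartSE6 _ (by norm_num) 1 (by norm_num),
    cartSE6 _ (by norm_num) 2 (by norm_num), cartSE6 _ (by norm_num) 3 (by norm_num),
    cartSE6 _ (by norm_num) 4 (by norm_num), cartSE6 _ (by norm_num) 5 (by norm_num)] at r0 r1 r2 r3 r4 r5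
  simp only [List.getD_cons_zero, List.getD_cons_succ, zpow_zero, one_mul, mul_one, _root_.zpow_neg_one] at r0 r1 r2 r3 r4 r5
  have e0 : x2 = x0 ^ 2 := by field_simp at r0; exact_mod_cast r0.symm
  have e1 : x3 = x1 ^ 2 := by field_simp at r1; exact_mod_cast r1.symm
  have e2 : x2 ^ 2 = x0 * x3 := by field_simp at r2; exact_mod_cast r2
  have e3 : x3 ^ 2 = x1 * x2 * x4 := by field_simp at r3; exact_mod_cast r3
  have e4 : x4 ^ 2 = x3 * x5 := by field_simp at r4; exact_mod_cast r4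
  have e5 : x4 = x5 ^ 2 := by field_simp at r5; exact_mod_cast r5.symm
  -- a = x0, b = x5, c = x1
  have f1 : x0 ^ 3 = x1 ^ 2 := by
    have : x0 * x0 ^ 3 = x0 * x1 ^ 2 := by rw [← e1, ← e2, e0]; ring
    exact mul_left_cancel₀ h0 this
  have f2 : x5 ^ 3 = x1 ^ 2 := by
    have : x5 * x5 ^ 3 = x5 * x1 ^ 2 := by rw [← e1, mul_comm x5 x3, ← e4, e5]; ring
    exact mul_left_cancel₀ h5 this
  have f3 : x0 ^ 4 = x1 * x5 ^ 2 := by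
    have : x0 ^ 2 * x0 ^ 4 = x0 ^ 2 * (x1 * x5 ^ 2) := by
      calc x0 ^ 2 * x0 ^ 4 = (x0 ^ 3) ^ 2 := by ring
        _ = x3 ^ 2 := by rw [f1, e1]
        _ = x1 * x2 * x4 := e3
        _ = _ := by rw [e0, e5]; ring
    exact mul_left_cancel₀ (pow_ne_zero 2 h0) this
  have c1 : x1 = 1 := by
    have : x1 ^ 7 * x1 = x1 ^ 7 * 1 := by
      calc x1 ^ 7 * x1 = (x1 ^ 2) ^ 4 := by ring
        _ = (x0 ^ 4) ^ 3 := by rw [← f1]; ring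
        _ = x1 ^ 3 * (x5 ^ 3) ^ 2 := by rw [f3]; ring
        _ = _ := by rw [f2]; ring
    exact mul_left_cancel₀ (pow_ne_zero 7 h1) this
  rw [c1, one_pow] at f1 f2 e1
  rw [c1, one_mul] at f3
  have g1 : x0 = x5 ^ 2 := by
    calc x0 = x0 ^ 3 * x0 := by rw [f1, one_mul]
      _ = x0 ^ 4 := by ring
      _ = _ := f3
  refine ⟨c1, e1, f1, e0, by rw [e5, ← g1], ?_⟩
  calc x5 = x5 ^ 3 * x5 := by rw [f2, one_mul]
    _ = (x5 ^ 2) ^ 2 := by ring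
    _ = _ := by rw [← g1]

theorem zetaE6 (hA : AddFact chevE6 K) {w : K} (hw : w ^ 3 = 1) : hA.hP (L6 w 1 (w ^ 2) 1 w (w ^ 2)) = 1 := by
  have hS := torS_of_mem K memE6
  have hw0 : w ≠ 0 := by
    rintro rfl
    simp at hw
  rw [hA.hP_eq_one_iff hS (L6_ok hw0 one_ne_zero (pow_ne_zero 2 hw0) one_ne_zero hw0 (pow_ne_zero 2 hw0))]
  intro s hs
  obtain ⟨m, hm⟩ := cart3E6 s hs
  rw [chiP_L6]
  have : w ^ chevE6.cartan 0 s * (1 ^ chevE6.cartan 1 s * ((w ^ 2) ^ chevE6.cartan 2 s * (1 ^ chevE6.cartan 3 s *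
      (w ^ chevE6.cartan 4 s * (w ^ 2) ^ chevE6.cartan 5 s)))) =
      w ^ (chevE6.cartan 0 s + 2 * chevE6.cartan 2 s + chevE6.cartan 4 s + 2 * chevE6.cartan 5 s) := by
    rw [zpow_add₀ hw0, zpow_add₀ hw0, zpow_add₀ hw0, _root_.zpow_mul, _root_.zpow_mul]
    simp only [_root_.one_zpow, one_mul]
    norm_cast
    ring
  rw [this, hm, _root_.zpow_mul]
  norm_cast
  rw [hw, _root_.one_zpow]

theorem L6_mul (hA : AddFact chevE6 K) {x0 x1 x2 x3 x4 x5 y0 y1 y2 y3 y4 y5 : K} (h0 : x0 ≠ 0) (h1 : x1 ≠ 0)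
    (h2 : x2 ≠ 0) (h3 : x3 ≠ 0) (h4 : x4 ≠ 0) (h5 : x5 ≠ 0) (k0 : y0 ≠ 0) (k1 : y1 ≠ 0)
    (k2 : y2 ≠ 0) (k3 : y3 ≠ 0) (k4 : y4 ≠ 0) (k5 : y5 ≠ 0) :
    hA.hP (L6 (x0 * y0) (x1 * y1) (x2 * y2) (x3 * y3) (x4 * y4) (x5 * y5)) =
      hA.hP (L6 x0 x1 x2 x3 x4 x5) * hA.hP (L6 y0 y1 y2 y3 y4 y5) := by
  have hS := torS_of_mem K memE6
  apply hA.hP_mul_of hS (L6_ok h0 h1 h2 h3 h4 h5) (L6_ok k0 k1 k2 k3 k4 k5)
    (L6_ok (mul_ne_zero h0 k0) (mul_ne_zero h1 k1) (mul_ne_zero h2 k2) (mul_ne_zero h3 k3) (mul_ne_zero h4 k4)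
      (mul_ne_zero h5 k5))
  intro s _
  rw [chiP_L6, chiP_L6, chiP_L6]
  simp only [mul_zpow]
  ring

end Cfsg.Agent.Lib.Helper23
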