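import Cfsg.Agent.Lib.Helper23.TwHE6
import Cfsg.Agent.Lib.Helper23.TwField

set_option autoImplicit false

namespace Cfsg.Agent.Lib.Helper23

open Cfsg.Lie Matrix Cfsg.Agent.Lib.Helper22

variable {K : Type*} [Field K]

/-- the units fixed by the `q`-th power map -/
abbrev FixU (K : Type*) [Field K] (q : ℕ) : Subgroup Kˣ := (powMonoidHom (q - 1) : Kˣ →* Kˣ).ker

theorem FixU.pow_eq {q : ℕ} (hq : 1 ≤ q) {a : Kˣ} (ha : a ∈ FixU K q) : (a : K) ^ q = a := by
  have h1 : a ^ (q - 1) = 1 := ha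
  have h2 : a ^ q = a := by
    calc a ^ q = a ^ (q - 1 + 1) := by rw [Nat.sub_add_cancel hq]
      _ = a := by rw [pow_succ, h1, one_mul]
  exact_mod_cast congrArg Units.val h2

theorem FixU.mem_of {q : ℕ} (hq : 1 ≤ q) {a : Kˣ} (ha : (a : K) ^ q = a) : a ∈ FixU K q := by
  have h2 : a ^ q = a := Units.ext (by simpa using ha)
  have h3 : a ^ (q - 1) * a = 1 * a := by rw [← pow_succ, Nat.sub_add_cancel hq, h2, one_mul]
  exact mul_right_cancel h3

/-- the parametrisation of the torus of `²E₆` -/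
noncomputable def thetaE6 (hA : AddFact chevE6 K) (q : ℕ) : (FixU K q × FixU K q × Kˣ × Kˣ) →* GL chevE6.Idx K where
  toFun x := hA.hP (L6 (x.2.2.1 : K) ((x.1 : Kˣ) : K) (x.2.2.2 : K) ((x.2.1 : Kˣ) : K) ((x.2.2.2 : K) ^ q)
    ((x.2.2.1 : K) ^ q))
  map_one' := by
    have := zetaE6 hA (w := (1 : K)) (one_pow 3)
    simpa using this
  map_mul' x y := by
    simp only [Prod.fst_mul, Prod.snd_mul, Subgroup.coe_mul, Units.val_mul, mul_pow]
    apply L6_mul hA <;> simp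

theorem thetaE6_apply (hA : AddFact chevE6 K) (q : ℕ) (x : FixU K q × FixU K q × Kˣ × Kˣ) :
    thetaE6 hA q x = hA.hP (L6 (x.2.2.1 : K) ((x.1 : Kˣ) : K) (x.2.2.2 : K) ((x.2.1 : Kˣ) : K) ((x.2.2.2 : K) ^ q)
    ((x.2.2.1 : K) ^ q)) := rfl

theorem cycE6 : CycO (fun i => [5, 1, 4, 3, 2, 0].getD i 0) OE6 := by
  intro J hJ
  simp only [OE6, List.mem_cons, List.not_mem_nil, or_false] at hJ
  rcases hJ with rfl | rfl | rfl | rfl
  · exact ⟨1, [], rfl, rfl⟩
  · exact ⟨3, [], rfl, rfl⟩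
  · exact ⟨0, [5], rfl, rfl⟩
  · exact ⟨2, [4], rfl, rfl⟩

theorem thetaE6_range (hA : AddFact chevE6 K) {q : ℕ} (hq : 1 ≤ q) (φ : K →+* K) (h1 : ∀ t, φ t = t ^ q)
    (h2 : ∀ t, (φ ^ 2) t = t) : (thetaE6 hA q).range = chevE6.diagonalSubgroup K ⊓ twistedE6 K q := by
  have hS := torS_of_mem K memE6
  have hR := rootFacts_of_mem memE6
  have hφ2 : ∀ t, φ (φ t) = t := fun t => by
    have := h2 t
    rwa [pow_two, RingHom.mul_def, RingHom.comp_apply] at this
  apply le_antisymm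
  · rintro _ ⟨⟨a, b, c, d⟩, rfl⟩
    rw [thetaE6_apply]
    have ha0 : ((a : Kˣ) : K) ≠ 0 := Units.ne_zero _
    have hb0 : ((b : Kˣ) : K) ≠ 0 := Units.ne_zero _
    have hc0 : (c : K) ≠ 0 := Units.ne_zero _
    have hd0 : (d : K) ≠ 0 := Units.ne_zero _
    have hok := L6_ok hc0 ha0 hd0 hb0 (pow_ne_zero q hd0) (pow_ne_zero q hc0)
    refine ⟨hA.hP_mem_diag hR hok, ?_⟩
    rw [twistedE6_eq hA φ h1 h2]
    have m1 := hA.hJ_mem φ (O := OE6) (J := [1]) (by simp [OE6]) (orthLE6 hA _ (by simp [OE6]))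
      (t := ((a : Kˣ) : K)) (by simpa [h1] using FixU.pow_eq hq a.2)
    have m2 := hA.hJ_mem φ (O := OE6) (J := [3]) (by simp [OE6]) (orthLE6 hA _ (by simp [OE6]))
      (t := ((b : Kˣ) : K)) (by simpa [h1] using FixU.pow_eq hq b.2)
    have m3 := hA.hJ_mem φ (O := OE6) (J := [0, 5]) (by simp [OE6]) (orthLE6 hA _ (by simp [OE6]))
      (t := (c : K)) (h2 _)
    have m4 := hA.hJ_mem φ (O := OE6) (J := [2, 4]) (by simp [OE6]) (orthLE6 hA _ (by simp [OE6]))
      (t := (d : K)) (h2 _)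
    have e : hA.hP (L6 (c : K) ((a : Kˣ) : K) (d : K) ((b : Kˣ) : K) ((d : K) ^ q) ((c : K) ^ q)) =
        hA.hJ φ [1] ((a : Kˣ) : K) * hA.hJ φ [3] ((b : Kˣ) : K) * hA.hJ φ [0, 5] (c : K) * hA.hJ φ [2, 4] (d : K) := by
      have e1 : hA.hJ φ [1] ((a : Kˣ) : K) * hA.hJ φ [3] ((b : Kˣ) : K) * hA.hJ φ [0, 5] (c : K) *
          hA.hJ φ [2, 4] (d : K) = hA.hP [(1, ((a : Kˣ) : K)), (3, ((b : Kˣ) : K)), (0, (c : K)), (5, (c : K) ^ q),
            (2, (d : K)), (4, (d : K) ^ q)] := by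
        simp [AddFact.hP, h1, mul_assoc]
      rw [e1]
      apply hA.hP_eq_of hS hok
      · have hr : chevE6.rank = 6 := by decide +kernel
        intro p hp
        simp only [List.mem_cons, List.not_mem_nil, or_false] at hp
        rw [hr]
        rcases hp with rfl | rfl | rfl | rfl | rfl | rfl <;> simp [*]
      · intro s _
        rw [chiP_L6]
        simp only [chiP, List.map_cons, List.map_nil, List.prod_cons, List.prod_nil]
        ring
    rw [e]
    exact mul_mem (mul_mem (mul_mem m1 m2) m3) m4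
  · rintro g ⟨hgH, hgG⟩
    obtain ⟨G⟩ := graphConjE60 hA
    have hfix : sigmaT G φ g = g := by
      rw [twistedE6_eq hA φ h1 h2] at hgG
      exact twG_fixed G φ graphFactsE60 hR rankE6 (orthLE6 hA) cycE6 hgG
    obtain ⟨c, hc, rfl⟩ := (hGen_of_mem K memE6).exists_hP hA hgH
    have hrange : List.range chevE6.rank = [0, 1, 2, 3, 4, 5] := by decide +kernel
    have hr : chevE6.rank = 6 := by decide +kernel
    rw [hrange] at hfix ⊢
    have eL : ([0, 1, 2, 3, 4, 5].map fun i => (i, c i)) = L6 (c 0) (c 1) (c 2) (c 3) (c 4) (c 5) := rfl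
    rw [eL] at hfix ⊢
    have n0 := hc 0 (by rw [hr]; norm_num)
    have n1 := hc 1 (by rw [hr]; norm_num)
    have n2 := hc 2 (by rw [hr]; norm_num)
    have n3 := hc 3 (by rw [hr]; norm_num)
    have n4 := hc 4 (by rw [hr]; norm_num)
    have n5 := hc 5 (by rw [hr]; norm_num)
    generalize c 0 = x0 at *
    generalize c 1 = x1 at *
    generalize c 2 = x2 at *
    generalize c 3 = x3 at *
    generalize c 4 = x4 at *
    generalize c 5 = x5 at *
    have p0 := (map_ne_zero φ).2 n0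
    have p1 := (map_ne_zero φ).2 n1
    have p2 := (map_ne_zero φ).2 n2
    have p3 := (map_ne_zero φ).2 n3
    have p4 := (map_ne_zero φ).2 n4
    have p5 := (map_ne_zero φ).2 n5
    have hok := L6_ok n0 n1 n2 n3 n4 n5
    rw [sigmaT_hP G φ graphFactsE60 hR (fun p hp => (hok p hp).1)] at hfix
    have e1 : hA.hP ((L6 x0 x1 x2 x3 x4 x5).map fun p => ([5, 1, 4, 3, 2, 0].getD p.1 0, φ p.2)) =
        hA.hP (L6 (φ x5) (φ x1) (φ x4) (φ x3) (φ x2) (φ x0)) := by
      apply hA.hP_eq_of hS _ (L6_ok p5 p1 p4 p3 p2 p0)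
      · intro s _
        rw [chiP_L6]
        simp only [chiP, L6, List.map_cons, List.map_nil, List.prod_cons, List.prod_nil, List.getD_cons_zero,
          List.getD_cons_succ]
        ring
      · intro p hp
        simp only [L6, List.map_cons, List.map_nil, List.mem_cons, List.not_mem_nil, or_false, List.getD_cons_zero,
          List.getD_cons_succ] at hp
        rw [hr]
        rcases hp with rfl | rfl | rfl | rfl | rfl | rfl <;> simp [*]
    rw [e1] at hfix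
    -- the quotient lies in the kernel
    have e2 : hA.hP (L6 (φ x5 / x0) (φ x1 / x1) (φ x4 / x2) (φ x3 / x3) (φ x2 / x4) (φ x0 / x5)) = 1 := by
      have := L6_mul hA (div_ne_zero p5 n0) (div_ne_zero p1 n1) (div_ne_zero p4 n2) (div_ne_zero p3 n3)
        (div_ne_zero p2 n4) (div_ne_zero p0 n5) n0 n1 n2 n3 n4 n5
      rw [div_mul_cancel₀ _ n0, div_mul_cancel₀ _ n1, div_mul_cancel₀ _ n2, div_mul_cancel₀ _ n3,
        div_mul_cancel₀ _ n4, div_mul_cancel₀ _ n5, hfix] at this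
      exact (mul_eq_right.1 this.symm)
    obtain ⟨k1, k3, k0, k2, k4, k5⟩ := kerE6 hA (div_ne_zero p5 n0) (div_ne_zero p1 n1) (div_ne_zero p4 n2)
      (div_ne_zero p3 n3) (div_ne_zero p2 n4) (div_ne_zero p0 n5) e2
    set z := φ x5 / x0 with hz
    have hz0 : z ≠ 0 := div_ne_zero p5 n0
    have f1 : φ x1 = x1 := by rwa [div_eq_one_iff_eq n1] at k1
    have f3 : φ x3 = x3 := by rwa [div_eq_one_iff_eq n3] at k3
    have f2 : φ x2 = z * x4 := by rw [← k4, div_mul_cancel₀ _ n4]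
    have f0 : φ x0 = z ^ 2 * x5 := by rw [← k5, div_mul_cancel₀ _ n5]
    have fz : φ z = z := by
      have : φ z * z ^ 2 = z * z ^ 2 := by
        rw [hz, map_div₀, hφ2, f0, ← hz]
        have : z * z ^ 2 = 1 := by rw [← k0]; ring
        rw [this]
        field_simp
      exact mul_right_cancel₀ (pow_ne_zero 2 hz0) this
    have hw : (z ^ 2) ^ 3 = 1 := by rw [← pow_mul, mul_comm, pow_mul, k0, one_pow]
    have e3 : hA.hP (L6 x0 x1 x2 x3 x4 x5) =
        hA.hP (L6 (x0 * z ^ 2) (x1 * 1) (x2 * (z ^ 2) ^ 2) (x3 * 1) (x4 * z ^ 2) (x5 * (z ^ 2) ^ 2)) := by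
      rw [L6_mul hA n0 n1 n2 n3 n4 n5 (pow_ne_zero 2 hz0) one_ne_zero (pow_ne_zero 2 (pow_ne_zero 2 hz0)) one_ne_zero
        (pow_ne_zero 2 hz0) (pow_ne_zero 2 (pow_ne_zero 2 hz0)), zetaE6 hA hw, mul_one]
    have hz4 : (z ^ 2) ^ 2 = z := by
      calc (z ^ 2) ^ 2 = z ^ 3 * z := by ring
        _ = z := by rw [k0, one_mul]
    rw [e3, hz4, mul_one, mul_one]
    refine ⟨(⟨Units.mk0 x1 n1, FixU.mem_of hq (by simpa [h1] using f1)⟩,
      ⟨Units.mk0 x3 n3, FixU.mem_of hq (by simpa [h1] using f3)⟩,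
      Units.mk0 (x0 * z ^ 2) (mul_ne_zero n0 (pow_ne_zero 2 hz0)), Units.mk0 (x2 * z) (mul_ne_zero n2 hz0)), ?_⟩
    rw [thetaE6_apply]
    simp only [Units.val_mk0]
    rw [← h1, ← h1, map_mul, map_mul, map_pow, fz, f2, f0]
    congr 2
    · ring
    · calc z ^ 2 * x5 * z ^ 2 = x5 * (z ^ 3 * z) := by ring
        _ = x5 * z := by rw [k0, one_mul]

end Cfsg.Agent.Lib.Helper23
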