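import Cfsg.Agent.Lib.Helper23.TwSimple
import Cfsg.Agent.Lib.Helper23.TwE6b
import Cfsg.Agent.Lib.Helper23.TwD4b

set_option autoImplicit false

namespace Cfsg.Agent.Lib.Helper23

open Cfsg.Lie Matrix

variable {K : Type*} [Field K] [Fintype K]

theorem connOE6 : ConnO chevE6 OE6 [0, 0, 3, 1] [0, 1, 3, 2] := by decide +kernel

theorem connOD4 : ConnO chevD4 OD4 [0, 0] [0, 1] := by decide +kernel

theorem simpleE6_of {q : ℕ} (hq : IsPrimePow q) (hK : Fintype.card K = q ^ 2) (hA : AddFact chevE6 K)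
    (hP : ∃ P : Cfsg.BNPair ↥(twistedE6 K q),
      P.B = (chevE6.borelSubgroup K ⊓ twistedE6 K q).subgroupOf (twistedE6 K q) ∧
      P.S = {s : ↥(twistedE6 K q) | ∃ J ∈ OE6, (s : GL chevE6.Idx K) = hA.nword J}) :
    IsSimpleGroup ↥(twistedE6 K q) ∧ ¬ IsMulCommutative ↥(twistedE6 K q) := by
  have b := bundle_of_mem K memE6
  obtain ⟨φ, h1, h2, _⟩ := exists_frob hq hK
  have hU : Group.IsNilpotent (chevE6.posUnipotent K) := b.hA.pos_isNilpotent b.hG
  have hG : ∀ J ∈ OE6, hA.nword J ∈ twistedE6 K q := by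
    intro J hJ
    rw [twistedE6_eq hA φ h1 h2]
    exact hA.nword_mem φ hJ (orthLE6 hA J hJ)
  have hnt : Nontrivial ↥(twistedE6 K q) := by
    have hm : hA.X (chevE6.simple 1) 1 ∈ twistedE6 K q := by
      rw [twistedE6_eq hA φ h1 h2]
      have := hA.xJ_mem φ (O := OE6) (J := [1]) (by simp [OE6]) true (t := 1) (map_one _)
      simpa [sgR_true] using this
    refine ⟨⟨⟨_, hm⟩, 1, ?_⟩⟩
    intro h
    have h1 : hA.X (chevE6.simple 1) 1 = 1 := congrArg Subtype.val h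
    exact one_ne_zero (hA.X_eq_one b.hTri (b.hR.simple_lt (by decide +kernel)) h1)
  exact hA.tw_isSimpleGroup_of b.hR b.hN b.hT b.hTri rankE6 hG hP connOE6 inferInstance (perfectE6 hq hK)
    (coreE6 hq hK) hnt

theorem simpleD4_of {q : ℕ} (hq : IsPrimePow q) (hK : Fintype.card K = q ^ 3) (hA : AddFact chevD4 K)
    (hP : ∃ P : Cfsg.BNPair ↥(twistedD4 K q),
      P.B = (chevD4.borelSubgroup K ⊓ twistedD4 K q).subgroupOf (twistedD4 K q) ∧
      P.S = {s : ↥(twistedD4 K q) | ∃ J ∈ OD4, (s : GL chevD4.Idx K) = hA.nword J}) :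
    IsSimpleGroup ↥(twistedD4 K q) ∧ ¬ IsMulCommutative ↥(twistedD4 K q) := by
  have b := bundle_of_mem K memD4
  obtain ⟨φ, h1, h2, _⟩ := exists_frob hq hK
  have hU : Group.IsNilpotent (chevD4.posUnipotent K) := b.hA.pos_isNilpotent b.hG
  have hG : ∀ J ∈ OD4, hA.nword J ∈ twistedD4 K q := by
    intro J hJ
    rw [twistedD4_eq hA φ h1 h2]
    exact hA.nword_mem φ hJ (orthLD4 hA J hJ)
  have hnt : Nontrivial ↥(twistedD4 K q) := by
    have hm : hA.X (chevD4.simple 1) 1 ∈ twistedD4 K q := by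
      rw [twistedD4_eq hA φ h1 h2]
      have := hA.xJ_mem φ (O := OD4) (J := [1]) (by simp [OD4]) true (t := 1) (map_one _)
      simpa [sgR_true] using this
    refine ⟨⟨⟨_, hm⟩, 1, ?_⟩⟩
    intro h
    have h1 : hA.X (chevD4.simple 1) 1 = 1 := congrArg Subtype.val h
    exact one_ne_zero (hA.X_eq_one b.hTri (b.hR.simple_lt (by decide +kernel)) h1)
  exact hA.tw_isSimpleGroup_of b.hR b.hN b.hT b.hTri rankD4 hG hP connOD4 inferInstance (perfectD4 hq hK)
    (coreD4 hq hK) hnt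

end Cfsg.Agent.Lib.Helper23
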