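import Cfsg.Agent.Lib.Helper49.W2ZC
import Cfsg.Agent.Lib.Helper45.StTab7

/-! LADDER W2 (S2400, case B2(3)): rung ZNW -/

set_option autoImplicit false

namespace Cfsg.Agent.Lib.Helper45.StW

open Cfsg.Lie Matrix Cfsg.Agent.Lib.Helper22 Cfsg.Agent.Lib.Helper23 Cfsg.Agent.Lib.Helper45
  Cfsg.Agent.Lib.Helper23.StP Cfsg.Agent.Lib.Helper45.StV

theorem znw_refl : ∀ i < chevB2.rank, (∀ r ∈ S2, chevB2.reflectRoot i r ∈ S2) := by decide +kernel

theorem znw_wact {l : List ℕ} (hl : ∀ i ∈ l, i < chevB2.rank) : ∀ r ∈ S2, wact chevB2 l r ∈ S2 := by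
  induction l with
  | nil => intro r hr; simpa using hr
  | cons i l ih =>
    intro r hr
    rw [wact_cons]
    exact znw_refl i (hl i (by simp)) _ (ih (fun j hj => hl j (by simp [hj])) r hr)

theorem znw_cases : ∀ r < chevB2.nroots, r ∈ S2 ∨ (r ∉ S2 ∧ r ∈ L2) := by decide +kernel

theorem znw_lt : ∀ r ∈ S2, r < chevB2.nroots := by decide +kernel

theorem znw_dec : ∀ r ∈ L2, (decB2 r).1 ∈ S2 ∧ (decB2 r).2.1 ∈ S2 ∧
    chevB2.commTerms (decB2 r).1 (decB2 r).2.1 = [(r, (decB2 r).2.2, 1, 1)] := by decide +kernel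

theorem znw_terms : ∀ p ∈ S2, ∀ q ∈ S2, ∀ c ∈ chevB2.commTerms p q,
    chevB2.commTerms p q = [(c.1, c.2.1, 1, 1)] := by decide +kernel

variable {K : Type*} [Field K] {hA : AddFact chevB2 K} {E : Type*} [Group E]

section partC
variable (C : CY chevB2 K hA E) (hB : B3 C)
include hB

theorem znw_short (l : List ℕ) (hl : ∀ i ∈ l, i < chevB2.rank) (e : E) (he : C.ρ e = hA.nword l) (r : ℕ)
    (hr : r ∈ S2) : ∃ d : K, ∀ t, e * C.Z r t * e⁻¹ = C.Z (wact chevB2 l r) (d * t) :=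
  C.conj_Z_nword memB2 hl he (znw_lt r hr) ((hB.good_iff r).2 hr) ((hB.good_iff _).2 (znw_wact hl r hr))
    (b3_zc C hB (znw_wact hl r hr))

/-- [ZNW], relative to [BZZ] -/
theorem b3_nword_of
    (hzz : ∀ {p q r : ℕ} {N : ℤ}, p ∈ S2 → q ∈ S2 → chevB2.commTerms p q = [(r, N, 1, 1)] →
      ∀ t u : K, Bc C p q t u = ZZ C r ((N : K) * (-t) * u))
    (l : List ℕ) (hl : ∀ i ∈ l, i < chevB2.rank) (e : E) (he : C.ρ e = hA.nword l) (r : ℕ)
    (hr : r < chevB2.nroots) : ∃ d : K, ∀ t, e * ZZ C r t * e⁻¹ = ZZ C (wact chevB2 l r) (d * t) := by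
  rcases znw_cases r hr with hS | ⟨hnS, hL⟩
  · obtain ⟨d, hd⟩ := znw_short C hB l hl e he r hS
    refine ⟨d, fun t => ?_⟩
    unfold ZZ
    rw [if_pos hS, if_pos (znw_wact hl r hS)]
    exact hd t
  · obtain ⟨hp, hq, hT⟩ := znw_dec r hL
    set p := (decB2 r).1 with hpdef
    set q := (decB2 r).2.1 with hqdef
    set N := (decB2 r).2.2 with hNdef
    obtain ⟨d1, h1⟩ := znw_short C hB l hl e he p hp
    obtain ⟨d2, h2⟩ := znw_short C hB l hl e he q hq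
    obtain ⟨c', hc', hc1⟩ := terms_wact memB2 hl (znw_lt p hp) (znw_lt q hq) (r, N, 1, 1) (by rw [hT]; simp)
    have hT' := znw_terms _ (znw_wact hl p hp) _ (znw_wact hl q hq) c' hc'
    rw [hc1] at hT'
    have hconj : ∀ t u, e * Bc C p q t u * e⁻¹ = Bc C (wact chevB2 l p) (wact chevB2 l q) (d1 * t) (d2 * u) := by
      intro t u
      unfold Bc
      rw [← h1, ← h2]
      group
    refine ⟨(c'.2.1 : K) * d1 * (N : K)⁻¹ * d2, fun t => ?_⟩
    have e1 : ZZ C r t = Bc C p q (-((N : K)⁻¹ * t)) 1 := by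
      unfold ZZ
      rw [if_neg hnS, if_pos hL]
    rw [e1, hconj, hzz (znw_wact hl p hp) (znw_wact hl q hq) hT']
    congr 1
    ring

end partC

end Cfsg.Agent.Lib.Helper45.StW
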