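import Cfsg.Agent.Lib.Helper49.W2ZRHO
import Cfsg.Agent.Lib.Helper23.W2ZNW
import Cfsg.Agent.Lib.Helper22.W2CM3
import Cfsg.Agent.Lib.Helper3.W3F3
import Cfsg.Agent.Lib.Helper23.StU8

/-! LADDER W2 (S2400, case B2(3)): rung L23 -/

set_option autoImplicit false

namespace Cfsg.Agent.Lib.Helper45.StW

open Cfsg.Lie Matrix Cfsg.Agent.Lib.Helper22 Cfsg.Agent.Lib.Helper23 Cfsg.Agent.Lib.Helper45
  Cfsg.Agent.Lib.Helper23.StP Cfsg.Agent.Lib.Helper45.StV

theorem l23_pair_short : ∀ s ∈ S2, chevB2.pairing 0 s = 1 ∨ chevB2.pairing 0 s = -1 := by decide +kernel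

theorem l23_pair_long : ∀ s ∈ L2, chevB2.pairing 0 s = 0 ∨ chevB2.pairing 0 s = 2 ∨ chevB2.pairing 0 s = -2 := by
  decide +kernel

theorem l23_lt : ∀ s ∈ S2 ++ L2, s < chevB2.nroots := by decide +kernel

theorem l23_ge : ∀ r, ¬ r < chevB2.nroots → r ∉ S2 ∧ r ∉ L2 := by
  intro r hr
  constructor
  · intro h; exact hr (l23_lt r (List.mem_append_left _ h))
  · intro h; exact hr (l23_lt r (List.mem_append_right _ h))

/-- [L23] -/
theorem lift_B2_3 {K : Type*} [Field K] [Fintype K] (hK : Fintype.card K = 3) (hA : AddFact chevB2 K)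
    {E : Type*} [Group E] (ρ : E →* GL chevB2.Idx K) (cen : ρ.ker ≤ Subgroup.center E)
    (lift : ∀ g ∈ chevB2.group K, ∃ e, ρ e = g) :
    ∃ τ : chevB2.SteinbergCover K →* E, ∀ x, ρ (τ x) = (sysCover (by simp) hA).π x := by
  obtain ⟨h3, h30⟩ := f3_cases hK
  have h20 : (2 : K) ≠ 0 := by
    intro h
    have : (1 : K) = 0 := by linear_combination h30 - h
    exact one_ne_zero this
  obtain ⟨h0, hh0, e0⟩ := exists_diag memB2 hA (fun i => (chevB2.coroot.getD 0 #[]).getD i 0)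
    (v := (-1 : K)) (neg_ne_zero.2 one_ne_zero)
  have e0' : ∀ s < chevB2.nroots, ∀ t, h0 * hA.X s t * h0⁻¹ = hA.X s ((-1 : K) ^ (chevB2.pairing 0 s) * t) := e0
  have eS : ∀ s ∈ S2, ∀ t, h0 * hA.X s t * h0⁻¹ = hA.X s ((-1 : K) * t) := by
    intro s hs t
    rw [e0' s (l23_lt s (List.mem_append_left _ hs))]
    rcases l23_pair_short s hs with h | h <;> rw [h] <;> simp
  have eL : ∀ s ∈ L2, ∀ t, h0 * hA.X s t * h0⁻¹ = hA.X s t := by
    intro s hs t
    rw [e0' s (l23_lt s (List.mem_append_right _ hs))]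
    rcases l23_pair_long s hs with h | h | h <;> rw [h] <;> simp
  have hc1 : (-1 : K) - 1 ≠ 0 := by
    intro h
    apply h20
    linear_combination -h
  let C : CY chevB2 K hA E :=
    { ρ := ρ, cen := cen, lift := lift, c := -1, hc1 := hc1, hh := fun _ => h0, hh_mem := fun _ => hh0,
      good := fun r => r ∈ S2, hh_conj := fun r _ hg t => eS r hg t }
  have hB : B3 C := ⟨fun _ => Iff.rfl, h3, h30, fun _ r hr t => eL r hr t⟩
  let Z : CZ chevB2 K hA E :=
    { ρ := ρ, cen := cen, lift := lift, Z := ZZ C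
      Z_of_ge := fun r hr t => by
        unfold ZZ
        rw [if_neg (l23_ge r hr).1, if_neg (l23_ge r hr).2]
      rho_Z := b3_rho C hB
      Z_add := b3_add C hB
      conj_diag := fun e he r hr d h1 t => b3_diag C hB e he r hr d h1 t
      conj_nword := fun l hl e he r hr =>
        b3_nword_of C hB (fun hp hq hT => b3_zz C hB hp hq hT) l hl e he r hr }
  have hS : HS hA := fun r hr s hs => ⟨h0, hh0, -1, hc1, eL r hr, eS s hs⟩
  have hZS : ∀ s ∈ S2, ∀ t, ZZ C s t = C.Z s t := by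
    intro s hs t
    unfold ZZ
    rw [if_pos hs]
  have hH : HB Z := by
    intro p hp q hq r N hT t u
    show (ZZ C q u)⁻¹ * (ZZ C p t)⁻¹ * ZZ C q u * ZZ C p t = ZZ C r ((N : K) * (-t) * u)
    rw [hZS q hq, hZS p hp]
    exact b3_zz C hB hp hq hT t u
  exact Z.exists_lift memB2 (stTab_of_mem memB2) (b3_cm Z hS hH h20) (utabs_of_mem memB2).pos

end Cfsg.Agent.Lib.Helper45.StW
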